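/-
The family criterion for simplicity of `F_S(G)`, without normality or full normalization of the members:
the members `R` are subgroups of `S` with `C_G(R) ≤ R`, `N_G(S)` is generated by elements of `O^{p'}(N_G(R))`
normalizing `S`.  Also a version read through an injective homomorphism `ι : G → H`.
-/
import Mathlib
import Cfsg.Prelude.Def_FusionSystem
import Cfsg.Agent.Lib.Fusion.SimpleCriterion3

set_option autoImplicit false

namespace Cfsg.Agent.Lib.Fusion.AltCrit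

open Cfsg Cfsg.FusionSystem Cfsg.Agent.Lib.Fusion.Basic Cfsg.Agent.Lib.Fusion.Saturated
open Cfsg.Agent.Lib.Fusion.SimpleCriterion2 Cfsg.Agent.Lib.Fusion.SimpleCriterion3
open Cfsg.Agent.Lib.Fusion.GroupSylow Cfsg.Agent.Lib.Fusion.StrongInvariance

variable {G : Type*} [Group G] [Finite G] {p : ℕ} [Fact p.Prime]

theorem KK_le_normalizer (R : Subgroup G) : KK p R ≤ Subgroup.normalizer (R : Set G) :=
  (Subgroup.closure_le _).2 fun _ h => h.1

theorem isCentric_of_centralizer_le (S : Subgroup G) {R : Subgroup G} (hRS : R ≤ S)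
    (hC : Subgroup.centralizer (R : Set G) ≤ R) : (groupFusionSystem S).IsCentric R := by
  refine ⟨hRS, fun Q hQ => ?_⟩
  obtain ⟨-, hQS, k, rfl⟩ := (isConj_iff _ _ _).1 hQ
  intro x hx
  have hx2 : x ∈ Subgroup.centralizer ((cj k R : Subgroup G) : Set G) := hx.2
  rw [centralizer_cj] at hx2
  exact cj_mono hC hx2

/-- Conjugation by elements of `O^{p'}(N_G(R))` lies in the invariant subsystem `E` for any `R ≤ S`. -/
theorem conj_mem_of_closure' (S : Sylow p G) {E : FusionSystem (S : Subgroup G)}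
    (hE : E.IsInvariantIn (groupFusionSystem (S : Subgroup G))) {R : Subgroup G}
    (hRS : R ≤ (S : Subgroup G)) {g : G} (hg : g ∈ KK p R) :
    ∃ hgN : g ∈ Subgroup.normalizer (R : Set G), R.normalizerMonoidHom ⟨g, hgN⟩ ∈ E.autGroup R := by
  classical
  have hgN := KK_le_normalizer R hg
  refine ⟨hgN, ?_⟩
  have hE' := hE
  obtain ⟨hsub, hT, hinv, hfr⟩ := hE
  have hs : StrongClause E (groupFusionSystem (S : Subgroup G)) := strong_of_invariant hinv hfr
  obtain ⟨R₁, hconj, hFN⟩ := exists_fullyNormalized (F := groupFusionSystem (S : Subgroup G)) hRS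
  obtain ⟨-, hR₁S, k, hk⟩ := (isConj_iff _ _ _).1 hconj
  subst hk
  have hg₁ := mem_KK_cj (p := p) hg k
  obtain ⟨hgN₁, hmem⟩ := conj_mem_of_closure S hE' hFN hg₁
  have hφ := autGroup_mem_hom hR₁S hmem
  let ψ : ↥(cj k R) →* G := conjHom (cj k R) k⁻¹
  have hψv : ∀ x : ↥(cj k R), ψ x ∈ R := by
    intro x
    have := mem_cj.1 x.2
    simpa [ψ, conjHom] using this
  have hψ : ψ ∈ (groupFusionSystem (S : Subgroup G)).Hom (cj k R) :=
    ⟨hR₁S, fun x => hRS (hψv x), k⁻¹, fun y => rfl⟩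
  obtain ⟨χ, hχ, hχe⟩ := hs (cj k R) (cj k R) le_rfl hR₁S _ hφ
    (fun x => ((cj k R).normalizerMonoidHom ⟨k * g * k⁻¹, hgN₁⟩ x).2) ψ hψ
  have hRM : R ≤ ((cj k R).subgroupOf (cj k R)).map ψ := by
    intro y hy
    refine ⟨⟨k * y * k⁻¹, conj_mem_cj hy⟩, by simp [Subgroup.mem_subgroupOf], ?_⟩
    show k⁻¹ * (k * y * k⁻¹) * k⁻¹⁻¹ = y
    group
  refine mem_autGroup_of_mem (mem_of_eq_res hχ hRM (fun y => ?_))
  have hy' : k * (y : G) * k⁻¹ ∈ cj k R := conj_mem_cj y.2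
  have h1 := hχe ⟨k * (y : G) * k⁻¹, hy'⟩ (by
    refine ⟨⟨k * (y : G) * k⁻¹, hy'⟩, by simp [Subgroup.mem_subgroupOf], rfl⟩)
  have e : (⟨ψ (Subgroup.inclusion le_rfl ⟨k * (y : G) * k⁻¹, hy'⟩), by
      refine ⟨⟨k * (y : G) * k⁻¹, hy'⟩, by simp [Subgroup.mem_subgroupOf], rfl⟩⟩ :
        ↥(((cj k R).subgroupOf (cj k R)).map ψ)) = Subgroup.inclusion hRM y := by
    apply Subtype.ext
    show k⁻¹ * (k * (y : G) * k⁻¹) * k⁻¹⁻¹ = y
    group
  rw [e] at h1
  rw [h1]
  show g * (y : G) * g⁻¹ = k⁻¹ * ((k * g * k⁻¹) * (k * (y : G) * k⁻¹) * (k * g * k⁻¹)⁻¹) * k⁻¹⁻¹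
  group

/-- The family criterion without normality or full normalization. -/
theorem isSimple_of_family' (S : Sylow p G) (hS1 : (S : Subgroup G) ≠ ⊥)
    (ha : ∀ T : Subgroup G, (groupFusionSystem (S : Subgroup G)).StronglyClosed T →
      T = ⊥ ∨ T = (S : Subgroup G))
    (𝓡 : Set (Subgroup G))
    (h𝓡 : ∀ R ∈ 𝓡, R ≤ (S : Subgroup G) ∧ Subgroup.centralizer (R : Set G) ≤ R)
    (hb : Subgroup.normalizer ((S : Subgroup G) : Set G) ≤ DD p 𝓡 (S : Subgroup G)) :
    (groupFusionSystem (S : Subgroup G)).IsSimple p := by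
  have hS : IsPGroup p (S : Subgroup G) := S.isPGroup'
  have hF := isSaturated_groupFusionSystem S
  refine ⟨hF, hS1, ?_⟩
  intro T E hE
  obtain ⟨⟨hEs, -, hinv⟩, -⟩ := hE
  have hsc := hinv.2.1
  rcases ha T hsc with h | h
  · exact Or.inl h
  right
  subst h
  refine ⟨rfl, fun P => Set.Subset.antisymm (hinv.1 P) ?_⟩
  let f := (S : Subgroup G).normalizerMonoidHom
  let D₁ : Subgroup G := ((E.autGroup (S : Subgroup G)).comap f).map
    (Subgroup.normalizer ((S : Subgroup G) : Set G)).subtype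
  have hD : DD p 𝓡 (S : Subgroup G) ≤ D₁ := by
    refine (Subgroup.closure_le _).2 ?_
    rintro g ⟨R, hR, hgK, hgN⟩
    refine ⟨⟨g, hgN⟩, ?_, rfl⟩
    obtain ⟨hRS, hRC⟩ := h𝓡 R hR
    have hCen := isCentric_of_centralizer_le (S : Subgroup G) hRS hRC
    obtain ⟨hgNR, hmem⟩ := conj_mem_of_closure' S hinv hRS hgK
    refine mem_autGroup_of_mem ?_
    refine mem_of_res_centric hS hF hEs hinv.1 (f ⟨g, hgN⟩)
      ⟨le_rfl, fun x => (f ⟨g, hgN⟩ x).2, g, fun x => rfl⟩ hCen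
      (fun x hx => ?_) (autGroup_mem_hom hRS hmem) (fun x => rfl)
    exact (Subgroup.mem_normalizer_iff.1 hgNR _).1 hx
  have hkey : (groupFusionSystem (S : Subgroup G)).autGroup (S : Subgroup G) ≤
      E.autGroup (S : Subgroup G) := by
    rw [autGroup_groupFusionSystem _ le_rfl]
    intro α hα
    obtain ⟨g, -, hgN, rfl⟩ := GroupSylow.mem_autInducedBy_iff.1 hα
    obtain ⟨⟨g', hg'⟩, hmem, hgg⟩ := hD (hb hgN)
    have e : g' = g := hgg
    subst e
    exact hmem
  intro φ hφ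
  have hPS : P ≤ (S : Subgroup G) := hφ.1
  obtain ⟨α, hα, φ₀, hφ₀, h⟩ := hinv.2.2.2 P hPS φ hφ
  have h1 := autGroup_mem_hom le_rfl (hkey hα)
  exact comp_mem' hφ₀ h1 (map_mem_S hφ₀) (fun x => h x _)

/-- The conjugation invariant form. -/
theorem isSimple_of_data' (S₀ : Sylow p G) (hS1 : (S₀ : Subgroup G) ≠ ⊥)
    (ha : ∀ T : Subgroup G, T ≤ (S₀ : Subgroup G) →
      (∀ x ∈ T, ∀ g : G, g * x * g⁻¹ ∈ (S₀ : Subgroup G) → g * x * g⁻¹ ∈ T) →
      T = ⊥ ∨ T = (S₀ : Subgroup G))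
    (𝓡 : Set (Subgroup G))
    (hle : ∀ R ∈ 𝓡, R ≤ (S₀ : Subgroup G))
    (hcen : ∀ R ∈ 𝓡, Subgroup.centralizer (R : Set G) ≤ R)
    (hb : Subgroup.normalizer ((S₀ : Subgroup G) : Set G) ≤ DD p 𝓡 (S₀ : Subgroup G))
    (S : Sylow p G) : (groupFusionSystem (S : Subgroup G)).IsSimple p := by
  obtain ⟨g, hg⟩ := MulAction.exists_smul_eq G S₀ S
  have hSg : (S : Subgroup G) = cj g (S₀ : Subgroup G) := by
    rw [← hg, Sylow.coe_subgroup_smul]
    rfl
  have hS1' : (S : Subgroup G) ≠ ⊥ := by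
    rw [hSg]
    intro h
    apply hS1
    have := congrArg (cj g⁻¹) h
    rw [cj_inv_cj] at this
    rw [this]
    simp [cj]
  refine isSimple_of_family' S hS1' ?_ (cj g '' 𝓡) ?_ ?_
  · intro T hT
    obtain ⟨hT1, hT2⟩ := stronglyClosed_iff.1 hT
    have hT₀1 : cj g⁻¹ T ≤ (S₀ : Subgroup G) := by
      rw [← cj_inv_cj g (S₀ : Subgroup G), ← hSg]
      exact cj_mono hT1
    have hT₀2 : ∀ x ∈ cj g⁻¹ T, ∀ k : G, k * x * k⁻¹ ∈ (S₀ : Subgroup G) →
        k * x * k⁻¹ ∈ cj g⁻¹ T := by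
      intro x hx k hk
      have hx' : g * x * g⁻¹ ∈ T := by
        have := mem_cj.1 hx
        simpa using this
      have hk' : (g * k * g⁻¹) * (g * x * g⁻¹) * (g * k * g⁻¹)⁻¹ ∈ (S : Subgroup G) := by
        rw [hSg]
        have := conj_mem_cj (g := g) hk
        convert this using 1
        group
      have h3 := hT2 _ hx' _ hk'
      rw [mem_cj]
      convert h3 using 1
      group
    rcases ha _ hT₀1 hT₀2 with h | h
    · left
      have := congrArg (cj g) h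
      rw [cj_cj_inv] at this
      rw [this]
      simp [cj]
    · right
      have := congrArg (cj g) h
      rw [cj_cj_inv] at this
      rw [this, hSg]
  · rintro _ ⟨R, hR, rfl⟩
    constructor
    · rw [hSg]
      exact cj_mono (hle R hR)
    · intro x hx
      rw [centralizer_cj] at hx
      exact cj_mono (hcen R hR) hx
  · rw [hSg, normalizer_cj]
    intro x hx
    obtain ⟨y, hy, rfl⟩ := hx
    have hy' := hb hy
    have key : ∀ y ∈ DD p 𝓡 (S₀ : Subgroup G),
        MulAut.conj g y ∈ DD p (cj g '' 𝓡) (cj g (S₀ : Subgroup G)) := by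
      intro y hy
      induction hy using Subgroup.closure_induction with
      | mem y hy =>
        obtain ⟨R, hR, hy1, hy2⟩ := hy
        refine Subgroup.subset_closure ⟨cj g R, ⟨R, hR, rfl⟩, mem_KK_cj hy1 g, ?_⟩
        rw [normalizer_cj]
        exact conj_mem_cj hy2
      | one => simp [Subgroup.one_mem]
      | mul x y _ _ hx hy =>
        rw [map_mul]
        exact Subgroup.mul_mem _ hx hy
      | inv x _ hx =>
        rw [map_inv]
        exact Subgroup.inv_mem _ hx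
    exact key y hy'

/-! ### Reading the criterion through an injective homomorphism -/

section Ambient

variable {H : Type*} [Group H]

/-- `O^{p'}(N_A(R))` for `A` a subgroup of the ambient group. -/
def KH (p : ℕ) (A R : Subgroup H) : Subgroup H :=
  Subgroup.closure {z : H | z ∈ A ∧ z ∈ Subgroup.normalizer (R : Set H) ∧ ∃ k : ℕ, orderOf z = p ^ k}

/-- The generating subgroup. -/
def DH (p : ℕ) (A S : Subgroup H) (𝓡 : Set (Subgroup H)) : Subgroup H :=
  Subgroup.closure {y : H | y ∈ A ∧ y ∈ Subgroup.normalizer (S : Set H) ∧ ∃ R ∈ 𝓡, y ∈ KH p A R}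

theorem mem_KK_of_mem_KH (ι : G →* H) (hι : Function.Injective ι) {R : Subgroup H} {g : G}
    (hg : ι g ∈ KH p ι.range R) : g ∈ KK p (R.comap ι) := by
  have hle : KH p ι.range R ≤ (KK p (R.comap ι)).map ι := by
    refine (Subgroup.closure_le _).2 ?_
    rintro z ⟨⟨y, rfl⟩, hN, k, hk⟩
    refine ⟨y, Subgroup.subset_closure ⟨?_, k, ?_⟩, rfl⟩
    · rw [Subgroup.mem_normalizer_iff]
      intro x
      show _ ↔ ι (y * x * y⁻¹) ∈ R
      rw [map_mul, map_mul, map_inv]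
      exact (Subgroup.mem_normalizer_iff.1 hN (ι x))
    · rw [← hk]
      exact (orderOf_injective ι hι y).symm
  obtain ⟨g', hg', e⟩ := hle hg
  rwa [← hι e]

/-- The criterion read through `ι`. -/
theorem isSimple_of_ambient (ι : G →* H) (hι : Function.Injective ι) (S₁ : Subgroup H)
    (S₀ : Sylow p G) (hS₀ : (S₀ : Subgroup G) = S₁.comap ι) (hS₁ : S₁ ≤ ι.range) (hne : S₁ ≠ ⊥)
    (ha : ∀ T : Subgroup H, T ≤ S₁ →
      (∀ x ∈ T, ∀ g ∈ ι.range, g * x * g⁻¹ ∈ S₁ → g * x * g⁻¹ ∈ T) → T = ⊥ ∨ T = S₁)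
    (𝓡 : Set (Subgroup H)) (hle : ∀ R ∈ 𝓡, R ≤ S₁)
    (hcen : ∀ R ∈ 𝓡, ∀ x ∈ ι.range, x ∈ Subgroup.centralizer (R : Set H) → x ∈ R)
    (hb : ∀ x ∈ ι.range, x ∈ Subgroup.normalizer (S₁ : Set H) → x ∈ DH p ι.range S₁ 𝓡)
    (S : Sylow p G) : (groupFusionSystem (S : Subgroup G)).IsSimple p := by
  have hmapS : (S₀ : Subgroup G).map ι = S₁ := by
    rw [hS₀]
    exact Subgroup.map_comap_eq_self hS₁
  refine isSimple_of_data' S₀ ?_ ?_ ((fun R : Subgroup H => R.comap ι) '' 𝓡) ?_ ?_ ?_ S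
  · intro h
    apply hne
    rw [← hmapS, h]
    simp
  · intro T hT hcl
    have hT1 : T.map ι ≤ S₁ := by
      rw [← hmapS]
      exact Subgroup.map_mono hT
    have hcl' : ∀ x ∈ T.map ι, ∀ g ∈ ι.range, g * x * g⁻¹ ∈ S₁ → g * x * g⁻¹ ∈ T.map ι := by
      rintro _ ⟨x, hx, rfl⟩ _ ⟨g, rfl⟩ hm
      have h1 : ι (g * x * g⁻¹) ∈ S₁ := by
        simpa [map_mul, map_inv] using hm
      have h2 : g * x * g⁻¹ ∈ (S₀ : Subgroup G) := by
        rw [hS₀]
        exact h1
      exact ⟨_, hcl x hx g h2, by simp [map_mul, map_inv]⟩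
    rcases ha _ hT1 hcl' with h | h
    · left
      exact (Subgroup.map_eq_bot_iff_of_injective _ hι).1 h
    · right
      apply Subgroup.map_injective hι
      rw [h, hmapS]
  · rintro _ ⟨R, hR, rfl⟩
    rw [hS₀]
    exact Subgroup.comap_mono (hle R hR)
  · rintro _ ⟨R, hR, rfl⟩ x hx
    have h1 : ι x ∈ R := by
      refine hcen R hR _ ⟨x, rfl⟩ ?_
      rw [Subgroup.mem_centralizer_iff]
      intro r hr
      obtain ⟨r', rfl⟩ := hS₁ (hle R hR hr)
      have h2 := Subgroup.mem_centralizer_iff.1 hx r' hr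
      rw [← map_mul, ← map_mul, h2]
    exact h1
  · intro x hx
    have hx1 : ι x ∈ Subgroup.normalizer (S₁ : Set H) := by
      rw [Subgroup.mem_normalizer_iff]
      have hN := Subgroup.mem_normalizer_iff.1 hx
      intro y
      constructor
      · intro hy
        obtain ⟨y', rfl⟩ := hS₁ hy
        have h1 : y' ∈ (S₀ : Subgroup G) := by
          rw [hS₀]
          exact hy
        have h2 := (hN y').1 h1
        rw [hS₀] at h2
        simpa [map_mul, map_inv] using h2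
      · intro hy
        obtain ⟨z, hz⟩ := hS₁ hy
        have hy' : y = ι (x⁻¹ * z * x) := by
          rw [map_mul, map_mul, map_inv, hz]
          group
        subst hy'
        have h1 : x * (x⁻¹ * z * x) * x⁻¹ ∈ (S₀ : Subgroup G) := by
          rw [hS₀]
          show ι (x * (x⁻¹ * z * x) * x⁻¹) ∈ S₁
          simpa [map_mul, map_inv] using hy
        have h2 := (hN _).2 h1
        rw [hS₀] at h2
        exact h2
    have hle2 : DH p ι.range S₁ 𝓡 ≤
        (DD p ((fun R : Subgroup H => R.comap ι) '' 𝓡) (S₀ : Subgroup G)).map ι := by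
      refine (Subgroup.closure_le _).2 ?_
      rintro y ⟨⟨y', rfl⟩, hN, R, hR, hK⟩
      refine ⟨y', Subgroup.subset_closure ⟨R.comap ι, ⟨R, hR, rfl⟩, mem_KK_of_mem_KH ι hι hK, ?_⟩, rfl⟩
      rw [Subgroup.mem_normalizer_iff]
      intro z
      have h3 := Subgroup.mem_normalizer_iff.1 hN (ι z)
      rw [hS₀]
      show ι z ∈ S₁ ↔ ι (y' * z * y'⁻¹) ∈ S₁
      rw [map_mul, map_mul, map_inv]
      exact h3
    obtain ⟨x', hx', e⟩ := hle2 (hb _ ⟨x, rfl⟩ hx1)
    rwa [← hι e]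

end Ambient

end Cfsg.Agent.Lib.Fusion.AltCrit
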