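/-
Monomial permutations of `(ZMod p × M) ⊕ X`, the wreath subgroups `W Q`, their orders, and generation of
Sylow subgroups of symmetric groups by elements of order dividing `p`.
-/
import Mathlib
import Cfsg.Agent.Lib.Perm.AltGen

set_option autoImplicit false

universe u v

namespace Cfsg.Agent.Lib.Fusion.AltWr

open Equiv Equiv.Perm

variable {p : ℕ} [Fact p.Prime] {M : Type u} {X : Type v}

/-- The monomial permutation `(u, y) ↦ (a y * u + b y, σ y)`, fixing `X`. -/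
def aff (a : M → (ZMod p)ˣ) (b : M → ZMod p) (σ : Perm M) : Perm ((ZMod p × M) ⊕ X) where
  toFun
    | Sum.inl q => Sum.inl ((a q.2 : ZMod p) * q.1 + b q.2, σ q.2)
    | Sum.inr x => Sum.inr x
  invFun
    | Sum.inl q => Sum.inl ((((a (σ⁻¹ q.2))⁻¹ : (ZMod p)ˣ) : ZMod p) * (q.1 - b (σ⁻¹ q.2)), σ⁻¹ q.2)
    | Sum.inr x => Sum.inr x
  left_inv := by
    rintro (⟨u, y⟩ | x)
    · show (Sum.inl (((((a (σ⁻¹ (σ y)))⁻¹ : (ZMod p)ˣ) : ZMod p) * (((a y : ZMod p) * u + b y) - b (σ⁻¹ (σ y))),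
        σ⁻¹ (σ y))) : (ZMod p × M) ⊕ X) = Sum.inl (u, y)
      rw [show σ⁻¹ (σ y) = y from σ.symm_apply_apply y, add_sub_cancel_right, Units.inv_mul_cancel_left]
    · rfl
  right_inv := by
    rintro (⟨u, y⟩ | x)
    · show (Sum.inl ((a (σ⁻¹ y) : ZMod p) * (((((a (σ⁻¹ y))⁻¹ : (ZMod p)ˣ) : ZMod p) * (u - b (σ⁻¹ y)))) + b (σ⁻¹ y),
        σ (σ⁻¹ y)) : (ZMod p × M) ⊕ X) = Sum.inl (u, y)
      rw [Units.mul_inv_cancel_left, sub_add_cancel, show σ (σ⁻¹ y) = y from σ.apply_symm_apply y]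
    · rfl

@[simp] theorem aff_inl (a : M → (ZMod p)ˣ) (b : M → ZMod p) (σ : Perm M) (u : ZMod p) (y : M) :
    (aff a b σ : Perm ((ZMod p × M) ⊕ X)) (Sum.inl (u, y)) = Sum.inl ((a y : ZMod p) * u + b y, σ y) := rfl

@[simp] theorem aff_inr (a : M → (ZMod p)ˣ) (b : M → ZMod p) (σ : Perm M) (x : X) :
    (aff a b σ : Perm ((ZMod p × M) ⊕ X)) (Sum.inr x) = Sum.inr x := rfl

theorem aff_mul (a a' : M → (ZMod p)ˣ) (b b' : M → ZMod p) (σ σ' : Perm M) :
    (aff a b σ : Perm ((ZMod p × M) ⊕ X)) * aff a' b' σ' =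
      aff (fun y => a (σ' y) * a' y) (fun y => (a (σ' y) : ZMod p) * b' y + b (σ' y)) (σ * σ') := by
  ext q
  rcases q with ⟨u, y⟩ | x
  · simp only [Perm.mul_apply, aff_inl, Units.val_mul, Perm.coe_mul, Function.comp_apply]
    congr 2
    ring
  · rfl

theorem aff_one : (aff 1 0 1 : Perm ((ZMod p × M) ⊕ X)) = 1 := by
  ext q
  rcases q with ⟨u, y⟩ | x
  · simp
  · rfl

theorem aff_inv (a : M → (ZMod p)ˣ) (b : M → ZMod p) (σ : Perm M) :
    (aff a b σ : Perm ((ZMod p × M) ⊕ X))⁻¹ =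
      aff (fun y => (a (σ⁻¹ y))⁻¹) (fun y => -(((a (σ⁻¹ y))⁻¹ : (ZMod p)ˣ) : ZMod p) * b (σ⁻¹ y)) σ⁻¹ := by
  rw [inv_eq_iff_mul_eq_one, aff_mul, ← aff_one (X := X)]
  congr 1
  · funext y
    exact mul_inv_cancel _
  · funext y
    show (a (σ⁻¹ y) : ZMod p) * (-((((a (σ⁻¹ y))⁻¹ : (ZMod p)ˣ)) : ZMod p) * b (σ⁻¹ y)) + b (σ⁻¹ y) = 0
    rw [neg_mul, mul_neg, Units.mul_inv_cancel_left, neg_add_cancel]
  · exact mul_inv_cancel _

/-- The parameters of `aff` are determined. -/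
theorem aff_inj {a a' : M → (ZMod p)ˣ} {b b' : M → ZMod p} {σ σ' : Perm M}
    (h : (aff a b σ : Perm ((ZMod p × M) ⊕ X)) = aff a' b' σ') : a = a' ∧ b = b' ∧ σ = σ' := by
  have h0 : ∀ y, b y = b' y ∧ σ y = σ' y := by
    intro y
    have := congrArg (fun f : Perm ((ZMod p × M) ⊕ X) => f (Sum.inl (0, y))) h
    simpa using this
  have h1 : ∀ y, a y = a' y := by
    intro y
    have := congrArg (fun f : Perm ((ZMod p × M) ⊕ X) => f (Sum.inl (1, y))) h
    simp only [aff_inl, mul_one, Sum.inl.injEq, Prod.mk.injEq] at this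
    have h2 := this.1
    rw [(h0 y).1] at h2
    exact Units.ext (add_right_cancel h2)
  exact ⟨funext h1, funext fun y => (h0 y).1, Equiv.ext fun y => (h0 y).2⟩

/-- Translations. -/
abbrev tr (b : M → ZMod p) : Perm ((ZMod p × M) ⊕ X) := aff 1 b 1

theorem tr_add (b b' : M → ZMod p) : (tr (b + b') : Perm ((ZMod p × M) ⊕ X)) = tr b * tr b' := by
  rw [tr, tr, aff_mul]
  congr 1
  · ext y
    simp
  · ext y
    simp [add_comm]

theorem tr_zero : (tr 0 : Perm ((ZMod p × M) ⊕ X)) = 1 := aff_one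

theorem tr_nsmul (k : ℕ) (b : M → ZMod p) : (tr (k • b) : Perm ((ZMod p × M) ⊕ X)) = tr b ^ k := by
  induction k with
  | zero => simp [tr_zero]
  | succ k ih => rw [succ_nsmul, tr_add, ih, pow_succ]

theorem tr_pow_p (b : M → ZMod p) : (tr b : Perm ((ZMod p × M) ⊕ X)) ^ p = 1 := by
  rw [← tr_nsmul]
  have : p • b = 0 := by
    ext y
    simp
  rw [this, tr_zero]

/-- The lift of a permutation of `M`. -/
abbrev lft (π : Perm M) : Perm ((ZMod p × M) ⊕ X) := aff 1 0 π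

theorem lft_mul (π π' : Perm M) : (lft (π * π') : Perm ((ZMod p × M) ⊕ X)) = lft π * lft π' := by
  rw [lft, lft, aff_mul]
  congr 1
  · ext y
    simp
  · ext y
    simp

theorem lft_one : (lft 1 : Perm ((ZMod p × M) ⊕ X)) = 1 := aff_one

theorem lft_pow (π : Perm M) (k : ℕ) : (lft (π ^ k) : Perm ((ZMod p × M) ⊕ X)) = lft π ^ k := by
  induction k with
  | zero => simp [lft_one]
  | succ k ih => rw [pow_succ, lft_mul, ih, pow_succ]

theorem lft_inv (π : Perm M) : (lft π⁻¹ : Perm ((ZMod p × M) ⊕ X)) = (lft π)⁻¹ := by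
  rw [eq_comm, inv_eq_iff_mul_eq_one, ← lft_mul, mul_inv_cancel, lft_one]

theorem aff_eq_tr_mul (b : M → ZMod p) (π : Perm M) :
    (aff 1 b π : Perm ((ZMod p × M) ⊕ X)) = tr (fun y => b (π⁻¹ y)) * lft π := by
  rw [tr, lft, aff_mul]
  congr 1
  · ext y
    simp
  · ext y
    simp

/-- The wreath subgroup. -/
def W (Q : Subgroup (Perm M)) : Subgroup (Perm ((ZMod p × M) ⊕ X)) where
  carrier := {g | ∃ (b : M → ZMod p) (π : Perm M), π ∈ Q ∧ g = aff 1 b π}
  one_mem' := ⟨0, 1, Q.one_mem, aff_one.symm⟩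
  mul_mem' := by
    rintro _ _ ⟨b, π, hπ, rfl⟩ ⟨b', π', hπ', rfl⟩
    refine ⟨fun y => b' y + b (π' y), π * π', Q.mul_mem hπ hπ', ?_⟩
    rw [aff_mul]
    congr 1
    · funext y
      exact mul_one _
    · funext y
      simp
  inv_mem' := by
    rintro _ ⟨b, π, hπ, rfl⟩
    refine ⟨fun y => - b (π⁻¹ y), π⁻¹, Q.inv_mem hπ, ?_⟩
    rw [aff_inv]
    congr 1
    funext y
    simp

theorem mem_W {Q : Subgroup (Perm M)} {g : Perm ((ZMod p × M) ⊕ X)} :
    g ∈ (W Q : Subgroup (Perm ((ZMod p × M) ⊕ X))) ↔ ∃ (b : M → ZMod p) (π : Perm M), π ∈ Q ∧ g = aff 1 b π :=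
  Iff.rfl

theorem tr_mem_W (Q : Subgroup (Perm M)) (b : M → ZMod p) :
    (tr b : Perm ((ZMod p × M) ⊕ X)) ∈ (W Q : Subgroup (Perm ((ZMod p × M) ⊕ X))) :=
  ⟨b, 1, Q.one_mem, rfl⟩

theorem lft_mem_W {Q : Subgroup (Perm M)} {π : Perm M} (hπ : π ∈ Q) :
    (lft π : Perm ((ZMod p × M) ⊕ X)) ∈ (W Q : Subgroup (Perm ((ZMod p × M) ⊕ X))) :=
  ⟨0, π, hπ, rfl⟩

theorem W_mono {Q Q' : Subgroup (Perm M)} (h : Q ≤ Q') :
    (W Q : Subgroup (Perm ((ZMod p × M) ⊕ X))) ≤ W Q' := by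
  rintro _ ⟨b, π, hπ, rfl⟩
  exact ⟨b, π, h hπ, rfl⟩

section Card

variable [Fintype M] [Fintype X] [DecidableEq M] [DecidableEq X]

theorem card_W (Q : Subgroup (Perm M)) :
    Nat.card (W Q : Subgroup (Perm ((ZMod p × M) ⊕ X))) = p ^ Fintype.card M * Nat.card Q := by
  let f : (M → ZMod p) × Q → (W Q : Subgroup (Perm ((ZMod p × M) ⊕ X))) :=
    fun q => ⟨aff 1 q.1 q.2, q.1, q.2, q.2.2, rfl⟩
  have hf : Function.Bijective f := by
    constructor
    · rintro ⟨b, π⟩ ⟨b', π'⟩ h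
      have h1 : (aff 1 b π : Perm ((ZMod p × M) ⊕ X)) = aff 1 b' π' := congrArg Subtype.val h
      obtain ⟨-, h2, h3⟩ := aff_inj h1
      rw [h2, Subtype.ext h3]
    · rintro ⟨_, b, π, hπ, rfl⟩
      exact ⟨(b, ⟨π, hπ⟩), rfl⟩
  rw [← Nat.card_congr (Equiv.ofBijective f hf), Nat.card_prod, Nat.card_fun, Nat.card_zmod,
    Nat.card_eq_fintype_card (α := M)]

/-- `W Q` is a Sylow subgroup when `Q` is one and `|X| < p`. -/
theorem W_card_sylow (Q : Sylow p (Perm M)) (hX : Fintype.card X < p) :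
    Nat.card (W (Q : Subgroup (Perm M)) : Subgroup (Perm ((ZMod p × M) ⊕ X))) =
      p ^ (Nat.card (Perm ((ZMod p × M) ⊕ X))).factorization p := by
  have hp : p.Prime := Fact.out
  rw [card_W, Sylow.card_eq_multiplicity, ← pow_add, Nat.card_perm, Nat.card_perm]
  congr 1
  rw [Nat.factorization_def _ hp, Nat.factorization_def _ hp]
  have h1 : Nat.card ((ZMod p × M) ⊕ X) = p * Fintype.card M + Fintype.card X := by
    rw [Nat.card_eq_fintype_card]
    simp [ZMod.card]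
  rw [h1, padicValNat_factorial_mul_add _ hX, padicValNat_factorial_mul, Nat.card_eq_fintype_card, add_comm]

/-- `W Q` as a Sylow subgroup. -/
noncomputable def sylowW (Q : Sylow p (Perm M)) (hX : Fintype.card X < p) :
    Sylow p (Perm ((ZMod p × M) ⊕ X)) :=
  Sylow.ofCard (W (Q : Subgroup (Perm M))) (W_card_sylow Q hX)

theorem coe_sylowW (Q : Sylow p (Perm M)) (hX : Fintype.card X < p) :
    ((sylowW Q hX : Sylow p (Perm ((ZMod p × M) ⊕ X))) : Subgroup (Perm ((ZMod p × M) ⊕ X))) =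
      W (Q : Subgroup (Perm M)) :=
  Sylow.coe_ofCard _ _

end Card

/-- Generation by elements of exponent `p` passes from `Q` to `W Q`. -/
theorem W_le_closure {Q : Subgroup (Perm M)}
    (hQ : Q ≤ Subgroup.closure {x : Perm M | x ∈ Q ∧ x ^ p = 1}) :
    (W Q : Subgroup (Perm ((ZMod p × M) ⊕ X))) ≤
      Subgroup.closure {x : Perm ((ZMod p × M) ⊕ X) | x ∈ (W Q : Subgroup (Perm ((ZMod p × M) ⊕ X))) ∧ x ^ p = 1} := by
  rintro _ ⟨b, π, hπ, rfl⟩
  rw [aff_eq_tr_mul]
  refine mul_mem (Subgroup.subset_closure ⟨tr_mem_W _ _, tr_pow_p _⟩) ?_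
  have h1 := hQ hπ
  clear hπ
  induction h1 using Subgroup.closure_induction with
  | mem x hx =>
    refine Subgroup.subset_closure ⟨lft_mem_W hx.1, ?_⟩
    rw [← lft_pow, hx.2, lft_one]
  | one => rw [lft_one]; exact one_mem _
  | mul x y _ _ hx hy => rw [lft_mul]; exact mul_mem hx hy
  | inv x _ hx => rw [lft_inv]; exact inv_mem hx

/-- Transport of generation by elements of exponent `p` along an isomorphism. -/
theorem good_transport {G G' : Type*} [Group G] [Group G'] (f : G ≃* G') {H : Subgroup G} {H' : Subgroup G'}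
    (hH : ∀ x, x ∈ H ↔ f x ∈ H') (h : H' ≤ Subgroup.closure {x : G' | x ∈ H' ∧ x ^ p = 1}) :
    H ≤ Subgroup.closure {x : G | x ∈ H ∧ x ^ p = 1} := by
  have h1 : Subgroup.closure {x : G' | x ∈ H' ∧ x ^ p = 1} ≤
      (Subgroup.closure {x : G | x ∈ H ∧ x ^ p = 1}).comap f.symm.toMonoidHom := by
    rw [Subgroup.closure_le]
    rintro y ⟨hy, hy1⟩
    apply Subgroup.subset_closure
    refine ⟨(hH _).2 (by simpa using hy), ?_⟩
    show (f.symm y) ^ p = 1
    rw [← map_pow, hy1, map_one]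
  intro x hx
  have := h1 (h ((hH x).1 hx))
  simpa using this

/-- Every Sylow `p`-subgroup of a symmetric group is generated by its elements of exponent `p`. -/
theorem sylow_gen_aux (n : ℕ) : ∀ (α : Type) [Fintype α] [DecidableEq α], Fintype.card α = n →
    ∀ P : Sylow p (Perm α), (P : Subgroup (Perm α)) ≤
      Subgroup.closure {x : Perm α | x ∈ (P : Subgroup (Perm α)) ∧ x ^ p = 1} := by
  have hp : p.Prime := Fact.out
  induction n using Nat.strong_induction_on with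
  | _ n ih =>
    intro α _ _ hα P
    by_cases hn : n = 0
    · intro x _
      have : IsEmpty α := by
        rw [← Fintype.card_eq_zero_iff, hα, hn]
      have hx : x = 1 := by
        ext a
        exact isEmptyElim a
      rw [hx]
      exact one_mem _
    -- coordinates
    have hlt : n / p < n := Nat.div_lt_self (Nat.pos_of_ne_zero hn) hp.one_lt
    let Q₀ : Sylow p (Perm (Fin (n / p))) := default
    have hQ₀ := ih (n / p) hlt (Fin (n / p)) (by simp) Q₀
    have hc : Fintype.card α = Fintype.card ((ZMod p × Fin (n / p)) ⊕ Fin (n % p)) := by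
      rw [hα]
      simp [ZMod.card, Nat.div_add_mod]
    let e : α ≃ ((ZMod p × Fin (n / p)) ⊕ Fin (n % p)) := Fintype.equivOfCardEq hc
    have hmod : Fintype.card (Fin (n % p)) < p := by
      simpa using Nat.mod_lt n hp.pos
    let S₀ := sylowW (X := Fin (n % p)) Q₀ hmod
    have hS₀ := W_le_closure (X := Fin (n % p)) hQ₀
    rw [← coe_sylowW Q₀ hmod] at hS₀
    -- transport along `e` and conjugate
    let φ : Perm α ≃* Perm ((ZMod p × Fin (n / p)) ⊕ Fin (n % p)) := e.permCongrHom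
    let P' : Sylow p (Perm ((ZMod p × Fin (n / p)) ⊕ Fin (n % p))) :=
      P.mapSurjective (f := φ.toMonoidHom) φ.surjective
    obtain ⟨g, hg⟩ := MulAction.exists_smul_eq (Perm ((ZMod p × Fin (n / p)) ⊕ Fin (n % p))) P' S₀
    refine good_transport (φ.trans (MulAut.conj g)) ?_ hS₀
    intro x
    have hg' : g • P' = sylowW (X := Fin (n % p)) Q₀ hmod := hg
    rw [← hg', Sylow.coe_subgroup_smul, Subgroup.mem_pointwise_smul_iff_inv_smul_mem]
    have hP' : (P' : Subgroup (Perm ((ZMod p × Fin (n / p)) ⊕ Fin (n % p)))) = (P : Subgroup (Perm α)).map φ.toMonoidHom :=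
      Sylow.coe_mapSurjective _ _
    have h2 : (MulAut.conj g)⁻¹ • (φ.trans (MulAut.conj g)) x = φ x := inv_smul_smul (MulAut.conj g) (φ x)
    rw [h2, hP']
    constructor
    · intro hx
      exact ⟨x, hx, rfl⟩
    · rintro ⟨y, hy, he⟩
      rwa [← φ.injective he]


/-- Version for a general finite type. -/
theorem sylow_gen {α : Type} [Fintype α] [DecidableEq α] (P : Sylow p (Perm α)) :
    (P : Subgroup (Perm α)) ≤ Subgroup.closure {x : Perm α | x ∈ (P : Subgroup (Perm α)) ∧ x ^ p = 1} :=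
  sylow_gen_aux _ α rfl P

/-- In a finite group, a conjugation stabilizing `H` normalizes it. -/
theorem mem_normalizer_of_conj_le {G : Type*} [Group G] (H : Subgroup G) [Finite H] (g : G)
    (h : ∀ x ∈ H, g * x * g⁻¹ ∈ H) : g ∈ Subgroup.normalizer (H : Set G) := by
  rw [Subgroup.mem_normalizer_iff]
  intro x
  refine ⟨h x, fun hx => ?_⟩
  let f : H → H := fun y => ⟨g * y * g⁻¹, h y y.2⟩
  have hf : Function.Injective f := by
    intro y z hyz
    have h1 : g * (y : G) * g⁻¹ = g * z * g⁻¹ := congrArg Subtype.val hyz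
    exact Subtype.ext (mul_left_cancel (mul_right_cancel h1))
  obtain ⟨y, hy⟩ := (Finite.injective_iff_surjective.1 hf) ⟨_, hx⟩
  have h1 : g * (y : G) * g⁻¹ = g * x * g⁻¹ := congrArg Subtype.val hy
  have h2 : (y : G) = x := mul_left_cancel (mul_right_cancel h1)
  rw [← h2]
  exact y.2

/-- Conjugating a translation. -/
theorem conj_tr (a : M → (ZMod p)ˣ) (b b' : M → ZMod p) (σ : Perm M) :
    (aff a b σ : Perm ((ZMod p × M) ⊕ X)) * tr b' * (aff a b σ)⁻¹ =
      tr (fun y => (a (σ⁻¹ y) : ZMod p) * b' (σ⁻¹ y)) := by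
  rw [mul_inv_eq_iff_eq_mul, tr, tr, aff_mul, aff_mul]
  congr 1
  · funext y
    simp
  · funext y
    simp only [Perm.one_apply, Pi.one_apply, Units.val_one, one_mul, Perm.coe_one, id_eq]
    rw [show σ⁻¹ (σ y) = y from σ.symm_apply_apply y]
    ring

/-- Conjugating a lift. -/
theorem conj_lft (π ρ : Perm M) :
    (lft π : Perm ((ZMod p × M) ⊕ X)) * lft ρ * (lft π)⁻¹ = lft (π * ρ * π⁻¹) := by
  rw [← lft_inv, ← lft_mul, ← lft_mul]

/-- The key conjugation: `aff a b σ` normalizes `W Q` when `σ` normalizes `Q` and `a` is `Q`-invariant. -/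
theorem conj_mem_W {Q : Subgroup (Perm M)} {a : M → (ZMod p)ˣ} {b : M → ZMod p} {σ : Perm M}
    (hσ : ∀ π ∈ Q, σ * π * σ⁻¹ ∈ Q) (ha : ∀ π ∈ Q, ∀ y, a (π y) = a y) {x : Perm ((ZMod p × M) ⊕ X)}
    (hx : x ∈ (W Q : Subgroup (Perm ((ZMod p × M) ⊕ X)))) :
    (aff a b σ : Perm ((ZMod p × M) ⊕ X)) * x * (aff a b σ)⁻¹ ∈ (W Q : Subgroup (Perm ((ZMod p × M) ⊕ X))) := by
  obtain ⟨b', π, hπ, rfl⟩ := hx
  refine ⟨fun y => (a (π (σ⁻¹ y)) : ZMod p) * b' (σ⁻¹ y) + b (π (σ⁻¹ y)) - b (σ⁻¹ y), σ * π * σ⁻¹, hσ π hπ, ?_⟩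
  rw [mul_inv_eq_iff_eq_mul, aff_mul, aff_mul]
  congr 1
  · funext y
    simp only [Pi.one_apply, mul_one, one_mul]
    exact ha π hπ y
  · funext y
    simp only [Pi.one_apply, Units.val_one, one_mul, Perm.coe_mul, Function.comp_apply, mul_assoc]
    rw [show σ⁻¹ (σ y) = y from σ.symm_apply_apply y]
    ring
  · group

theorem aff_mem_normalizer_W [Finite M] [Finite X] {Q : Subgroup (Perm M)} {a : M → (ZMod p)ˣ} {b : M → ZMod p} {σ : Perm M}
    (hσ : ∀ π ∈ Q, σ * π * σ⁻¹ ∈ Q) (ha : ∀ π ∈ Q, ∀ y, a (π y) = a y) :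
    (aff a b σ : Perm ((ZMod p × M) ⊕ X)) ∈
      Subgroup.normalizer ((W Q : Subgroup (Perm ((ZMod p × M) ⊕ X))) : Set (Perm ((ZMod p × M) ⊕ X))) :=
  mem_normalizer_of_conj_le _ _ fun _ hx => conj_mem_W hσ ha hx

section Sign

variable [Fintype M] [Fintype X] [DecidableEq M] [DecidableEq X]

theorem units_pow_odd (s : ℤˣ) (hp : Odd p) : s ^ p = s := by
  rcases Int.units_eq_one_or s with h | h
  · rw [h, one_pow]
  · rw [h, hp.neg_one_pow]

theorem sign_lft (hp : Odd p) (π : Perm M) : sign (lft π : Perm ((ZMod p × M) ⊕ X)) = sign π := by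
  have h : (lft π : Perm ((ZMod p × M) ⊕ X)) =
      Perm.sumCongr (Equiv.prodCongrRight (fun _ : ZMod p => π)) (1 : Perm X) := by
    ext q
    rcases q with ⟨u, y⟩ | x
    · simp
    · rfl
  rw [h, sign_sumCongr, Perm.sign_one, mul_one, sign_prodCongrRight]
  simp only [Finset.prod_const, Finset.card_univ, ZMod.card]
  exact units_pow_odd _ hp

/-- The sign character of multiplications. -/
noncomputable def muHom : (ZMod p)ˣ →* ℤˣ :=
  (sign : Perm (ZMod p) →* ℤˣ).comp (MulAction.toPermHom (ZMod p)ˣ (ZMod p))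

theorem sign_aff_diag (a : M → (ZMod p)ˣ) :
    sign (aff a 0 1 : Perm ((ZMod p × M) ⊕ X)) = muHom (∏ y, a y) := by
  have h : (aff a 0 1 : Perm ((ZMod p × M) ⊕ X)) =
      Perm.sumCongr (Equiv.prodCongrLeft (fun y : M => MulAction.toPermHom (ZMod p)ˣ (ZMod p) (a y))) (1 : Perm X) := by
    ext q
    rcases q with ⟨u, y⟩ | x
    · simp [Units.smul_def]
    · rfl
  rw [h, sign_sumCongr, Perm.sign_one, mul_one, sign_prodCongrLeft, map_prod]
  rfl

theorem sign_tr (hp : Odd p) (b : M → ZMod p) : sign (tr b : Perm ((ZMod p × M) ⊕ X)) = 1 :=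
  Cfsg.Agent.Lib.Perm.AltGen.sign_eq_one_of_odd hp (tr_pow_p b)

theorem aff_eq_prod (a : M → (ZMod p)ˣ) (b : M → ZMod p) (σ : Perm M) :
    (aff a b σ : Perm ((ZMod p × M) ⊕ X)) = tr (fun y => b (σ⁻¹ y)) * lft σ * aff a 0 1 := by
  rw [tr, lft, aff_mul, aff_mul]
  congr 1
  · funext y
    simp
  · funext y
    simp only [Perm.coe_one, id_eq, Pi.one_apply, Units.val_one, one_mul, Pi.zero_apply, mul_zero, add_zero,
      zero_add, Perm.mul_apply]
    rw [show σ⁻¹ (σ y) = y from σ.symm_apply_apply y]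

theorem sign_aff (hp : Odd p) (a : M → (ZMod p)ˣ) (b : M → ZMod p) (σ : Perm M) :
    sign (aff a b σ : Perm ((ZMod p × M) ⊕ X)) = sign σ * muHom (∏ y, a y) := by
  rw [aff_eq_prod, map_mul, map_mul, sign_tr hp, sign_lft hp, sign_aff_diag, one_mul]

end Sign

section Support

variable [Fintype M] [Fintype X] [DecidableEq M] [DecidableEq X]

/-- The support of a translation. -/
theorem card_support_tr (b : M → ZMod p) :
    (tr b : Perm ((ZMod p × M) ⊕ X)).support.card = p * (Finset.univ.filter fun y => b y ≠ 0).card := by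
  have h : (tr b : Perm ((ZMod p × M) ⊕ X)).support =
      ((Finset.univ : Finset (ZMod p)) ×ˢ (Finset.univ.filter fun y => b y ≠ 0)).map
        ⟨Sum.inl, Sum.inl_injective⟩ := by
    ext q
    rcases q with ⟨u, y⟩ | x
    · simp
    · simp
  rw [h, Finset.card_map, Finset.card_product, Finset.card_univ, ZMod.card]

/-- The indicator of a finite set. -/
def ind (J : Finset M) : M → ZMod p := fun y => if y ∈ J then 1 else 0

theorem card_support_ind (J : Finset M) :
    (tr (ind J) : Perm ((ZMod p × M) ⊕ X)).support.card = p * J.card := by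
  rw [card_support_tr]
  congr 2
  ext y
  simp [ind]

/-- Permutations with `x ^ p = 1` and equal support sizes are conjugate. -/
theorem isConj_of_pow_eq_one {Ω : Type*} [Fintype Ω] [DecidableEq Ω] {x y : Perm Ω} (hx : x ^ p = 1) (hy : y ^ p = 1)
    (hc : x.support.card = y.support.card) : IsConj x y := by
  have hp : p.Prime := Fact.out
  by_cases hx1 : x = 1
  · have : y = 1 := by
      rw [hx1] at hc
      simpa using hc.symm
    rw [hx1, this]
  have hy1 : y ≠ 1 := by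
    rintro rfl
    exact hx1 (by simpa using hc)
  have hox : orderOf x = p := orderOf_eq_prime hx hx1
  have hoy : orderOf y = p := orderOf_eq_prime hy hy1
  obtain ⟨n, hn⟩ := cycleType_prime_order (σ := x) (by rw [hox]; exact hp)
  obtain ⟨m, hm⟩ := cycleType_prime_order (σ := y) (by rw [hoy]; exact hp)
  rw [hox] at hn
  rw [hoy] at hm
  have h1 := sum_cycleType x
  have h2 := sum_cycleType y
  rw [hn] at h1
  rw [hm] at h2
  simp only [Multiset.sum_replicate, smul_eq_mul] at h1 h2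
  have hnm : n = m := by
    have : (n + 1) * p = (m + 1) * p := by omega
    have := Nat.eq_of_mul_eq_mul_right hp.pos this
    omega
  rw [isConj_iff_cycleType_eq, hn, hm, hnm]

/-- `p` divides the support size of an element with `x ^ p = 1`. -/
theorem dvd_card_support {Ω : Type*} [Fintype Ω] [DecidableEq Ω] {x : Perm Ω} (hx : x ^ p = 1) :
    p ∣ x.support.card := by
  have hp : p.Prime := Fact.out
  by_cases hx1 : x = 1
  · rw [hx1]; simp
  have hox : orderOf x = p := orderOf_eq_prime hx hx1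
  obtain ⟨n, hn⟩ := cycleType_prime_order (σ := x) (by rw [hox]; exact hp)
  rw [hox] at hn
  have h1 := sum_cycleType x
  rw [hn] at h1
  simp only [Multiset.sum_replicate, smul_eq_mul] at h1
  exact ⟨n + 1, by rw [← h1, mul_comm]⟩

/-- The support of an element of `W Q` has at most `p * |M|` points. -/
theorem card_support_le {x : Perm ((ZMod p × M) ⊕ X)} (hx : ∀ x₀ : X, x (Sum.inr x₀) = Sum.inr x₀) :
    x.support.card ≤ p * Fintype.card M := by
  have h : x.support ⊆ ((Finset.univ : Finset (ZMod p)) ×ˢ (Finset.univ : Finset M)).map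
        ⟨Sum.inl, Sum.inl_injective⟩ := by
    intro q hq
    rcases q with ⟨u, y⟩ | x₀
    · simp
    · exfalso
      rw [Perm.mem_support] at hq
      exact hq (hx x₀)
  have h1 := Finset.card_le_card h
  rwa [Finset.card_map, Finset.card_product, Finset.card_univ, Finset.card_univ, ZMod.card] at h1

theorem exists_pair_ind (hM : 3 ≤ Fintype.card M) (J : Finset M) :
    ∃ y₁ y₂ : M, y₁ ≠ y₂ ∧ (y₁ ∈ J ↔ y₂ ∈ J) := by
  obtain ⟨a, b, c, hab, hac, hbc⟩ := Fintype.two_lt_card_iff.1 (by omega : 2 < Fintype.card M)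
  by_cases h1 : a ∈ J <;> by_cases h2 : b ∈ J <;> by_cases h3 : c ∈ J
  · exact ⟨a, b, hab, by tauto⟩
  · exact ⟨a, b, hab, by tauto⟩
  · exact ⟨a, c, hac, by tauto⟩
  · exact ⟨b, c, hbc, by tauto⟩
  · exact ⟨b, c, hbc, by tauto⟩
  · exact ⟨a, c, hac, by tauto⟩
  · exact ⟨a, b, hab, by tauto⟩
  · exact ⟨a, b, hab, by tauto⟩

/-- Conjugates of `tr (ind J)` are conjugates by even permutations. -/
theorem exists_even_conj_ind (hp : Odd p) (hM : 3 ≤ Fintype.card M) (J : Finset M) {g x : Perm ((ZMod p × M) ⊕ X)}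
    (hg : g * tr (ind J) * g⁻¹ = x) : ∃ g' : Perm ((ZMod p × M) ⊕ X), sign g' = 1 ∧ g' * tr (ind J) * g'⁻¹ = x := by
  rcases Int.units_eq_one_or (sign g) with hs | hs
  · exact ⟨g, hs, hg⟩
  obtain ⟨y₁, y₂, hne, hJ⟩ := exists_pair_ind hM J
  refine ⟨g * lft (swap y₁ y₂), ?_, ?_⟩
  · rw [map_mul, hs, sign_lft hp, sign_swap hne]
    rfl
  · have h1 : (lft (swap y₁ y₂) : Perm ((ZMod p × M) ⊕ X)) * tr (ind J) * (lft (swap y₁ y₂))⁻¹ = tr (ind J) := by
      rw [lft, conj_tr]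
      congr 1
      funext y
      simp only [Pi.one_apply, Units.val_one, one_mul, ind]
      have : (swap y₁ y₂)⁻¹ y ∈ J ↔ y ∈ J := by
        rw [swap_inv]
        by_cases h1 : y = y₁
        · subst h1
          rw [swap_apply_left]
          tauto
        by_cases h2 : y = y₂
        · subst h2
          rw [swap_apply_right]
          tauto
        rw [swap_apply_of_ne_of_ne h1 h2]
      simp only [this]
    rw [← hg]
    calc g * lft (swap y₁ y₂) * tr (ind J) * (g * lft (swap y₁ y₂))⁻¹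
        = g * (lft (swap y₁ y₂) * tr (ind J) * (lft (swap y₁ y₂))⁻¹) * g⁻¹ := by group
      _ = g * tr (ind J) * g⁻¹ := by rw [h1]

end Support

end Cfsg.Agent.Lib.Fusion.AltWr
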