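/-
Strongly closed subgroups of `W Q` with respect to even conjugation, `p` odd.
-/
import Mathlib
import Cfsg.Agent.Lib.Fusion.AltWr

set_option autoImplicit false

namespace Cfsg.Agent.Lib.Fusion.AltOddA

open Equiv Equiv.Perm Cfsg.Agent.Lib.Fusion.AltWr

variable {p : ℕ} [Fact p.Prime] {M X : Type} [Fintype M] [Fintype X] [DecidableEq M] [DecidableEq X]

/-- A single block translation. -/
def sg (y : M) (c : ZMod p) : M → ZMod p := fun y' => if y' = y then c else 0

/-- `W Q` is a `p`-group for `Q` a `p`-group. -/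
theorem isPGroup_W {Q : Subgroup (Perm M)} (hQ : IsPGroup p Q) :
    IsPGroup p (W Q : Subgroup (Perm ((ZMod p × M) ⊕ X))) := by
  obtain ⟨n, hn⟩ := IsPGroup.iff_card.1 hQ
  apply IsPGroup.of_card (n := Fintype.card M + n)
  rw [card_W, hn, pow_add]

theorem aff_fix_inr {Q : Subgroup (Perm M)} {x : Perm ((ZMod p × M) ⊕ X)}
    (hx : x ∈ (W Q : Subgroup (Perm ((ZMod p × M) ⊕ X)))) (x₀ : X) : x (Sum.inr x₀) = Sum.inr x₀ := by
  obtain ⟨b, π, -, rfl⟩ := hx
  rfl

/-- Elements of exponent `p` in `W Q` are even conjugates of translations. -/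
theorem exists_even_conj_of_mem (hp : Odd p) (hM : 3 ≤ Fintype.card M) {Q : Subgroup (Perm M)}
    {x : Perm ((ZMod p × M) ⊕ X)} (hx : x ∈ (W Q : Subgroup (Perm ((ZMod p × M) ⊕ X)))) (hxp : x ^ p = 1)
    (J : Finset M) (hJ : x.support.card = p * J.card) :
    ∃ g : Perm ((ZMod p × M) ⊕ X), sign g = 1 ∧ g * tr (ind J) * g⁻¹ = x := by
  have h1 : IsConj (tr (ind J) : Perm ((ZMod p × M) ⊕ X)) x :=
    isConj_of_pow_eq_one (tr_pow_p _) hxp (by rw [card_support_ind, hJ])
  obtain ⟨g, hg⟩ := isConj_iff.1 h1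
  exact exists_even_conj_ind hp hM J hg

/-- The support size of an element of `W Q` with exponent `p` is the support size of a translation. -/
theorem exists_J {Q : Subgroup (Perm M)} {x : Perm ((ZMod p × M) ⊕ X)}
    (hx : x ∈ (W Q : Subgroup (Perm ((ZMod p × M) ⊕ X)))) (hxp : x ^ p = 1) :
    ∃ k, x.support.card = p * k ∧ k ≤ Fintype.card M := by
  have hp : p.Prime := Fact.out
  obtain ⟨k, hk⟩ := dvd_card_support hxp
  refine ⟨k, hk, ?_⟩
  have h2 := card_support_le (fun x₀ => aff_fix_inr hx x₀)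
  rw [hk] at h2
  exact Nat.le_of_mul_le_mul_left h2 hp.pos

variable (T : Subgroup (Perm ((ZMod p × M) ⊕ X)))

omit [Fintype M] [Fintype X] [DecidableEq M] [DecidableEq X] in
/-- A non-trivial subgroup of a `p`-group contains an element of order `p`. -/
theorem exists_order_aux (k : ℕ) : ∀ x ∈ T, x ≠ 1 → x ^ (p ^ k) = 1 → ∃ t ∈ T, t ^ p = 1 ∧ t ≠ 1 := by
  induction k with
  | zero =>
    intro x _ hx1 h
    exact absurd (by simpa using h) hx1
  | succ k ih =>
    intro x hx hx1 h
    by_cases h2 : x ^ (p ^ k) = 1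
    · exact ih x hx hx1 h2
    · refine ⟨x ^ (p ^ k), pow_mem hx _, ?_, h2⟩
      rw [← pow_mul, ← pow_succ]
      exact h

/-- **Strong closure**. -/
theorem eq_W_of_closed (hp : Odd p) (hM : 3 ≤ Fintype.card M) (Q : Sylow p (Perm M)) (hX : Fintype.card X < p)
    (hT : T ≤ (W (Q : Subgroup (Perm M)) : Subgroup (Perm ((ZMod p × M) ⊕ X))))
    (hcl : ∀ x ∈ T, ∀ g : Perm ((ZMod p × M) ⊕ X), sign g = 1 →
      g * x * g⁻¹ ∈ (W (Q : Subgroup (Perm M)) : Subgroup (Perm ((ZMod p × M) ⊕ X))) → g * x * g⁻¹ ∈ T)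
    (hne : T ≠ ⊥) : T = (W (Q : Subgroup (Perm M)) : Subgroup (Perm ((ZMod p × M) ⊕ X))) := by
  have hpp : p.Prime := Fact.out
  have hW := isPGroup_W (X := X) Q.isPGroup'
  -- an element of order `p`
  obtain ⟨t, ht, htp, ht1⟩ : ∃ t ∈ T, t ^ p = 1 ∧ t ≠ 1 := by
    obtain ⟨x, hx, hx1⟩ := (Subgroup.bot_or_exists_ne_one T).resolve_left hne
    obtain ⟨k, hk⟩ := hW ⟨x, hT hx⟩
    have hk' : x ^ (p ^ k) = 1 := by simpa using congrArg Subtype.val hk
    exact exists_order_aux T k x hx hx1 hk'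
  -- transfer between members of the same type
  have htrans1 : ∀ x ∈ T, x ^ p = 1 → ∀ J : Finset M, x.support.card = p * J.card → tr (ind J) ∈ T := by
    intro x hx hxp J hJ
    obtain ⟨g, hg, he⟩ := exists_even_conj_of_mem hp hM (hT hx) hxp J hJ
    have h1 : (tr (ind J) : Perm ((ZMod p × M) ⊕ X)) = g⁻¹ * x * g⁻¹⁻¹ := by
      rw [← he]
      group
    rw [h1]
    apply hcl x hx g⁻¹ (by rw [map_inv, hg, inv_one])
    rw [← h1]
    exact tr_mem_W _ _
  have htrans2 : ∀ J : Finset M, tr (ind J) ∈ T → ∀ x ∈ (W (Q : Subgroup (Perm M)) : Subgroup (Perm ((ZMod p × M) ⊕ X))),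
      x ^ p = 1 → x.support.card = p * J.card → x ∈ T := by
    intro J hJT x hx hxp hJ
    obtain ⟨g, hg, he⟩ := exists_even_conj_of_mem hp hM hx hxp J hJ
    rw [← he]
    apply hcl _ hJT g hg
    rw [he]
    exact hx
  obtain ⟨k, hk, hkM⟩ := exists_J (hT ht) htp
  have hk0 : k ≠ 0 := by
    rintro rfl
    rw [mul_zero] at hk
    exact ht1 (by simpa using hk)
  -- single block translations
  have hsg : ∀ y : M, tr (sg y 1) ∈ T := by
    intro y
    obtain ⟨J, hJ1, -, hJ2⟩ := Finset.exists_subsuperset_card_eq (s := {y}) (t := Finset.univ) (n := k)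
      (Finset.subset_univ _) (by simpa using Nat.one_le_iff_ne_zero.2 hk0) (by simpa using hkM)
    have hy : y ∈ J := hJ1 (Finset.mem_singleton_self y)
    have h1 : tr (ind J) ∈ T := htrans1 t ht htp J (by rw [hk, hJ2])
    set b₂ : M → ZMod p := fun y' => if y' = y then -1 else ind J y' with hb₂
    have h2 : tr b₂ ∈ T := by
      apply htrans2 J h1 _ (tr_mem_W _ _) (tr_pow_p _)
      rw [card_support_tr]
      congr 2
      ext y'
      simp only [Finset.mem_filter, Finset.mem_univ, true_and, hb₂]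
      by_cases h : y' = y
      · subst h
        simp [hy]
      · simp [h, ind]
    have h3 : tr (ind J) * (tr b₂)⁻¹ ∈ T := mul_mem h1 (inv_mem h2)
    have h4 : tr (ind J) * (tr b₂)⁻¹ = (tr (sg y 2) : Perm ((ZMod p × M) ⊕ X)) := by
      rw [mul_inv_eq_iff_eq_mul, ← tr_add]
      congr 1
      funext y'
      by_cases h : y' = y
      · subst h
        simp [hy, sg, hb₂, ind]
        norm_num
      · simp [h, sg, hb₂]
    rw [h4] at h3
    obtain ⟨m, hm⟩ := hp
    have h5 : (tr (sg y 1) : Perm ((ZMod p × M) ⊕ X)) = tr (sg y 2) ^ (m + 1) := by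
      rw [← tr_nsmul]
      congr 1
      funext y'
      by_cases h : y' = y
      · subst h
        have h6 : ((m + 1 : ℕ) : ZMod p) * 2 = 1 := by
          have h7 : ((p + 1 : ℕ) : ZMod p) = 1 := by simp
          have h8 : p + 1 = (m + 1) * 2 := by omega
          rw [h8] at h7
          push_cast at h7 ⊢
          exact h7
        simpa [sg] using h6.symm
      · simp [h, sg]
    rw [h5]
    exact pow_mem h3 _
  -- all translations by indicators
  have hJT : ∀ J : Finset M, tr (ind J) ∈ T := by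
    intro J
    induction J using Finset.induction_on with
    | empty =>
      have : (ind ∅ : M → ZMod p) = 0 := by
        funext y
        simp [ind]
      rw [this, tr_zero]
      exact one_mem _
    | insert y J hy ih =>
      have : (ind (insert y J) : M → ZMod p) = sg y 1 + ind J := by
        funext y'
        by_cases h : y' = y
        · subst h
          simp [ind, sg, hy]
        · simp [ind, sg, h]
      rw [this, tr_add]
      exact mul_mem (hsg y) ih
  have hall : ∀ x ∈ (W (Q : Subgroup (Perm M)) : Subgroup (Perm ((ZMod p × M) ⊕ X))), x ^ p = 1 → x ∈ T := by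
    intro x hx hxp
    obtain ⟨k', hk', hk'M⟩ := exists_J hx hxp
    obtain ⟨J, -, hJ⟩ := Finset.exists_subset_card_eq (s := (Finset.univ : Finset M)) (n := k') (by simpa using hk'M)
    exact htrans2 J (hJT J) x hx hxp (by rw [hk', hJ])
  apply le_antisymm hT
  have h1 := sylow_gen (sylowW (X := X) Q hX)
  rw [coe_sylowW] at h1
  refine h1.trans ?_
  rw [Subgroup.closure_le]
  rintro x ⟨hx, hxp⟩
  exact hall x hx hxp

end Cfsg.Agent.Lib.Fusion.AltOddA
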