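/-
The normalizer of the base group `E = W ⊥` and the elements of `O^{p'}` of its normalizer.
-/
import Mathlib
import Cfsg.Agent.Lib.Fusion.AltOddA
import Cfsg.Agent.Lib.Fusion.AltCrit

set_option autoImplicit false

namespace Cfsg.Agent.Lib.Fusion.AltOddB1

open Equiv Equiv.Perm Cfsg.Agent.Lib.Fusion.AltWr Cfsg.Agent.Lib.Fusion.AltOddA

variable {p : ℕ} [Fact p.Prime] {M X : Type} [Fintype M] [Fintype X] [DecidableEq M] [DecidableEq X]

/-- The `ZMod p`-valued arithmetic progression. -/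
theorem eq_add_mul_of_step {α : Type*} [AddCommMonoid α] [Module (ZMod p) α] (β : ZMod p → α) (c : α)
    (h : ∀ u, β (u + 1) = β u + c) (u : ZMod p) : β u = β 0 + u • c := by
  have h1 : ∀ n : ℕ, β (n : ZMod p) = β 0 + (n : ZMod p) • c := by
    intro n
    induction n with
    | zero => simp
    | succ n ih =>
      push_cast
      rw [h, ih, add_smul, one_smul, add_assoc]
  have := h1 u.val
  rwa [ZMod.natCast_zmod_val] at this

theorem one_ne_zero' : (1 : ZMod p) ≠ 0 := one_ne_zero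

/-- The form of a permutation conjugating block translations to block translations. -/
theorem exists_form (hX : Fintype.card X ≤ 1) (x : Perm ((ZMod p × M) ⊕ X))
    (h : ∀ y : M, ∃ (y' : M) (c : ZMod p), c ≠ 0 ∧ x * tr (sg y 1) * x⁻¹ = tr (sg y' c)) :
    ∃ (a : M → (ZMod p)ˣ) (b : M → ZMod p) (σ : Perm M), x = aff a b σ := by
  choose σf c hc hconj using h
  have hstep : ∀ y u, ∃ β, x (Sum.inl (u, y)) = Sum.inl (β, σf y) ∧ x (Sum.inl (u + 1, y)) = Sum.inl (β + c y, σf y) := by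
    intro y u
    have h1 : x (Sum.inl (u + 1, y)) = (x * (tr (sg y 1) : Perm ((ZMod p × M) ⊕ X)) * x⁻¹) (x (Sum.inl (u, y))) := by
      have h0 : x⁻¹ (x (Sum.inl (u, y))) = Sum.inl (u, y) := x.symm_apply_apply _
      simp only [Perm.mul_apply, h0, aff_inl]
      simp [sg, add_comm]
    rw [hconj y] at h1
    have hne : x (Sum.inl (u + 1, y)) ≠ x (Sum.inl (u, y)) := by
      intro he
      have := x.injective he
      simp only [Sum.inl.injEq, Prod.mk.injEq, add_eq_left, and_true] at this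
      exact one_ne_zero this
    rcases hq : x (Sum.inl (u, y)) with ⟨β, y''⟩ | x₀
    · rw [hq] at h1 hne
      by_cases hy : y'' = σf y
      · subst hy
        refine ⟨β, rfl, ?_⟩
        rw [h1]
        simp [sg, add_comm]
      · exfalso
        apply hne
        rw [h1]
        simp [sg, hy]
    · exfalso
      rw [hq] at h1 hne
      exact hne h1
  choose β hβ hβ' using hstep
  have hβstep : ∀ y u, β y (u + 1) = β y u + c y := by
    intro y u
    have h1 := hβ y (u + 1)
    rw [hβ' y u] at h1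
    simp only [Sum.inl.injEq, Prod.mk.injEq, and_true] at h1
    exact h1.symm
  have hβform : ∀ y u, β y u = c y * u + β y 0 := by
    intro y u
    have h1 := eq_add_mul_of_step (β y) (c y) (hβstep y) u
    rw [h1, smul_eq_mul]
    ring
  have hσinj : Function.Injective σf := by
    intro y₁ y₂ he
    have h1 : β y₁ ((c y₁)⁻¹ * (β y₂ 0 - β y₁ 0)) = β y₂ 0 := by
      rw [hβform, mul_inv_cancel_left₀ (hc y₁)]
      ring
    have h2 : x (Sum.inl ((c y₁)⁻¹ * (β y₂ 0 - β y₁ 0), y₁)) = x (Sum.inl (0, y₂)) := by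
      rw [hβ, hβ, h1, he]
    have h3 := x.injective h2
    simp only [Sum.inl.injEq, Prod.mk.injEq] at h3
    exact h3.2
  have hσsurj : Function.Surjective σf := Finite.injective_iff_surjective.1 hσinj
  let σ : Perm M := Equiv.ofBijective σf ⟨hσinj, hσsurj⟩
  refine ⟨fun y => Units.mk0 (c y) (hc y), fun y => β y 0, σ, ?_⟩
  ext q
  rcases q with ⟨u, y⟩ | x₀
  · rw [hβ, hβform, aff_inl]
    rfl
  · rw [aff_inr]
    rcases hq : x (Sum.inr x₀) with ⟨t, w⟩ | x₁
    · exfalso
      obtain ⟨y, rfl⟩ := hσsurj w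
      have h1 : β y ((c y)⁻¹ * (t - β y 0)) = t := by
        rw [hβform, mul_inv_cancel_left₀ (hc y)]
        ring
      have h2 : x (Sum.inl ((c y)⁻¹ * (t - β y 0), y)) = x (Sum.inr x₀) := by
        rw [hβ, h1, hq]
      have h3 := x.injective h2
      simp at h3
    · have : x₁ = x₀ := by
        haveI := Fintype.card_le_one_iff_subsingleton.1 hX
        exact Subsingleton.elim _ _
      rw [this]

/-- Elements of `W Q` with a block-sized support are block translations. -/
theorem mem_W_support (hq : Nonempty M) {Q : Subgroup (Perm M)} {z : Perm ((ZMod p × M) ⊕ X)}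
    (hz : z ∈ (W Q : Subgroup (Perm ((ZMod p × M) ⊕ X)))) (hs : z.support.card = p) :
    ∃ (y' : M) (c : ZMod p), c ≠ 0 ∧ z = tr (sg y' c) := by
  have hp : p.Prime := Fact.out
  obtain ⟨b, π, -, rfl⟩ := hz
  have hπ : π = 1 := by
    by_contra hne
    obtain ⟨y, hy⟩ : ∃ y, π y ≠ y := by
      by_contra h
      push Not at h
      exact hne (Equiv.ext h)
    have hsub : ((Finset.univ : Finset (ZMod p)) ×ˢ ({y, π y} : Finset M)).map ⟨Sum.inl, Sum.inl_injective⟩ ⊆
        (aff 1 b π : Perm ((ZMod p × M) ⊕ X)).support := by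
      intro q hq
      simp only [Finset.mem_map, Finset.mem_product, Finset.mem_univ, true_and, Finset.mem_insert,
        Finset.mem_singleton, Function.Embedding.coeFn_mk] at hq
      obtain ⟨⟨u, y'⟩, hy', rfl⟩ := hq
      rw [Perm.mem_support, aff_inl]
      intro he
      simp only [Sum.inl.injEq, Prod.mk.injEq] at he
      rcases hy' with rfl | rfl
      · exact hy he.2
      · exact hy (π.injective he.2)
    have h1 := Finset.card_le_card hsub
    rw [Finset.card_map, Finset.card_product, Finset.card_univ, ZMod.card, hs,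
      Finset.card_pair (Ne.symm hy)] at h1
    have := hp.pos
    nlinarith
  subst hπ
  have h1 := card_support_tr (X := X) b
  rw [show (tr b : Perm ((ZMod p × M) ⊕ X)) = aff 1 b 1 from rfl, hs] at h1
  have h2 : (Finset.univ.filter fun y => b y ≠ 0).card = 1 := by
    have h3 : p * 1 = p * (Finset.univ.filter fun y => b y ≠ 0).card := by
      rw [mul_one]
      exact h1
    exact (Nat.eq_of_mul_eq_mul_left hp.pos h3).symm
  obtain ⟨y', hy'⟩ := Finset.card_eq_one.1 h2
  have hy'1 : y' ∈ Finset.univ.filter fun y => b y ≠ 0 := by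
    rw [hy']
    exact Finset.mem_singleton_self _
  refine ⟨y', b y', (Finset.mem_filter.1 hy'1).2, ?_⟩
  congr 1
  funext y
  by_cases h : y = y'
  · subst h
    simp [sg]
  · have h3 : y ∉ Finset.univ.filter fun y => b y ≠ 0 := by
      rw [hy']
      simpa using h
    simp only [Finset.mem_filter, Finset.mem_univ, true_and, not_not] at h3
    simp [sg, h, h3]

theorem card_support_sg (y : M) : (tr (sg y 1) : Perm ((ZMod p × M) ⊕ X)).support.card = p := by
  rw [card_support_tr]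
  have : (Finset.univ.filter fun y' => (sg y (1 : ZMod p)) y' ≠ 0) = {y} := by
    ext y'
    by_cases h : y' = y
    · simp [h, sg]
    · simp [h, sg]
  rw [this]
  simp

/-- The form of members of the normalizer of `W Q`. -/
theorem form_of_normalizer (hX : Fintype.card X ≤ 1) {Q : Subgroup (Perm M)} {x : Perm ((ZMod p × M) ⊕ X)}
    (hx : x ∈ Subgroup.normalizer ((W Q : Subgroup (Perm ((ZMod p × M) ⊕ X))) : Set (Perm ((ZMod p × M) ⊕ X)))) :
    ∃ (a : M → (ZMod p)ˣ) (b : M → ZMod p) (σ : Perm M), x = aff a b σ := by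
  apply exists_form hX
  intro y
  have h1 := (Subgroup.mem_normalizer_iff.1 hx _).1 (tr_mem_W (X := X) Q (sg y 1))
  exact mem_W_support ⟨y⟩ h1 (by rw [card_support_conj, card_support_sg])

/-- The base group. -/
abbrev EE (p : ℕ) [Fact p.Prime] (M X : Type) [Fintype M] [Fintype X] [DecidableEq M] [DecidableEq X] :
    Subgroup (Perm ((ZMod p × M) ⊕ X)) := W (⊥ : Subgroup (Perm M))

theorem aff_mem_normalizer_EE (a : M → (ZMod p)ˣ) (b : M → ZMod p) (σ : Perm M) :
    (aff a b σ : Perm ((ZMod p × M) ⊕ X)) ∈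
      Subgroup.normalizer ((EE p M X : Subgroup (Perm ((ZMod p × M) ⊕ X))) : Set (Perm ((ZMod p × M) ⊕ X))) := by
  apply aff_mem_normalizer_W
  · intro π hπ
    rw [Subgroup.mem_bot] at hπ ⊢
    rw [hπ]
    group
  · intro π hπ y
    rw [Subgroup.mem_bot] at hπ
    rw [hπ]
    rfl

/-- `C(E) ≤ E`. -/
theorem mem_EE_of_centralizer (hX : Fintype.card X ≤ 1) {x : Perm ((ZMod p × M) ⊕ X)}
    (hx : x ∈ Subgroup.centralizer ((EE p M X : Subgroup (Perm ((ZMod p × M) ⊕ X))) : Set (Perm ((ZMod p × M) ⊕ X)))) :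
    x ∈ EE p M X := by
  obtain ⟨a, b, σ, rfl⟩ := form_of_normalizer hX (Subgroup.centralizer_le_normalizer _ hx)
  have hc := Subgroup.mem_centralizer_iff.1 hx
  have key : ∀ y, σ y = y ∧ a y = 1 := by
    intro y
    have h1 := hc (tr (sg y 1)) (tr_mem_W _ _)
    have h2 : (aff a b σ : Perm ((ZMod p × M) ⊕ X)) * tr (sg y 1) * (aff a b σ)⁻¹ = tr (sg y 1) := by
      rw [← h1]
      group
    rw [conj_tr] at h2
    obtain ⟨-, h3, -⟩ := aff_inj h2
    have h4 := congrFun h3 (σ y)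
    rw [show σ⁻¹ (σ y) = y from σ.symm_apply_apply y] at h4
    by_cases hy : σ y = y
    · refine ⟨hy, Units.ext ?_⟩
      rw [hy] at h4
      simpa [sg] using h4
    · exfalso
      simp only [sg, if_true, mul_one, hy, if_false] at h4
      exact (a y).ne_zero h4
  have h1 : σ = 1 := Equiv.ext fun y => (key y).1
  have h2 : a = 1 := funext fun y => (key y).2
  subst h1
  subst h2
  exact tr_mem_W _ _


section KH

open Cfsg.Agent.Lib.Fusion.AltCrit

/-- Elements of exponent `p` of the normalizer lie in `O^{p'}`. -/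
theorem mem_KH_of_pow (hp : Odd p) {Ω : Type} [Fintype Ω] [DecidableEq Ω] {A R : Subgroup (Perm Ω)}
    (hA : ∀ x, x ∈ A ↔ sign x = 1) {z : Perm Ω} (hz : z ^ p = 1)
    (hN : z ∈ Subgroup.normalizer (R : Set (Perm Ω))) : z ∈ KH p A R := by
  have hpp : p.Prime := Fact.out
  apply Subgroup.subset_closure
  refine ⟨(hA z).2 (Cfsg.Agent.Lib.Perm.AltGen.sign_eq_one_of_odd hp hz), hN, ?_⟩
  obtain ⟨k, -, hk⟩ := (Nat.dvd_prime_pow hpp).1 (orderOf_dvd_of_pow_eq_one (by simpa using hz : z ^ p ^ 1 = 1))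
  exact ⟨k, hk⟩

/-- The alternating group is generated by elements of exponent `p`, for `p ≤ |M|`, `p` odd. -/
theorem alt_le_closure (hp : Odd p) (hM : p ≤ Fintype.card M) {σ : Perm M} (hσ : sign σ = 1) :
    σ ∈ Subgroup.closure {π : Perm M | π ^ p = 1} := by
  have hpp : p.Prime := Fact.out
  have hconj : ∀ θ ∈ Subgroup.closure {π : Perm M | π ^ p = 1}, ∀ g : Perm M,
      g * θ * g⁻¹ ∈ Subgroup.closure {π : Perm M | π ^ p = 1} := by
    intro θ hθ g
    induction hθ using Subgroup.closure_induction with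
    | mem x hx =>
      apply Subgroup.subset_closure
      show (g * x * g⁻¹) ^ p = 1
      rw [conj_pow, hx.out, mul_one, mul_inv_cancel]
    | one => simp
    | mul x y _ _ hx hy =>
      have : g * (x * y) * g⁻¹ = (g * x * g⁻¹) * (g * y * g⁻¹) := by group
      rw [this]
      exact mul_mem hx hy
    | inv x _ hx =>
      have : g * x⁻¹ * g⁻¹ = (g * x * g⁻¹)⁻¹ := by group
      rw [this]
      exact inv_mem hx
  -- an element of order `p`
  obtain ⟨π₀, hπ₀⟩ := exists_prime_orderOf_dvd_card' (G := Perm M) p (by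
    rw [Nat.card_perm, Nat.card_eq_fintype_card]
    exact Nat.dvd_factorial hpp.pos hM)
  have hπp : π₀ ^ p = 1 := by rw [← hπ₀]; exact pow_orderOf_eq_one π₀
  have hπ1 : π₀ ≠ 1 := by
    rintro rfl
    rw [orderOf_one] at hπ₀
    exact hpp.one_lt.ne hπ₀
  obtain ⟨y, hy⟩ : ∃ y, π₀ y ≠ y := by
    by_contra h
    push Not at h
    exact hπ1 (Equiv.ext h)
  set x := π₀ y with hx
  have hxx : π₀ x ≠ x := fun h => hy (π₀.injective h)
  have hxy : π₀ x ≠ y := by
    intro h
    apply hy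
    obtain ⟨m, hm⟩ := hp
    have h1 : ∀ k : ℕ, (π₀ ^ (2 * k)) y = y := by
      intro k
      induction k with
      | zero => simp
      | succ k ih =>
        rw [show 2 * (k + 1) = 2 + 2 * k by ring, pow_add, Perm.mul_apply, ih, pow_two, Perm.mul_apply]
        exact h
    have h2 := congrArg (fun f : Perm M => f y) hπp
    simp only [Perm.one_apply] at h2
    rw [hm, pow_succ', Perm.mul_apply, h1] at h2
    exact h2
  -- the three-cycle
  have h3 : (swap x (π₀ x) * swap x y).IsThreeCycle :=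
    isThreeCycle_swap_mul_swap_same (Ne.symm hxx) hy hxy
  have hθ : swap x (π₀ x) * swap x y ∈ Subgroup.closure {π : Perm M | π ^ p = 1} := by
    have h4 : swap x (π₀ x) * swap x y = π₀ * (swap x y * π₀⁻¹ * (swap x y)⁻¹) := by
      have h5 : π₀ * swap x y * π₀⁻¹ = swap (π₀ x) (π₀ y) := (swap_apply_apply π₀ x y).symm
      rw [← hx, swap_comm (π₀ x) x] at h5
      rw [← h5]
      simp only [swap_inv]
      group
    rw [h4]
    refine mul_mem (Subgroup.subset_closure hπp) (hconj _ (inv_mem (Subgroup.subset_closure hπp)) _)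
  rw [← Equiv.Perm.mem_alternatingGroup, ← closure_three_cycles_eq_alternating] at hσ
  refine (Subgroup.closure_le _).2 ?_ hσ
  intro τ hτ
  obtain ⟨g, hg⟩ := isConj_iff.1 (isConj_iff_cycleType_eq.2 (h3.trans (show τ.IsThreeCycle from hτ).symm))
  rw [← hg]
  exact hconj _ hθ g

/-- The diagonal permutations. -/
abbrev dg (a : M → (ZMod p)ˣ) : Perm ((ZMod p × M) ⊕ X) := aff a 0 1

theorem dg_mul (a a' : M → (ZMod p)ˣ) : (dg (a * a') : Perm ((ZMod p × M) ⊕ X)) = dg a * dg a' := by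
  rw [dg, dg, aff_mul]
  congr 1
  funext y
  simp

theorem dg_one : (dg 1 : Perm ((ZMod p × M) ⊕ X)) = 1 := aff_one

theorem dg_inv (a : M → (ZMod p)ˣ) : (dg a⁻¹ : Perm ((ZMod p × M) ⊕ X)) = (dg a)⁻¹ := by
  rw [eq_comm, inv_eq_iff_mul_eq_one, ← dg_mul, mul_inv_cancel, dg_one]

/-- `dg` as a homomorphism. -/
def dgHom : (M → (ZMod p)ˣ) →* Perm ((ZMod p × M) ⊕ X) where
  toFun := dg
  map_one' := dg_one
  map_mul' := dg_mul

theorem conj_lft_dg (π : Perm M) (a : M → (ZMod p)ˣ) :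
    (lft π : Perm ((ZMod p × M) ⊕ X)) * dg a * (lft π)⁻¹ = dg (fun y => a (π⁻¹ y)) := by
  rw [mul_inv_eq_iff_eq_mul, lft, dg, dg, aff_mul, aff_mul]
  congr 1
  · funext y
    simp only [Perm.coe_one, id_eq, Pi.one_apply, one_mul, mul_one]
    rw [show π⁻¹ (π y) = y from π.symm_apply_apply y]
  · funext y
    simp


/-- Members of the normalizer of `E` in `O^{p'}`: lifts. -/
theorem lft_mem_KH (hp : Odd p) {A : Subgroup (Perm ((ZMod p × M) ⊕ X))} (hA : ∀ x, x ∈ A ↔ sign x = 1)
    {π : Perm M} (hπ : π ∈ Subgroup.closure {π : Perm M | π ^ p = 1}) :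
    (lft π : Perm ((ZMod p × M) ⊕ X)) ∈ KH p A (EE p M X) := by
  induction hπ using Subgroup.closure_induction with
  | mem x hx =>
    apply mem_KH_of_pow hp hA
    · rw [← lft_pow, hx.out, lft_one]
    · exact aff_mem_normalizer_EE _ _ _
  | one => rw [lft_one]; exact one_mem _
  | mul x y _ _ hx hy => rw [lft_mul]; exact mul_mem hx hy
  | inv x _ hx => rw [lft_inv]; exact inv_mem hx

theorem conj_lft_mem_KH (hp : Odd p) {A : Subgroup (Perm ((ZMod p × M) ⊕ X))} (hA : ∀ x, x ∈ A ↔ sign x = 1)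
    (a : M → (ZMod p)ˣ) {π : Perm M} (hπ : π ∈ Subgroup.closure {π : Perm M | π ^ p = 1}) :
    (dg a : Perm ((ZMod p × M) ⊕ X)) * lft π * (dg a)⁻¹ ∈ KH p A (EE p M X) := by
  have hNd : (dg a : Perm ((ZMod p × M) ⊕ X)) ∈ Subgroup.normalizer
      ((EE p M X : Subgroup (Perm ((ZMod p × M) ⊕ X))) : Set (Perm ((ZMod p × M) ⊕ X))) :=
    aff_mem_normalizer_EE _ _ _
  induction hπ using Subgroup.closure_induction with
  | mem x hx =>
    apply mem_KH_of_pow hp hA
    · rw [conj_pow, ← lft_pow, hx.out, lft_one, mul_one, mul_inv_cancel]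
    · exact mul_mem (mul_mem hNd (aff_mem_normalizer_EE _ _ _)) (inv_mem hNd)
  | one => rw [lft_one]; simp
  | mul x y _ _ hx hy =>
    rw [lft_mul]
    have : (dg a : Perm ((ZMod p × M) ⊕ X)) * (lft x * lft y) * (dg a)⁻¹ =
        (dg a * lft x * (dg a)⁻¹) * (dg a * lft y * (dg a)⁻¹) := by group
    rw [this]
    exact mul_mem hx hy
  | inv x _ hx =>
    rw [lft_inv]
    have : (dg a : Perm ((ZMod p × M) ⊕ X)) * (lft x)⁻¹ * (dg a)⁻¹ = (dg a * lft x * (dg a)⁻¹)⁻¹ := by group
    rw [this]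
    exact inv_mem hx

theorem dg_comm_mem_KH (hp : Odd p) {A : Subgroup (Perm ((ZMod p × M) ⊕ X))} (hA : ∀ x, x ∈ A ↔ sign x = 1)
    (a : M → (ZMod p)ˣ) {π : Perm M} (hπ : π ∈ Subgroup.closure {π : Perm M | π ^ p = 1}) :
    (dg (fun y => a y * (a (π⁻¹ y))⁻¹) : Perm ((ZMod p × M) ⊕ X)) ∈ KH p A (EE p M X) := by
  have h1 := mul_mem (conj_lft_mem_KH hp hA a hπ) (inv_mem (lft_mem_KH hp hA hπ))
  have h2 : (dg (fun y => a y * (a (π⁻¹ y))⁻¹) : Perm ((ZMod p × M) ⊕ X)) =
      dg a * lft π * (dg a)⁻¹ * (lft π)⁻¹ := by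
    have h3 : (fun y => a y * (a (π⁻¹ y))⁻¹) = a * (fun y => a (π⁻¹ y))⁻¹ := rfl
    rw [h3, dg_mul, dg_inv, ← conj_lft_dg]
    group
  rw [h2]
  exact h1

/-- Diagonal permutations of determinant one lie in `O^{p'}`. -/
theorem dg_mem_KH (hp : Odd p) (hM3 : 3 ≤ Fintype.card M) (hM : p ≤ Fintype.card M)
    {A : Subgroup (Perm ((ZMod p × M) ⊕ X))} (hA : ∀ x, x ∈ A ↔ sign x = 1)
    (a : M → (ZMod p)ˣ) (ha : ∏ y, a y = 1) :
    (dg a : Perm ((ZMod p × M) ⊕ X)) ∈ KH p A (EE p M X) := by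
  obtain ⟨y₀⟩ : Nonempty M := Fintype.card_pos_iff.1 (by omega)
  -- the elementary members
  have h1 : ∀ (y : M) (c : (ZMod p)ˣ), (dg (Pi.mulSingle y c * (Pi.mulSingle y₀ c)⁻¹) : Perm ((ZMod p × M) ⊕ X)) ∈
      KH p A (EE p M X) := by
    intro y c
    by_cases hy : y = y₀
    · subst hy
      rw [mul_inv_cancel, dg_one]
      exact one_mem _
    obtain ⟨y₂, hy₂, hy₂'⟩ : ∃ y₂, y₂ ≠ y ∧ y₂ ≠ y₀ := by
      obtain ⟨a, b, c, hab, hac, hbc⟩ := Fintype.two_lt_card_iff.1 (by omega : 2 < Fintype.card M)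
      by_cases h1 : a = y
      · by_cases h2 : b = y₀
        · exact ⟨c, fun h => hac (h1.trans h.symm), fun h => hbc (h2.trans h.symm)⟩
        · exact ⟨b, fun h => hab (h1.trans h.symm), h2⟩
      · by_cases h2 : a = y₀
        · by_cases h3 : b = y
          · exact ⟨c, fun h => hbc (h3.trans h.symm), fun h => hac (h2.trans h.symm)⟩
          · exact ⟨b, h3, fun h => hab (h2.trans h.symm)⟩
        · exact ⟨a, h1, h2⟩
    -- a three-cycle taking `y` to `y₀`
    set π : Perm M := swap y y₀ * swap y₀ y₂ with hπ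
    have hπy : π y = y₀ := by
      rw [hπ, Perm.mul_apply, swap_apply_of_ne_of_ne hy (Ne.symm hy₂), swap_apply_left]
    have hsign : sign π = 1 := by
      rw [hπ, map_mul, sign_swap hy, sign_swap (Ne.symm hy₂')]
      rfl
    have h2 := dg_comm_mem_KH hp hA (Pi.mulSingle y c) (alt_le_closure hp hM hsign)
    convert h2 using 2
    funext y'
    show (Pi.mulSingle y c : M → (ZMod p)ˣ) y' * ((Pi.mulSingle y₀ c : M → (ZMod p)ˣ) y')⁻¹ = _
    have h5 : (Pi.mulSingle y₀ c : M → (ZMod p)ˣ) y' = (Pi.mulSingle y c : M → (ZMod p)ˣ) (π⁻¹ y') := by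
      by_cases h3 : y' = y₀
      · subst h3
        have : π⁻¹ y' = y := by
          rw [← hπy]
          exact π.symm_apply_apply y
        rw [this]
        simp
      · have h4 : π⁻¹ y' ≠ y := by
          intro h
          apply h3
          have h6 : π (π⁻¹ y') = y' := π.apply_symm_apply y'
          rw [h, hπy] at h6
          exact h6.symm
        rw [Pi.mulSingle_eq_of_ne h3, Pi.mulSingle_eq_of_ne h4]
    rw [h5]
  have h2 : a = ∏ y, (Pi.mulSingle y (a y) * (Pi.mulSingle y₀ (a y))⁻¹) := by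
    rw [Finset.prod_mul_distrib, Finset.prod_inv_distrib, Finset.univ_prod_mulSingle]
    have h3 : ∏ y, (Pi.mulSingle y₀ (a y) : M → (ZMod p)ˣ) = Pi.mulSingle y₀ (∏ y, a y) :=
      (map_prod (MonoidHom.mulSingle (fun _ : M => (ZMod p)ˣ) y₀) a Finset.univ).symm
    rw [h3, ha, Pi.mulSingle_one, inv_one, mul_one]
  have h3 : a ∈ (KH p A (EE p M X)).comap (dgHom (p := p) (M := M) (X := X)) := by
    rw [h2]
    exact Subgroup.prod_mem _ fun y _ => h1 y (a y)
  exact h3

/-- **Claim (i)**: determinant one elements of the normalizer of `E` lie in `O^{p'}(N_A(E))`. -/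
theorem aff_mem_KH (hp : Odd p) (hM3 : 3 ≤ Fintype.card M) (hM : p ≤ Fintype.card M)
    {A : Subgroup (Perm ((ZMod p × M) ⊕ X))} (hA : ∀ x, x ∈ A ↔ sign x = 1)
    (a : M → (ZMod p)ˣ) (b : M → ZMod p) (σ : Perm M) (hg : aff a b σ ∈ A) (ha : ∏ y, a y = 1) :
    aff a b σ ∈ KH p A (EE p M X) := by
  have hs := (hA _).1 hg
  rw [sign_aff hp, ha, map_one, mul_one] at hs
  rw [aff_eq_prod]
  refine mul_mem (mul_mem ?_ (lft_mem_KH hp hA (alt_le_closure hp hM hs))) (dg_mem_KH hp hM3 hM hA a ha)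
  apply mem_KH_of_pow hp hA (tr_pow_p _)
  exact aff_mem_normalizer_EE _ _ _

end KH

end Cfsg.Agent.Lib.Fusion.AltOddB1
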