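/-
The second member of the family: a subgroup `R` of the two-level wreath product on whose `p²`-orbits
`SL₂(p)` acts, and the torus element `h_w` in `O^{p'}(N_A(R))` normalizing the Sylow subgroup.
-/
import Mathlib
import Cfsg.Agent.Lib.Fusion.AltOddB1

set_option autoImplicit false

namespace Cfsg.Agent.Lib.Fusion.AltOddB2

open Equiv Equiv.Perm Cfsg.Agent.Lib.Fusion.AltWr Cfsg.Agent.Lib.Fusion.AltOddA
open Cfsg.Agent.Lib.Fusion.AltOddB1

variable {p : ℕ} [Fact p.Prime] {M₁ X₁ X : Type} [Fintype M₁] [Fintype X₁] [Fintype X]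
  [DecidableEq M₁] [DecidableEq X₁] [DecidableEq X]

/-- The first-level blocks. -/
abbrev Md (p : ℕ) (M₁ X₁ : Type) := (ZMod p × M₁) ⊕ X₁

/-- The point set. -/
abbrev Om (p : ℕ) (M₁ X₁ X : Type) := (ZMod p × Md p M₁ X₁) ⊕ X

/-- The action on the fibres over `Z` of a permutation of `F × F`. -/
def faFun (Z : Finset M₁) (γ : Perm (ZMod p × ZMod p)) : Om p M₁ X₁ X → Om p M₁ X₁ X
  | Sum.inl (u, Sum.inl (v, z)) =>
      if z ∈ Z then Sum.inl ((γ (u, v)).1, Sum.inl ((γ (u, v)).2, z)) else Sum.inl (u, Sum.inl (v, z))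
  | Sum.inl (u, Sum.inr x₁) => Sum.inl (u, Sum.inr x₁)
  | Sum.inr x => Sum.inr x

theorem faFun_mul (Z : Finset M₁) (γ γ' : Perm (ZMod p × ZMod p)) (q : Om p M₁ X₁ X) :
    faFun Z (γ * γ') q = faFun Z γ (faFun Z γ' q) := by
  rcases q with ⟨u, ⟨v, z⟩ | x₁⟩ | x
  · by_cases h : z ∈ Z
    · simp [faFun, h]
    · simp [faFun, h]
  · rfl
  · rfl

theorem faFun_one (Z : Finset M₁) (q : Om p M₁ X₁ X) : faFun Z (1 : Perm (ZMod p × ZMod p)) q = q := by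
  rcases q with ⟨u, ⟨v, z⟩ | x₁⟩ | x
  · by_cases h : z ∈ Z
    · simp [faFun, h]
    · simp [faFun, h]
  · rfl
  · rfl

/-- The action on the fibres over `Z`. -/
def fa (Z : Finset M₁) (γ : Perm (ZMod p × ZMod p)) : Perm (Om p M₁ X₁ X) where
  toFun := faFun Z γ
  invFun := faFun Z γ⁻¹
  left_inv q := by rw [← faFun_mul, inv_mul_cancel, faFun_one]
  right_inv q := by rw [← faFun_mul, mul_inv_cancel, faFun_one]

theorem fa_coe (Z : Finset M₁) (γ : Perm (ZMod p × ZMod p)) :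
    ⇑(fa Z γ : Perm (Om p M₁ X₁ X)) = faFun Z γ := rfl

theorem fa_apply_mem (Z : Finset M₁) (γ : Perm (ZMod p × ZMod p)) {z : M₁} (hz : z ∈ Z) (u v : ZMod p) :
    (fa Z γ : Perm (Om p M₁ X₁ X)) (Sum.inl (u, Sum.inl (v, z))) =
      Sum.inl ((γ (u, v)).1, Sum.inl ((γ (u, v)).2, z)) := by
  rw [fa_coe]
  simp [faFun, hz]

theorem fa_apply_notMem (Z : Finset M₁) (γ : Perm (ZMod p × ZMod p)) {z : M₁} (hz : z ∉ Z) (u v : ZMod p) :
    (fa Z γ : Perm (Om p M₁ X₁ X)) (Sum.inl (u, Sum.inl (v, z))) = Sum.inl (u, Sum.inl (v, z)) := by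
  rw [fa_coe]
  simp [faFun, hz]

theorem fa_apply_inr₁ (Z : Finset M₁) (γ : Perm (ZMod p × ZMod p)) (u : ZMod p) (x₁ : X₁) :
    (fa Z γ : Perm (Om p M₁ X₁ X)) (Sum.inl (u, Sum.inr x₁)) = Sum.inl (u, Sum.inr x₁) := rfl

theorem fa_apply_inr (Z : Finset M₁) (γ : Perm (ZMod p × ZMod p)) (x : X) :
    (fa Z γ : Perm (Om p M₁ X₁ X)) (Sum.inr x) = Sum.inr x := rfl

theorem fa_inv (Z : Finset M₁) (γ : Perm (ZMod p × ZMod p)) :
    (fa Z γ : Perm (Om p M₁ X₁ X))⁻¹ = fa Z γ⁻¹ := rfl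

/-- `fa` as a homomorphism. -/
def faHom (Z : Finset M₁) : Perm (ZMod p × ZMod p) →* Perm (Om p M₁ X₁ X) where
  toFun := fa Z
  map_one' := Equiv.ext fun q => faFun_one Z q
  map_mul' γ γ' := Equiv.ext fun q => faFun_mul Z γ γ' q

theorem faHom_apply (Z : Finset M₁) (γ : Perm (ZMod p × ZMod p)) :
    (faHom Z γ : Perm (Om p M₁ X₁ X)) = fa Z γ := rfl

/-- The transvection `(u, v) ↦ (u + s v, v)`. -/
def gam₁ (s : ZMod p) : Perm (ZMod p × ZMod p) where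
  toFun q := (q.1 + s * q.2, q.2)
  invFun q := (q.1 - s * q.2, q.2)
  left_inv q := by simp
  right_inv q := by simp

/-- The transvection `(u, v) ↦ (u, v + s u)`. -/
def gam₂ (s : ZMod p) : Perm (ZMod p × ZMod p) where
  toFun q := (q.1, q.2 + s * q.1)
  invFun q := (q.1, q.2 - s * q.1)
  left_inv q := by simp
  right_inv q := by simp

/-- The diagonal `(u, v) ↦ (w u, w⁻¹ v)`. -/
def gamd (w : (ZMod p)ˣ) : Perm (ZMod p × ZMod p) where
  toFun q := ((w : ZMod p) * q.1, ((w⁻¹ : (ZMod p)ˣ) : ZMod p) * q.2)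
  invFun q := (((w⁻¹ : (ZMod p)ˣ) : ZMod p) * q.1, (w : ZMod p) * q.2)
  left_inv q := Prod.ext (Units.inv_mul_cancel_left w q.1) (Units.mul_inv_cancel_left w q.2)
  right_inv q := Prod.ext (Units.mul_inv_cancel_left w q.1) (Units.inv_mul_cancel_left w q.2)

theorem gamd_eq (w : (ZMod p)ˣ) :
    gamd w = gam₁ ((w : ZMod p) - 1) * gam₂ 1 * gam₁ (((w⁻¹ : (ZMod p)ˣ) : ZMod p) - 1) * gam₂ (-(w : ZMod p)) := by
  have h : (w : ZMod p) * ((w⁻¹ : (ZMod p)ˣ) : ZMod p) = 1 := Units.mul_inv w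
  set t := ((w⁻¹ : (ZMod p)ˣ) : ZMod p) with ht
  ext q
  · rcases q with ⟨u, v⟩
    simp only [gamd, gam₁, gam₂, Perm.mul_apply, coe_fn_mk, ← ht]
    linear_combination (-(v - (w : ZMod p) * u)) * h
  · rcases q with ⟨u, v⟩
    simp only [gamd, gam₁, gam₂, Perm.mul_apply, coe_fn_mk, ← ht]
    linear_combination u * h

theorem gam₁_pow (s : ZMod p) (k : ℕ) : (gam₁ s) ^ k = gam₁ ((k : ZMod p) * s) := by
  induction k with
  | zero =>
    ext q <;> simp [gam₁]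
  | succ k ih =>
    rw [pow_succ, ih]
    ext q
    · simp [gam₁]
      ring
    · simp [gam₁]

theorem gam₂_pow (s : ZMod p) (k : ℕ) : (gam₂ s) ^ k = gam₂ ((k : ZMod p) * s) := by
  induction k with
  | zero =>
    ext q <;> simp [gam₂]
  | succ k ih =>
    rw [pow_succ, ih]
    ext q
    · simp [gam₂]
    · simp [gam₂]
      ring

theorem gam₁_pow_p (s : ZMod p) : (gam₁ s) ^ p = 1 := by
  rw [gam₁_pow]
  ext q <;> simp [gam₁]

theorem gam₂_pow_p (s : ZMod p) : (gam₂ s) ^ p = 1 := by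
  rw [gam₂_pow]
  ext q <;> simp [gam₂]

/-- The subgroup `R`. -/
def RR (Z : Finset M₁) : Subgroup (Perm (Om p M₁ X₁ X)) where
  carrier := {x | (∀ x₀ : X, x (Sum.inr x₀) = Sum.inr x₀) ∧
    (∀ z ∈ Z, ∃ A₁ A₂ : ZMod p, ∀ u v : ZMod p,
      x (Sum.inl (u, Sum.inl (v, z))) = Sum.inl (u + A₁, Sum.inl (v + A₂, z))) ∧
    (∀ z, z ∉ Z → ∀ v : ZMod p, ∃ f : ZMod p, ∀ u : ZMod p,
      x (Sum.inl (u, Sum.inl (v, z))) = Sum.inl (u + f, Sum.inl (v, z))) ∧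
    (∀ x₁ : X₁, ∃ f : ZMod p, ∀ u : ZMod p, x (Sum.inl (u, Sum.inr x₁)) = Sum.inl (u + f, Sum.inr x₁))}
  one_mem' := by
    refine ⟨fun _ => rfl, fun z _ => ⟨0, 0, fun u v => by simp⟩, fun z _ v => ⟨0, fun u => by simp⟩,
      fun x₁ => ⟨0, fun u => by simp⟩⟩
  mul_mem' := by
    rintro x x' ⟨h1, h2, h3, h4⟩ ⟨h1', h2', h3', h4'⟩
    refine ⟨fun x₀ => ?_, fun z hz => ?_, fun z hz v => ?_, fun x₁ => ?_⟩
    · rw [Perm.mul_apply, h1', h1]
    · obtain ⟨A₁, A₂, hA⟩ := h2 z hz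
      obtain ⟨A₁', A₂', hA'⟩ := h2' z hz
      refine ⟨A₁' + A₁, A₂' + A₂, fun u v => ?_⟩
      rw [Perm.mul_apply, hA', hA, add_assoc, add_assoc]
    · obtain ⟨f', hf'⟩ := h3' z hz v
      obtain ⟨f, hf⟩ := h3 z hz v
      refine ⟨f' + f, fun u => ?_⟩
      rw [Perm.mul_apply, hf', hf, add_assoc]
    · obtain ⟨f', hf'⟩ := h4' x₁
      obtain ⟨f, hf⟩ := h4 x₁
      refine ⟨f' + f, fun u => ?_⟩
      rw [Perm.mul_apply, hf', hf, add_assoc]
  inv_mem' := by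
    rintro x ⟨h1, h2, h3, h4⟩
    refine ⟨fun x₀ => ?_, fun z hz => ?_, fun z hz v => ?_, fun x₁ => ?_⟩
    · rw [Perm.inv_eq_iff_eq, h1]
    · obtain ⟨A₁, A₂, hA⟩ := h2 z hz
      refine ⟨-A₁, -A₂, fun u v => ?_⟩
      rw [Perm.inv_eq_iff_eq, hA]
      simp
    · obtain ⟨f, hf⟩ := h3 z hz v
      refine ⟨-f, fun u => ?_⟩
      rw [Perm.inv_eq_iff_eq, hf]
      simp
    · obtain ⟨f, hf⟩ := h4 x₁
      refine ⟨-f, fun u => ?_⟩
      rw [Perm.inv_eq_iff_eq, hf]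
      simp

theorem mem_RR {Z : Finset M₁} {x : Perm (Om p M₁ X₁ X)} :
    x ∈ (RR Z : Subgroup (Perm (Om p M₁ X₁ X))) ↔ (∀ x₀ : X, x (Sum.inr x₀) = Sum.inr x₀) ∧
    (∀ z ∈ Z, ∃ A₁ A₂ : ZMod p, ∀ u v : ZMod p,
      x (Sum.inl (u, Sum.inl (v, z))) = Sum.inl (u + A₁, Sum.inl (v + A₂, z))) ∧
    (∀ z, z ∉ Z → ∀ v : ZMod p, ∃ f : ZMod p, ∀ u : ZMod p,
      x (Sum.inl (u, Sum.inl (v, z))) = Sum.inl (u + f, Sum.inl (v, z))) ∧
    (∀ x₁ : X₁, ∃ f : ZMod p, ∀ u : ZMod p, x (Sum.inl (u, Sum.inr x₁)) = Sum.inl (u + f, Sum.inr x₁)) :=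
  Iff.rfl

/-- `R ≤ W (W Q₁)`. -/
theorem RR_le (Z : Finset M₁) (Q₁ : Subgroup (Perm M₁)) :
    (RR Z : Subgroup (Perm (Om p M₁ X₁ X))) ≤ W (W Q₁ : Subgroup (Perm (Md p M₁ X₁))) := by
  rintro x ⟨h1, h2, h3, h4⟩
  choose! A₁ A₂ hA using h2
  choose! f₃ hf₃ using h3
  choose f₄ hf₄ using h4
  let b' : M₁ → ZMod p := fun z => if z ∈ Z then A₂ z else 0
  let b : Md p M₁ X₁ → ZMod p := fun y => match y with
    | Sum.inl (v, z) => if z ∈ Z then A₁ z else f₃ z v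
    | Sum.inr x₁ => f₄ x₁
  refine ⟨b, aff 1 b' 1, ⟨b', 1, Q₁.one_mem, rfl⟩, ?_⟩
  ext q
  rcases q with ⟨u, ⟨v, z⟩ | x₁⟩ | x₀
  · by_cases hz : z ∈ Z
    · rw [hA z hz u v]
      simp [b, b', hz]
    · rw [hf₃ z hz v u]
      simp [b, b', hz]
  · rw [hf₄ x₁ u]
    simp [b]
  · rw [h1 x₀]
    rfl


/-- Additive fibre actions normalize `R`. -/
theorem fa_conj_mem_RR (Z : Finset M₁) (γ : Perm (ZMod p × ZMod p)) (hγ : ∀ q q', γ (q + q') = γ q + γ q')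
    {x : Perm (Om p M₁ X₁ X)} (hx : x ∈ (RR Z : Subgroup (Perm (Om p M₁ X₁ X)))) :
    fa Z γ * x * (fa Z γ)⁻¹ ∈ (RR Z : Subgroup (Perm (Om p M₁ X₁ X))) := by
  obtain ⟨h1, h2, h3, h4⟩ := hx
  rw [fa_inv]
  refine ⟨fun x₀ => ?_, fun z hz => ?_, fun z hz v => ?_, fun x₁ => ?_⟩
  · rw [Perm.mul_apply, Perm.mul_apply, fa_apply_inr, h1, fa_apply_inr]
  · obtain ⟨A₁, A₂, hA⟩ := h2 z hz
    refine ⟨(γ (A₁, A₂)).1, (γ (A₁, A₂)).2, fun u v => ?_⟩
    rw [Perm.mul_apply, Perm.mul_apply, fa_apply_mem _ _ hz, hA, fa_apply_mem _ _ hz]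
    have key : γ ((γ⁻¹ (u, v)).1 + A₁, (γ⁻¹ (u, v)).2 + A₂) = (u, v) + γ (A₁, A₂) := by
      have h5 : ((γ⁻¹ (u, v)).1 + A₁, (γ⁻¹ (u, v)).2 + A₂) = γ⁻¹ (u, v) + (A₁, A₂) := rfl
      rw [h5, hγ]
      congr 1
      exact γ.apply_symm_apply _
    rw [key]
    rfl
  · obtain ⟨f, hf⟩ := h3 z hz v
    refine ⟨f, fun u => ?_⟩
    rw [Perm.mul_apply, Perm.mul_apply, fa_apply_notMem _ _ hz, hf, fa_apply_notMem _ _ hz]
  · obtain ⟨f, hf⟩ := h4 x₁
    refine ⟨f, fun u => ?_⟩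
    rw [Perm.mul_apply, Perm.mul_apply, fa_apply_inr₁, hf, fa_apply_inr₁]

theorem fa_mem_normalizer_RR (Z : Finset M₁) (γ : Perm (ZMod p × ZMod p)) (hγ : ∀ q q', γ (q + q') = γ q + γ q') :
    fa Z γ ∈ Subgroup.normalizer ((RR Z : Subgroup (Perm (Om p M₁ X₁ X))) : Set (Perm (Om p M₁ X₁ X))) :=
  mem_normalizer_of_conj_le _ _ fun _ hx => fa_conj_mem_RR Z γ hγ hx

theorem gam₁_add (s : ZMod p) (q q' : ZMod p × ZMod p) : gam₁ s (q + q') = gam₁ s q + gam₁ s q' := by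
  ext
  · simp [gam₁]
    ring
  · simp [gam₁]

theorem gam₂_add (s : ZMod p) (q q' : ZMod p × ZMod p) : gam₂ s (q + q') = gam₂ s q + gam₂ s q' := by
  ext
  · simp [gam₂]
  · simp [gam₂]
    ring

section KH

open Cfsg.Agent.Lib.Fusion.AltCrit

/-- The diagonal fibre action lies in `O^{p'}(N_A(R))`. -/
theorem fa_gamd_mem_KH (hp : Odd p) (Z : Finset M₁) {A : Subgroup (Perm (Om p M₁ X₁ X))}
    (hA : ∀ x, x ∈ A ↔ sign x = 1) (w : (ZMod p)ˣ) : fa Z (gamd w) ∈ KH p A (RR Z) := by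
  have h1 : ∀ s, fa Z (gam₁ s) ∈ KH p A (RR Z) := by
    intro s
    apply mem_KH_of_pow hp hA _ (fa_mem_normalizer_RR Z _ (gam₁_add s))
    rw [← faHom_apply, ← map_pow, gam₁_pow_p, map_one]
  have h2 : ∀ s, fa Z (gam₂ s) ∈ KH p A (RR Z) := by
    intro s
    apply mem_KH_of_pow hp hA _ (fa_mem_normalizer_RR Z _ (gam₂_add s))
    rw [← faHom_apply, ← map_pow, gam₂_pow_p, map_one]
  rw [gamd_eq, ← faHom_apply, map_mul, map_mul, map_mul]
  exact mul_mem (mul_mem (mul_mem (h1 _) (h2 _)) (h1 _)) (h2 _)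

end KH

/-- Fibre translations belong to `R`. -/
theorem fa_add_mem_RR {Z : Finset M₁} {z : M₁} (hz : z ∈ Z) (q : ZMod p × ZMod p) :
    (fa {z} (Equiv.addRight q) : Perm (Om p M₁ X₁ X)) ∈ (RR Z : Subgroup (Perm (Om p M₁ X₁ X))) := by
  refine ⟨fun x₀ => fa_apply_inr _ _ _, fun z' hz' => ?_, fun z' hz' v => ?_, fun x₁ => ?_⟩
  · by_cases h : z' = z
    · subst h
      refine ⟨q.1, q.2, fun u v => ?_⟩
      rw [fa_apply_mem _ _ (Finset.mem_singleton_self _)]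
      rfl
    · refine ⟨0, 0, fun u v => ?_⟩
      rw [fa_apply_notMem _ _ (by simpa using h)]
      simp
  · have h : z' ≠ z := fun h => hz' (h ▸ hz)
    refine ⟨0, fun u => ?_⟩
    rw [fa_apply_notMem _ _ (by simpa using h)]
    simp
  · exact ⟨0, fun u => by rw [fa_apply_inr₁]; simp⟩

/-- Translations vanishing over `Z` belong to `R`. -/
theorem tr_mem_RR {Z : Finset M₁} (b : Md p M₁ X₁ → ZMod p) (hb : ∀ v, ∀ z ∈ Z, b (Sum.inl (v, z)) = 0) :
    (tr b : Perm (Om p M₁ X₁ X)) ∈ (RR Z : Subgroup (Perm (Om p M₁ X₁ X))) := by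
  refine ⟨fun x₀ => rfl, fun z hz => ⟨0, 0, fun u v => ?_⟩, fun z _ v => ⟨b (Sum.inl (v, z)), fun u => ?_⟩,
    fun x₁ => ⟨b (Sum.inr x₁), fun u => ?_⟩⟩
  · simp [hb v z hz]
  · simp
  · simp

/-- `R` is self-centralizing. -/
theorem mem_RR_of_centralizer (hX : Fintype.card X ≤ 1) {Z : Finset M₁} {x : Perm (Om p M₁ X₁ X)}
    (hx : x ∈ Subgroup.centralizer ((RR Z : Subgroup (Perm (Om p M₁ X₁ X))) : Set (Perm (Om p M₁ X₁ X)))) :
    x ∈ (RR Z : Subgroup (Perm (Om p M₁ X₁ X))) := by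
  have hc : ∀ r ∈ (RR Z : Subgroup (Perm (Om p M₁ X₁ X))), ∀ q, r (x q) = x (r q) := by
    intro r hr q
    have := Subgroup.mem_centralizer_iff.1 hx r hr
    exact congrArg (fun f : Perm (Om p M₁ X₁ X) => f q) this
  -- fibres over `Z`
  have hZ : ∀ z ∈ Z, ∃ A₁ A₂ : ZMod p, ∀ u v : ZMod p,
      x (Sum.inl (u, Sum.inl (v, z))) = Sum.inl (u + A₁, Sum.inl (v + A₂, z)) := by
    intro z hz
    have hsing : z ∈ ({z} : Finset M₁) := Finset.mem_singleton_self z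
    have hform : ∀ u v : ZMod p, ∃ β₁ β₂ : ZMod p,
        x (Sum.inl (u, Sum.inl (v, z))) = Sum.inl (β₁, Sum.inl (β₂, z)) := by
      intro u v
      have h1 := hc _ (fa_add_mem_RR hz ((1, 0) : ZMod p × ZMod p)) (Sum.inl (u, Sum.inl (v, z)))
      rw [fa_apply_mem _ _ hsing] at h1
      have hne : x (Sum.inl (((Equiv.addRight ((1, 0) : ZMod p × ZMod p)) (u, v)).1,
          Sum.inl (((Equiv.addRight ((1, 0) : ZMod p × ZMod p)) (u, v)).2, z))) ≠ x (Sum.inl (u, Sum.inl (v, z))) := by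
        intro he
        have := x.injective he
        simp at this
      rcases hq : x (Sum.inl (u, Sum.inl (v, z))) with ⟨t, ⟨t', z'⟩ | x₁⟩ | x₀
      · by_cases hz' : z' = z
        · subst hz'
          exact ⟨t, t', rfl⟩
        · exfalso
          rw [hq] at h1 hne
          rw [fa_apply_notMem _ _ (by simpa using hz')] at h1
          exact hne h1.symm
      · exfalso
        rw [hq] at h1 hne
        rw [fa_apply_inr₁] at h1
        exact hne h1.symm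
      · exfalso
        rw [hq] at h1 hne
        rw [fa_apply_inr] at h1
        exact hne h1.symm
    choose β₁ β₂ hβ using hform
    have hu : ∀ u v, β₁ (u + 1) v = β₁ u v + 1 ∧ β₂ (u + 1) v = β₂ u v := by
      intro u v
      have h1 := hc _ (fa_add_mem_RR hz ((1, 0) : ZMod p × ZMod p)) (Sum.inl (u, Sum.inl (v, z)))
      rw [hβ, fa_apply_mem _ _ hsing, fa_apply_mem _ _ hsing] at h1
      have h2 : x (Sum.inl (u + 1, Sum.inl (v, z))) = Sum.inl (β₁ u v + 1, Sum.inl (β₂ u v, z)) := by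
        have := h1.symm
        simpa using this
      rw [hβ] at h2
      simpa using h2
    have hv : ∀ u v, β₁ u (v + 1) = β₁ u v ∧ β₂ u (v + 1) = β₂ u v + 1 := by
      intro u v
      have h1 := hc _ (fa_add_mem_RR hz ((0, 1) : ZMod p × ZMod p)) (Sum.inl (u, Sum.inl (v, z)))
      rw [hβ, fa_apply_mem _ _ hsing, fa_apply_mem _ _ hsing] at h1
      have h2 : x (Sum.inl (u, Sum.inl (v + 1, z))) = Sum.inl (β₁ u v, Sum.inl (β₂ u v + 1, z)) := by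
        have := h1.symm
        simpa using this
      rw [hβ] at h2
      simpa using h2
    refine ⟨β₁ 0 0, β₂ 0 0, fun u v => ?_⟩
    rw [hβ]
    have e1 := eq_add_mul_of_step (fun u => β₁ u v) 1 (fun u => (hu u v).1) u
    have e2 := eq_add_mul_of_step (fun v => β₁ 0 v) 0 (fun v => by simpa using (hv 0 v).1) v
    have e3 := eq_add_mul_of_step (fun u => β₂ u v) 0 (fun u => by simpa using (hu u v).2) u
    have e4 := eq_add_mul_of_step (fun v => β₂ 0 v) 1 (fun v => (hv 0 v).2) v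
    simp only [smul_eq_mul, mul_one, mul_zero, add_zero] at e1 e2 e3 e4
    rw [e1, e2, e3, e4, add_comm, add_comm (β₂ 0 0) v]
  -- the other blocks
  have hO : ∀ y : Md p M₁ X₁, (tr (sg y 1) : Perm (Om p M₁ X₁ X)) ∈ (RR Z : Subgroup (Perm (Om p M₁ X₁ X))) →
      ∃ f : ZMod p, ∀ u : ZMod p, x (Sum.inl (u, y)) = Sum.inl (u + f, y) := by
    intro y hy
    have hform : ∀ u : ZMod p, ∃ β : ZMod p, x (Sum.inl (u, y)) = Sum.inl (β, y) := by
      intro u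
      have h1 := hc _ hy (Sum.inl (u, y))
      have h2 : (tr (sg y 1) : Perm (Om p M₁ X₁ X)) (Sum.inl (u, y)) = Sum.inl (u + 1, y) := by
        simp [sg]
      rw [h2] at h1
      have hne : x (Sum.inl (u + 1, y)) ≠ x (Sum.inl (u, y)) := by
        intro he
        have := x.injective he
        simp at this
      rcases hq : x (Sum.inl (u, y)) with ⟨t, y'⟩ | x₀
      · by_cases hy' : y' = y
        · subst hy'
          exact ⟨t, rfl⟩
        · exfalso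
          rw [hq] at h1 hne
          apply hne
          rw [← h1]
          simp [sg, hy']
      · exfalso
        rw [hq] at h1 hne
        exact hne h1.symm
    choose β hβ using hform
    have hu : ∀ u, β (u + 1) = β u + 1 := by
      intro u
      have h1 := hc _ hy (Sum.inl (u, y))
      rw [hβ] at h1
      have h2 : (tr (sg y 1) : Perm (Om p M₁ X₁ X)) (Sum.inl (u, y)) = Sum.inl (u + 1, y) := by
        simp [sg]
      have h3 : (tr (sg y 1) : Perm (Om p M₁ X₁ X)) (Sum.inl (β u, y)) = Sum.inl (β u + 1, y) := by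
        simp [sg]
      rw [h2, h3, hβ] at h1
      simpa using h1.symm
    refine ⟨β 0, fun u => ?_⟩
    rw [hβ]
    have e1 := eq_add_mul_of_step β 1 hu u
    simp only [smul_eq_mul, mul_one] at e1
    rw [e1, add_comm]
  have hO1 : ∀ z, z ∉ Z → ∀ v : ZMod p, ∃ f : ZMod p, ∀ u : ZMod p,
      x (Sum.inl (u, Sum.inl (v, z))) = Sum.inl (u + f, Sum.inl (v, z)) := by
    intro z hz v
    apply hO
    apply tr_mem_RR
    intro v' z' hz'
    have : z' ≠ z := fun h => hz (h ▸ hz')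
    simp [sg, this]
  have hO2 : ∀ x₁ : X₁, ∃ f : ZMod p, ∀ u : ZMod p, x (Sum.inl (u, Sum.inr x₁)) = Sum.inl (u + f, Sum.inr x₁) := by
    intro x₁
    apply hO
    apply tr_mem_RR
    intro v' z' hz'
    simp [sg]
  refine ⟨fun x₀ => ?_, hZ, hO1, hO2⟩
  rcases hq : x (Sum.inr x₀) with ⟨t, ⟨t', z⟩ | x₁⟩ | x₁
  · exfalso
    by_cases hz : z ∈ Z
    · obtain ⟨A₁, A₂, hA⟩ := hZ z hz
      have h1 := hA (t - A₁) (t' - A₂)
      simp only [sub_add_cancel] at h1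
      rw [← hq] at h1
      have := x.injective h1
      simp at this
    · obtain ⟨f, hf⟩ := hO1 z hz t'
      have h1 := hf (t - f)
      simp only [sub_add_cancel] at h1
      rw [← hq] at h1
      have := x.injective h1
      simp at this
  · exfalso
    obtain ⟨f, hf⟩ := hO2 x₁
    have h1 := hf (t - f)
    simp only [sub_add_cancel] at h1
    rw [← hq] at h1
    have := x.injective h1
    simp at this
  · have : x₁ = x₀ := by
      haveI := Fintype.card_le_one_iff_subsingleton.1 hX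
      exact Subsingleton.elim _ _
    rw [this]

/-- The multipliers of the torus element. -/
def aH (Z : Finset M₁) (w : (ZMod p)ˣ) : Md p M₁ X₁ → (ZMod p)ˣ
  | Sum.inl (_, z) => if z ∈ Z then w else 1
  | Sum.inr _ => 1

/-- The multipliers on the first level. -/
def a1H (Z : Finset M₁) (w : (ZMod p)ˣ) : M₁ → (ZMod p)ˣ := fun z => if z ∈ Z then w⁻¹ else 1

/-- The torus element. -/
def hw (Z : Finset M₁) (w : (ZMod p)ˣ) : Perm (Om p M₁ X₁ X) :=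
  aff (aH Z w) 0 (aff (a1H Z w) 0 1)

theorem hw_eq (Z : Finset M₁) (w : (ZMod p)ˣ) : (hw Z w : Perm (Om p M₁ X₁ X)) = fa Z (gamd w) := by
  ext q
  rcases q with ⟨u, ⟨v, z⟩ | x₁⟩ | x₀
  · by_cases hz : z ∈ Z
    · rw [fa_apply_mem _ _ hz]
      have h1 : (aH Z w : Md p M₁ X₁ → (ZMod p)ˣ) (Sum.inl (v, z)) = w := if_pos hz
      have h2 : a1H Z w z = w⁻¹ := if_pos hz
      show (Sum.inl (((aH Z w (Sum.inl (v, z)) : (ZMod p)ˣ) : ZMod p) * u + 0,
        Sum.inl (((a1H Z w z : (ZMod p)ˣ) : ZMod p) * v + 0, z)) : Om p M₁ X₁ X) = _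
      rw [h1, h2, add_zero, add_zero]
      rfl
    · rw [fa_apply_notMem _ _ hz]
      simp [hw, aH, a1H, hz]
  · rw [fa_apply_inr₁]
    simp [hw, aH]
  · rw [fa_apply_inr]
    rfl

/-- The product of the multipliers. -/
theorem prod_aH (Z : Finset M₁) (w : (ZMod p)ˣ) : ∏ y, (aH Z w : Md p M₁ X₁ → (ZMod p)ˣ) y = w ^ (p * Z.card) := by
  rw [Fintype.prod_sum_type, Fintype.prod_prod_type]
  have h1 : ∀ x₁ : X₁, (aH Z w : Md p M₁ X₁ → (ZMod p)ˣ) (Sum.inr x₁) = 1 := fun _ => rfl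
  simp only [h1, Finset.prod_const_one, mul_one]
  have h2 : ∀ (v : ZMod p) (z : M₁), (aH Z w : Md p M₁ X₁ → (ZMod p)ˣ) (Sum.inl (v, z)) = if z ∈ Z then w else 1 :=
    fun _ _ => rfl
  simp only [h2]
  have h3 : ∏ z : M₁, (if z ∈ Z then w else 1) = w ^ Z.card := by
    rw [Finset.prod_ite_mem]
    simp
  rw [h3]
  simp [ZMod.card, pow_mul, pow_right_comm]

/-- Fermat for the torus. -/
theorem pow_p_pow_eq (w : (ZMod p)ˣ) (e : ℕ) : w ^ (p ^ e) = w := by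
  induction e with
  | zero => simp
  | succ e ih =>
    rw [pow_succ, pow_mul, ih]
    apply Units.ext
    simp [ZMod.pow_card]

/-- The torus element normalizes the two-level wreath product, if `Z` is `Q₁`-stable. -/
theorem hw_mem_normalizer (Q₁ : Subgroup (Perm M₁)) (Z : Finset M₁) (hZ : ∀ π ∈ Q₁, ∀ z, π z ∈ Z ↔ z ∈ Z)
    (w : (ZMod p)ˣ) :
    (hw Z w : Perm (Om p M₁ X₁ X)) ∈ Subgroup.normalizer
      ((W (W Q₁ : Subgroup (Perm (Md p M₁ X₁))) : Subgroup (Perm (Om p M₁ X₁ X))) : Set (Perm (Om p M₁ X₁ X))) := by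
  apply aff_mem_normalizer_W
  · intro π hπ
    apply conj_mem_W _ _ hπ
    · intro π₁ hπ₁
      simpa using hπ₁
    · intro π₁ hπ₁ z
      simp only [a1H, hZ π₁ hπ₁]
  · rintro _ ⟨b, π₁, hπ₁, rfl⟩ y
    rcases y with ⟨v, z⟩ | x₁
    · simp only [aff_inl, aH, hZ π₁ hπ₁]
    · rfl

end Cfsg.Agent.Lib.Fusion.AltOddB2
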