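/-
Simplicity of the `p`-fusion system of `A_n` for `p` odd, `p² ≤ n`, `n % p ≤ 1`.
-/
import Mathlib
import Cfsg.Agent.Lib.Fusion.AltOddB2

set_option autoImplicit false

namespace Cfsg.Agent.Lib.Fusion.AltOdd

open Equiv Equiv.Perm Cfsg.Agent.Lib.Fusion.AltWr Cfsg.Agent.Lib.Fusion.AltOddA
open Cfsg.Agent.Lib.Fusion.AltOddB1 Cfsg.Agent.Lib.Fusion.AltOddB2 Cfsg.Agent.Lib.Fusion.AltCrit

variable {p : ℕ} [Fact p.Prime] {M₁ X₁ X : Type} [Fintype M₁] [Fintype X₁] [Fintype X]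
  [DecidableEq M₁] [DecidableEq X₁] [DecidableEq X]

theorem KH_le {Ω : Type} (A R : Subgroup (Perm Ω)) : KH p A R ≤ A := by
  rw [KH, Subgroup.closure_le]
  rintro z ⟨hz, -, -⟩
  exact hz

/-- The normalizer of the two-level wreath product is generated as required. -/
theorem normalizer_le_DH (hp : Odd p) (hX : Fintype.card X ≤ 1)
    (hM3 : 3 ≤ Fintype.card (Md p M₁ X₁)) (hM : p ≤ Fintype.card (Md p M₁ X₁))
    (Q₁ : Subgroup (Perm M₁)) (Z : Finset M₁) (hZ : ∀ π ∈ Q₁, ∀ z, π z ∈ Z ↔ z ∈ Z) {e : ℕ} (hZc : Z.card = p ^ e)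
    {A : Subgroup (Perm (Om p M₁ X₁ X))} (hA : ∀ x, x ∈ A ↔ sign x = 1)
    {x : Perm (Om p M₁ X₁ X)} (hxA : x ∈ A)
    (hx : x ∈ Subgroup.normalizer
      ((W (W Q₁ : Subgroup (Perm (Md p M₁ X₁))) : Subgroup (Perm (Om p M₁ X₁ X))) : Set (Perm (Om p M₁ X₁ X)))) :
    x ∈ DH p A (W (W Q₁ : Subgroup (Perm (Md p M₁ X₁)))) {EE p (Md p M₁ X₁) X, RR Z} := by
  obtain ⟨a, b, σ, rfl⟩ := form_of_normalizer hX hx
  set w := ∏ y, a y with hw1
  have hh := hw_mem_normalizer (X := X) (X₁ := X₁) Q₁ Z hZ w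
  have hhK : (hw Z w : Perm (Om p M₁ X₁ X)) ∈ KH p A (RR Z) := by
    rw [hw_eq]
    exact fa_gamd_mem_KH hp Z hA w
  have hhA := KH_le A _ hhK
  have hprodh : ∏ y, (aH Z w : Md p M₁ X₁ → (ZMod p)ˣ) y = w := by
    rw [prod_aH, hZc, ← pow_succ', pow_p_pow_eq]
  have hx'N := mul_mem hx (inv_mem hh)
  obtain ⟨a', b', σ', hx'⟩ := form_of_normalizer hX hx'N
  have hxeq : (aff a b σ : Perm (Om p M₁ X₁ X)) = aff a' b' σ' * hw Z w := by
    rw [← hx']
    group
  rw [hw, aff_mul] at hxeq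
  obtain ⟨ha1, -, -⟩ := aff_inj hxeq
  have hprod' : ∏ y, a' y = 1 := by
    have h1 : w = (∏ y, a' y) * w := by
      rw [hw1]
      nth_rewrite 1 [ha1]
      rw [Finset.prod_mul_distrib, Equiv.prod_comp (aff (a1H Z w) 0 1 : Perm (Md p M₁ X₁)) a', hprodh]
    exact (mul_eq_right.1 h1.symm)
  have hx'A : (aff a' b' σ' : Perm (Om p M₁ X₁ X)) ∈ A := by
    rw [← hx']
    exact mul_mem hxA (inv_mem hhA)
  have hK' := aff_mem_KH hp hM3 hM hA a' b' σ' hx'A hprod'
  have hfinal : (aff a b σ : Perm (Om p M₁ X₁ X)) = aff a' b' σ' * hw Z w := by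
    rw [← hx']
    group
  rw [hfinal]
  refine mul_mem (Subgroup.subset_closure ⟨hx'A, ?_, _, Or.inl rfl, hK'⟩)
    (Subgroup.subset_closure ⟨hhA, hh, _, Or.inr rfl, hhK⟩)
  rw [← hx']
  exact hx'N


open Cfsg in
/-- **The `p`-fusion system of `A_n`, `p` odd, `p² ≤ n`, `n % p ≤ 1`, is simple.** -/
theorem isSimple_odd (hp : Odd p) (n : ℕ) (hnp : p ^ 2 ≤ n) (hb : n % p ≤ 1)
    (S : Sylow p (alternatingGroup (Fin n))) :
    (groupFusionSystem (S : Subgroup (alternatingGroup (Fin n)))).IsSimple p := by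
  have hpp : p.Prime := Fact.out
  have hp3 : 3 ≤ p := by
    have := hpp.two_le
    obtain ⟨k, hk⟩ := hp
    omega
  -- the coordinates
  have hmp : p ≤ n / p := by
    rw [Nat.le_div_iff_mul_le hpp.pos]
    nlinarith
  set m := n / p with hm
  set q := m / p with hq
  set s := m % p with hs
  set r := n % p with hr
  have hq1 : 1 ≤ q := Nat.div_pos hmp hpp.pos
  have hmq : p * q + s = m := Nat.div_add_mod m p
  have hnm : p * m + r = n := Nat.div_add_mod n p
  have hslt : Fintype.card (Fin s) < p := by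
    simpa using Nat.mod_lt m hpp.pos
  have hrlt : Fintype.card (Fin r) < p := by
    have : r ≤ 1 := hb
    simp only [Fintype.card_fin]
    omega
  have hrle : Fintype.card (Fin r) ≤ 1 := by
    simpa using hb
  have hMc : Fintype.card (Md p (Fin q) (Fin s)) = m := by
    simp [ZMod.card, hmq]
  have hOc : Fintype.card (Fin n) = Fintype.card (Om p (Fin q) (Fin s) (Fin r)) := by
    rw [Fintype.card_sum, Fintype.card_prod, hMc]
    simp [ZMod.card, hnm]
  let e : Fin n ≃ Om p (Fin q) (Fin s) (Fin r) := Fintype.equivOfCardEq hOc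
  let φ : Perm (Fin n) ≃* Perm (Om p (Fin q) (Fin s) (Fin r)) := e.permCongrHom
  let ι : alternatingGroup (Fin n) →* Perm (Om p (Fin q) (Fin s) (Fin r)) :=
    φ.toMonoidHom.comp (alternatingGroup (Fin n)).subtype
  have hι : Function.Injective ι := φ.injective.comp Subtype.val_injective
  have hsignφ : ∀ g : Perm (Fin n), sign (φ g) = sign g := fun g => sign_permCongr e g
  have hrange : ∀ x, x ∈ ι.range ↔ sign x = 1 := by
    intro x
    constructor
    · rintro ⟨g, rfl⟩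
      exact (hsignφ g.1).trans (Equiv.Perm.mem_alternatingGroup.1 g.2)
    · intro hx
      refine ⟨⟨φ.symm x, Equiv.Perm.mem_alternatingGroup.2 ?_⟩, φ.apply_symm_apply x⟩
      rw [← hsignφ, φ.apply_symm_apply, hx]
  -- the Sylow subgroup
  let Q₁ : Sylow p (Perm (Fin q)) := default
  let Q := sylowW (X := Fin s) Q₁ hslt
  have hQ : (Q : Subgroup (Perm (Md p (Fin q) (Fin s)))) = W (Q₁ : Subgroup (Perm (Fin q))) := coe_sylowW Q₁ hslt
  let S₁Syl := sylowW (X := Fin r) Q hrlt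
  have hS₁ : (S₁Syl : Subgroup (Perm (Om p (Fin q) (Fin s) (Fin r)))) = W (Q : Subgroup (Perm (Md p (Fin q) (Fin s)))) :=
    coe_sylowW Q hrlt
  have hS₁' : (S₁Syl : Subgroup (Perm (Om p (Fin q) (Fin s) (Fin r)))) = W (W (Q₁ : Subgroup (Perm (Fin q)))) := by
    rw [hS₁, hQ]
  set S₁ : Subgroup (Perm (Om p (Fin q) (Fin s) (Fin r))) := W (W (Q₁ : Subgroup (Perm (Fin q)))) with hS₁def
  have hS₁le : S₁ ≤ ι.range := by
    intro x hx
    rw [hrange]
    rw [← hS₁'] at hx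
    obtain ⟨k, hk⟩ := S₁Syl.isPGroup' ⟨x, hx⟩
    have hk' : x ^ (p ^ k) = 1 := by simpa using congrArg Subtype.val hk
    exact Cfsg.Agent.Lib.Perm.AltGen.sign_eq_one_of_odd hp.pow hk'
  -- the Sylow subgroup of `A_n`
  let S₀ : Sylow p (alternatingGroup (Fin n)) :=
    { toSubgroup := S₁.comap ι
      isPGroup' := by
        rw [← hS₁']
        exact S₁Syl.isPGroup'.comap_of_injective ι hι
      is_maximal' := by
        intro Q' hQ' hle
        have h1 : IsPGroup p (Q'.map ι) := hQ'.map ι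
        have h2 : (S₁Syl : Subgroup (Perm (Om p (Fin q) (Fin s) (Fin r)))) ≤ Q'.map ι := by
          rw [hS₁']
          intro x hx
          obtain ⟨g, rfl⟩ := hS₁le hx
          exact ⟨g, hle hx, rfl⟩
        have h3 := S₁Syl.is_maximal' h1 h2
        apply le_antisymm _ hle
        intro g hg
        have h4 : ι g ∈ Q'.map ι := ⟨g, hg, rfl⟩
        rw [h3, hS₁'] at h4
        exact h4 }
  have hne : S₁ ≠ ⊥ := by
    intro h
    let y : Md p (Fin q) (Fin s) := Sum.inl (0, ⟨0, hq1⟩)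
    have h1 : (tr (sg y 1) : Perm (Om p (Fin q) (Fin s) (Fin r))) ∈ S₁ := tr_mem_W _ _
    rw [h, Subgroup.mem_bot] at h1
    have h2 := congrArg (fun f : Perm (Om p (Fin q) (Fin s) (Fin r)) => f (Sum.inl (0, y))) h1
    simp [sg] at h2
  -- the orbit
  obtain ⟨z₀⟩ : Nonempty (Fin q) := Fin.pos_iff_nonempty.1 hq1
  classical
  let Z : Finset (Fin q) := Finset.univ.filter (fun z => z ∈ MulAction.orbit (Q₁ : Subgroup (Perm (Fin q))) z₀)
  have hZstable : ∀ π ∈ (Q₁ : Subgroup (Perm (Fin q))), ∀ z, π z ∈ Z ↔ z ∈ Z := by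
    intro π hπ z
    simp only [Z, Finset.mem_filter, Finset.mem_univ, true_and]
    let π' : (Q₁ : Subgroup (Perm (Fin q))) := ⟨π, hπ⟩
    have hπ' : ∀ z, π' • z = π z := fun _ => rfl
    constructor
    · rintro ⟨g, hg⟩
      refine ⟨π'⁻¹ * g, ?_⟩
      have hg' : g • z₀ = π' • z := hg
      show (π'⁻¹ * g) • z₀ = z
      rw [mul_smul, hg', inv_smul_smul]
    · rintro ⟨g, hg⟩
      refine ⟨π' * g, ?_⟩
      have hg' : g • z₀ = z := hg
      show (π' * g) • z₀ = π' • z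
      rw [mul_smul, hg']
  obtain ⟨e', he'⟩ : ∃ e', Z.card = p ^ e' := by
    obtain ⟨e', he'⟩ := (Q₁.isPGroup').card_orbit z₀
    refine ⟨e', ?_⟩
    rw [← he', Nat.card_eq_fintype_card]
    exact (Fintype.card_of_subtype Z (fun z => by simp [Z])).symm
  refine isSimple_of_ambient ι hι S₁ S₀ rfl hS₁le hne ?_ {EE p (Md p (Fin q) (Fin s)) (Fin r), RR Z} ?_ ?_ ?_ S
  · intro T hT hcl
    by_cases hT1 : T = ⊥
    · exact Or.inl hT1
    right
    rw [hS₁def, ← hQ]
    apply eq_W_of_closed T hp (by omega) Q hrlt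
    · rw [hQ]
      exact hT
    · intro x hx g hg hm
      rw [hQ] at hm
      exact hcl x hx g ((hrange g).2 hg) hm
    · exact hT1
  · rintro R (rfl | rfl)
    · exact W_mono bot_le
    · exact RR_le Z _
  · rintro R (rfl | rfl) x _ hx
    · exact mem_EE_of_centralizer hrle hx
    · exact mem_RR_of_centralizer hrle hx
  · intro x hxA hxN
    exact normalizer_le_DH hp hrle (by omega) (by omega) _ Z hZstable he' hrange hxA hxN

end Cfsg.Agent.Lib.Fusion.AltOdd
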