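/-
Strongly closed subgroups of a Sylow 2-subgroup of an alternating group, and simplicity of the 2-fusion
system of `A_n`, `n ≥ 6`.
-/
import Mathlib
import Cfsg.Agent.Lib.Perm.SylowSym
import Cfsg.Agent.Lib.Perm.SylowTwoSym
import Cfsg.Agent.Lib.Fusion.AltCrit

set_option autoImplicit false

universe u

namespace Cfsg.Agent.Lib.Fusion.AltTwo

open Equiv Equiv.Perm Cfsg.Agent.Lib.Perm.SylowSym

section Gen

variable {Ω : Type u} [Finite Ω] [DecidableEq Ω]

/-- The lift is multiplicative. -/
theorem liftPerm_mul (R : Sylow 2 (Perm Ω)) (s s' : Perm (swapSet (R : Subgroup (Perm Ω)))) :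
    liftPerm R (s * s') = liftPerm R s * liftPerm R s' := by
  ext x
  obtain ⟨y, rfl⟩ := (coordEquiv R).surjective x
  rcases y with ⟨t, b⟩ | z
  · simp [liftPerm, Equiv.permCongr_apply]
  · simp [liftPerm, Equiv.permCongr_apply]

theorem liftPerm_one (R : Sylow 2 (Perm Ω)) :
    liftPerm R (1 : Perm (swapSet (R : Subgroup (Perm Ω)))) = 1 := by
  ext x
  obtain ⟨y, rfl⟩ := (coordEquiv R).surjective x
  rcases y with ⟨t, b⟩ | z
  · simp [liftPerm, Equiv.permCongr_apply]
  · simp [liftPerm, Equiv.permCongr_apply]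

theorem liftPerm_inv (R : Sylow 2 (Perm Ω)) (s : Perm (swapSet (R : Subgroup (Perm Ω)))) :
    liftPerm R s⁻¹ = (liftPerm R s)⁻¹ := by
  apply eq_inv_of_mul_eq_one_left
  rw [← liftPerm_mul, inv_mul_cancel, liftPerm_one]

/-- Lifts of members of the image Sylow subgroup lie in `R`. -/
theorem liftPerm_mem (R : Sylow 2 (Perm Ω)) {s : Perm (swapSet (R : Subgroup (Perm Ω)))}
    (hs : s ∈ (imageSylow R : Subgroup (Perm (swapSet (R : Subgroup (Perm Ω)))))) :
    liftPerm R s ∈ (R : Subgroup (Perm Ω)) := by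
  have hker : IsPGroup 2 (Cfsg.Agent.Lib.Perm.SylowSym.conjHom (R : Subgroup (Perm Ω))).ker := by
    intro g
    refine ⟨1, ?_⟩
    apply Subtype.ext
    apply Subtype.ext
    have h1 : ∀ t ∈ swapSet (R : Subgroup (Perm Ω)), (g : Perm Ω) * t * (g : Perm Ω)⁻¹ = t := by
      intro t ht
      have h2 : Cfsg.Agent.Lib.Perm.SylowSym.conjHom _ (g : Subgroup.normalizer (swapSet (R : Subgroup (Perm Ω)))) ⟨t, ht⟩ = ⟨t, ht⟩ := by
        rw [MonoidHom.mem_ker.mp g.2]
        rfl
      have h4 := congrArg Subtype.val h2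
      exact h4
    have h3 := mul_self_eq_one_of_ker R _ h1
    simpa [pow_two] using h3
  have hP := ((imageSylow R).isPGroup'.comap_of_ker_isPGroup (Cfsg.Agent.Lib.Perm.SylowSym.conjHom (R : Subgroup (Perm Ω))) hker).map
    (Subgroup.normalizer (swapSet (R : Subgroup (Perm Ω)))).subtype
  have hRle : (R : Subgroup (Perm Ω)) ≤ ((imageSylow R : Subgroup (Perm (swapSet (R : Subgroup (Perm Ω))))).comap
      (Cfsg.Agent.Lib.Perm.SylowSym.conjHom (R : Subgroup (Perm Ω)))).map
      (Subgroup.normalizer (swapSet (R : Subgroup (Perm Ω)))).subtype := by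
    intro r hr
    refine ⟨⟨r, le_normalizer_swapSet _ hr⟩, ?_, rfl⟩
    exact ⟨⟨r, hr⟩, rfl⟩
  have hmax := R.is_maximal' hP hRle
  have hlift : liftPerm R s ∈ Subgroup.normalizer (swapSet (R : Subgroup (Perm Ω))) := by
    rw [Subgroup.mem_set_normalizer_iff]
    intro t
    constructor
    · intro ht
      have := liftPerm_conj R s ⟨t, ht⟩
      simp only at this
      rw [this]
      exact (s ⟨t, ht⟩).2
    · intro ht
      have h1 := liftPerm_conj R s (s⁻¹ ⟨_, ht⟩)
      have e : s (s⁻¹ ⟨_, ht⟩) = ⟨_, ht⟩ := by simp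
      rw [e] at h1
      have h2 : t = ((s⁻¹ ⟨_, ht⟩ : swapSet (R : Subgroup (Perm Ω))) : Perm Ω) := by
        exact mul_left_cancel (a := liftPerm R s) (mul_right_cancel (b := (liftPerm R s)⁻¹) h1.symm)
      rw [h2]
      exact (s⁻¹ ⟨_, ht⟩).2
  have hϕ : Cfsg.Agent.Lib.Perm.SylowSym.conjHom (R : Subgroup (Perm Ω)) ⟨liftPerm R s, hlift⟩ = s := by
    ext1 t
    apply Subtype.ext
    exact liftPerm_conj R s t
  rw [← hmax]
  refine ⟨⟨liftPerm R s, hlift⟩, ?_, rfl⟩
  show Cfsg.Agent.Lib.Perm.SylowSym.conjHom (R : Subgroup (Perm Ω)) ⟨liftPerm R s, hlift⟩ ∈ (imageSylow R : Subgroup _)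
  rw [hϕ]
  exact hs

/-- The sign of a lift is trivial. -/
theorem sign_liftPerm [Fintype Ω] (R : Sylow 2 (Perm Ω)) (s : Perm (swapSet (R : Subgroup (Perm Ω)))) :
    sign (liftPerm R s) = 1 := by
  classical
  have h1 : sign (liftPerm R s) = sign (Equiv.sumCongr (Equiv.prodCongr s (Equiv.refl Bool))
      (Equiv.refl {ω : Ω // ∀ r ∈ (R : Subgroup (Perm Ω)), r ω = ω})) := by
    unfold liftPerm
    exact sign_permCongr _ _
  rw [h1]
  have h2 : (Equiv.sumCongr (Equiv.prodCongr s (Equiv.refl Bool))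
      (Equiv.refl {ω : Ω // ∀ r ∈ (R : Subgroup (Perm Ω)), r ω = ω})) =
      Perm.sumCongr (Equiv.prodCongrLeft (fun _ : Bool => s))
        (1 : Perm {ω : Ω // ∀ r ∈ (R : Subgroup (Perm Ω)), r ω = ω}) := by
    ext x
    rcases x with ⟨t, b⟩ | z <;> rfl
  rw [h2, sign_sumCongr, Perm.sign_one, mul_one, sign_prodCongrLeft]
  simp only [Fintype.prod_bool]
  exact Int.units_mul_self _

/-- Decomposition of an element of `R` as a lift times an involution of `R`. -/
theorem decomp_inv (R : Sylow 2 (Perm Ω)) (r : Perm Ω) (hr : r ∈ (R : Subgroup (Perm Ω))) :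
    ∃ s ∈ (imageSylow R : Subgroup (Perm (swapSet (R : Subgroup (Perm Ω))))),
      (liftPerm R s)⁻¹ * r ∈ (R : Subgroup (Perm Ω)) ∧
      ((liftPerm R s)⁻¹ * r) * ((liftPerm R s)⁻¹ * r) = 1 := by
  set s := imageHom (R : Subgroup (Perm Ω)) ⟨r, hr⟩ with hs
  have hsm : s ∈ (imageSylow R : Subgroup (Perm (swapSet (R : Subgroup (Perm Ω))))) := ⟨⟨r, hr⟩, rfl⟩
  refine ⟨s, hsm, mul_mem (inv_mem (liftPerm_mem R hsm)) hr, ?_⟩
  apply mul_self_eq_one_of_ker R
  intro t ht
  have h1 := liftPerm_conj R s ⟨t, ht⟩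
  have h2 : ((s ⟨t, ht⟩ : swapSet (R : Subgroup (Perm Ω))) : Perm Ω) = r * t * r⁻¹ := rfl
  rw [h2] at h1
  simp only at h1
  have h3 : r = liftPerm R s * ((liftPerm R s)⁻¹ * r) := by group
  set b := (liftPerm R s)⁻¹ * r with hb
  have h4 : liftPerm R s * (b * t * b⁻¹) * (liftPerm R s)⁻¹ = liftPerm R s * t * (liftPerm R s)⁻¹ := by
    rw [h1]
    calc liftPerm R s * (b * t * b⁻¹) * (liftPerm R s)⁻¹
        = (liftPerm R s * b) * t * (liftPerm R s * b)⁻¹ := by group
      _ = r * t * r⁻¹ := by rw [← h3]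
  exact mul_left_cancel (mul_right_cancel h4)

/-- A Sylow 2-subgroup of a symmetric group is generated by its involutions. -/
theorem gen_aux (n : ℕ) : ∀ (Ω : Type u) [Finite Ω] [DecidableEq Ω], Nat.card Ω = n →
    ∀ (R : Sylow 2 (Perm Ω)) (r : Perm Ω), r ∈ (R : Subgroup (Perm Ω)) →
      r ∈ Subgroup.closure {x : Perm Ω | x ∈ (R : Subgroup (Perm Ω)) ∧ x * x = 1} := by
  induction n using Nat.strong_induction_on with
  | _ n ih =>
    intro Ω _ _ hn R r hr
    classical
    by_cases hΩ : Nonempty Ω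
    swap
    · rw [not_nonempty_iff] at hΩ
      have : r = 1 := by
        ext a
        exact isEmptyElim a
      rw [this]
      exact one_mem _
    have hlt := card_swapSet_lt R
    obtain ⟨s, hs, hb, hbb⟩ := decomp_inv R r hr
    have h1 := ih _ (hn ▸ hlt) (swapSet (R : Subgroup (Perm Ω))) rfl (imageSylow R) s hs
    have h2 : liftPerm R s ∈ Subgroup.closure {x : Perm Ω | x ∈ (R : Subgroup (Perm Ω)) ∧ x * x = 1} := by
      clear hs hb hbb
      induction h1 using Subgroup.closure_induction with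
      | mem x hx =>
        apply Subgroup.subset_closure
        refine ⟨liftPerm_mem R hx.1, ?_⟩
        rw [← liftPerm_mul, hx.2, liftPerm_one]
      | one => rw [liftPerm_one]; exact one_mem _
      | mul x y _ _ hx hy => rw [liftPerm_mul]; exact mul_mem hx hy
      | inv x _ hx => rw [liftPerm_inv]; exact inv_mem hx
    have h3 : r = liftPerm R s * ((liftPerm R s)⁻¹ * r) := by group
    rw [h3]
    exact mul_mem h2 (Subgroup.subset_closure ⟨hb, hbb⟩)

/-- Even elements of `R` are products of even involutions of `R`. -/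
theorem even_gen [Fintype Ω] (R : Sylow 2 (Perm Ω)) (r : Perm Ω) (hr : r ∈ (R : Subgroup (Perm Ω)))
    (hsr : sign r = 1) :
    r ∈ Subgroup.closure {x : Perm Ω | x ∈ (R : Subgroup (Perm Ω)) ∧ x * x = 1 ∧ sign x = 1} := by
  classical
  obtain ⟨s, hs, hb, hbb⟩ := decomp_inv R r hr
  have h1 := gen_aux _ (swapSet (R : Subgroup (Perm Ω))) rfl (imageSylow R) s hs
  have h2 : liftPerm R s ∈ Subgroup.closure {x : Perm Ω | x ∈ (R : Subgroup (Perm Ω)) ∧ x * x = 1 ∧ sign x = 1} := by
    clear hs hb hbb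
    induction h1 using Subgroup.closure_induction with
    | mem x hx =>
      apply Subgroup.subset_closure
      refine ⟨liftPerm_mem R hx.1, ?_, sign_liftPerm R x⟩
      rw [← liftPerm_mul, hx.2, liftPerm_one]
    | one => rw [liftPerm_one]; exact one_mem _
    | mul x y _ _ hx hy => rw [liftPerm_mul]; exact mul_mem hx hy
    | inv x _ hx => rw [liftPerm_inv]; exact inv_mem hx
  have h3 : r = liftPerm R s * ((liftPerm R s)⁻¹ * r) := by group
  rw [h3]
  refine mul_mem h2 (Subgroup.subset_closure ⟨hb, hbb, ?_⟩)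
  rw [map_mul, map_inv, sign_liftPerm, hsr]
  simp

end Gen

section Main

variable {Ω : Type u} [Fintype Ω] [DecidableEq Ω]

/-- Conjugate involutions are conjugate by an even permutation. -/
theorem exists_even_conj {x y : Perm Ω} (hx : x * x = 1) (hx1 : x ≠ 1) {g : Perm Ω}
    (hg : g * x * g⁻¹ = y) : ∃ g' : Perm Ω, sign g' = 1 ∧ g' * x * g'⁻¹ = y := by
  rcases Int.units_eq_one_or (sign g) with hs | hs
  · exact ⟨g, hs, hg⟩
  · obtain ⟨a, ha⟩ : ∃ a, x a ≠ a := by
      by_contra h
      push Not at h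
      exact hx1 (Equiv.ext h)
    have hxx : x (x a) = a := by
      have := congrArg (fun f : Perm Ω => f a) hx
      simpa using this
    refine ⟨g * swap a (x a), ?_, ?_⟩
    · rw [map_mul, hs, sign_swap ha.symm]
      rfl
    · have h1 : swap a (x a) * x * (swap a (x a))⁻¹ = x := by
        have h2 : x * swap a (x a) * x⁻¹ = swap (x a) (x (x a)) := (swap_apply_apply x a (x a)).symm
        rw [hxx, swap_comm (x a) a] at h2
        have h3 : x * swap a (x a) = swap a (x a) * x := mul_inv_eq_iff_eq_mul.mp h2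
        rw [swap_inv, ← h3, mul_assoc, swap_mul_self, mul_one]
      rw [← hg]
      calc g * swap a (x a) * x * (g * swap a (x a))⁻¹
          = g * (swap a (x a) * x * (swap a (x a))⁻¹) * g⁻¹ := by group
        _ = g * x * g⁻¹ := by rw [h1]

/-- Involutions with supports of the same size are conjugate. -/
theorem exists_conj_of_card {x y : Perm Ω} (hx : x * x = 1) (hx1 : x ≠ 1) (hy : y * y = 1)
    (hc : x.support.card = y.support.card) : ∃ g : Perm Ω, g * x * g⁻¹ = y := by
  have hy1 : y ≠ 1 := by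
    rintro rfl
    have : x.support.card = 0 := by simpa using hc
    exact hx1 (by simpa using this)
  have ho : ∀ {z : Perm Ω}, z * z = 1 → z ≠ 1 → orderOf z = 2 := fun hz hz1 =>
    orderOf_eq_prime (by rw [pow_two, hz]) hz1
  obtain ⟨n, hn⟩ := cycleType_prime_order (σ := x) (by rw [ho hx hx1]; exact Nat.prime_two)
  obtain ⟨m, hm⟩ := cycleType_prime_order (σ := y) (by rw [ho hy hy1]; exact Nat.prime_two)
  rw [ho hx hx1] at hn
  rw [ho hy hy1] at hm
  have h1 := sum_cycleType x
  have h2 := sum_cycleType y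
  rw [hn] at h1
  rw [hm] at h2
  simp only [Multiset.sum_replicate, smul_eq_mul] at h1 h2
  have hnm : n = m := by omega
  have : IsConj x y := by
    rw [isConj_iff_cycleType_eq, hn, hm, hnm]
  obtain ⟨g, hg⟩ := isConj_iff.1 this
  exact ⟨g, hg⟩

/-- Even involutions have support of size divisible by `4`. -/
theorem four_dvd_card_support {y : Perm Ω} (hy : y * y = 1) (hs : sign y = 1) :
    4 ∣ y.support.card := by
  by_cases hy1 : y = 1
  · rw [hy1]; simp
  have ho : orderOf y = 2 := orderOf_eq_prime (by rw [pow_two, hy]) hy1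
  obtain ⟨n, hn⟩ := cycleType_prime_order (σ := y) (by rw [ho]; exact Nat.prime_two)
  rw [ho] at hn
  have h1 := sum_cycleType y
  rw [hn] at h1
  simp only [Multiset.sum_replicate, smul_eq_mul] at h1
  have h2 := sign_of_cycleType' y
  rw [hn, hs] at h2
  simp only [Multiset.map_replicate, Multiset.prod_replicate] at h2
  have h3 : (-(-1 : ℤˣ) ^ 2) = -1 := by decide
  rw [h3] at h2
  have h4 : Even (n + 1) := by
    rcases Nat.even_or_odd (n + 1) with h | h
    · exact h
    · rw [h.neg_one_pow] at h2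
      exact absurd h2 (by decide)
  obtain ⟨k, hk⟩ := h4
  exact ⟨k, by omega⟩

variable (R : Sylow 2 (Perm Ω)) (T : Subgroup (Perm Ω))

/-- Strong closure within the even permutations, for involutions. -/
theorem mem_of_card
    (hcl : ∀ x ∈ T, ∀ g : Perm Ω, sign g = 1 → g * x * g⁻¹ ∈ (R : Subgroup (Perm Ω)) → g * x * g⁻¹ ∈ T)
    {x y : Perm Ω} (hx : x ∈ T) (hxx : x * x = 1) (hx1 : x ≠ 1) (hy : y ∈ (R : Subgroup (Perm Ω)))
    (hyy : y * y = 1) (hc : x.support.card = y.support.card) : y ∈ T := by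
  obtain ⟨g, hg⟩ := exists_conj_of_card hxx hx1 hyy hc
  obtain ⟨g', hs, hg'⟩ := exists_even_conj hxx hx1 hg
  rw [← hg']
  exact hcl x hx g' hs (by rwa [hg'])

/-- The key commutator identity. -/
theorem keyL (hTR : T ≤ (R : Subgroup (Perm Ω)))
    (hcl : ∀ x ∈ T, ∀ g : Perm Ω, sign g = 1 → g * x * g⁻¹ ∈ (R : Subgroup (Perm Ω)) → g * x * g⁻¹ ∈ T)
    {t : Perm Ω} (ht : t ∈ T) (htt : t * t = 1) (ht1 : t ≠ 1) (a a' : Ω)
    (he : swap a a' * swap (t a) (t a') ∈ (R : Subgroup (Perm Ω))) :
    swap a a' * swap (t a) (t a') ∈ T := by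
  have h1 : t * swap a a' * t⁻¹ = swap (t a) (t a') := (swap_apply_apply t a a').symm
  have h2 : t * (swap a a' * swap (t a) (t a')) =
      swap (t a) (t a') * t * (swap (t a) (t a'))⁻¹ := by
    rw [swap_inv]
    calc t * (swap a a' * swap (t a) (t a'))
        = (t * swap a a' * t⁻¹) * t * swap (t a) (t a') := by group
      _ = swap (t a) (t a') * t * swap (t a) (t a') := by rw [h1]
  obtain ⟨g, hs, hg⟩ := exists_even_conj htt ht1 (g := swap (t a) (t a')) rfl
  have h3 : t * (swap a a' * swap (t a) (t a')) ∈ T := by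
    rw [h2, ← hg]
    apply hcl t ht g hs
    rw [hg, ← h2]
    exact mul_mem (hTR ht) he
  have h4 : swap a a' * swap (t a) (t a') = t⁻¹ * (t * (swap a a' * swap (t a) (t a'))) := by group
  rw [h4]
  exact mul_mem (inv_mem ht) h3

omit [Fintype Ω] [DecidableEq Ω] in
/-- A non-trivial subgroup of a 2-group contains an involution. -/
theorem exists_invol_aux (k : ℕ) : ∀ x ∈ T, x ≠ 1 → x ^ (2 ^ k) = 1 → ∃ t ∈ T, t * t = 1 ∧ t ≠ 1 := by
  induction k with
  | zero =>
    intro x _ hx1 h
    exact absurd (by simpa using h) hx1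
  | succ k ih =>
    intro x hx hx1 h
    by_cases h2 : x ^ (2 ^ k) = 1
    · exact ih x hx hx1 h2
    · refine ⟨x ^ (2 ^ k), pow_mem hx _, ?_, h2⟩
      rw [← pow_add, ← h, pow_succ]
      congr 1
      omega

theorem exists_invol (hTR : T ≤ (R : Subgroup (Perm Ω))) (hne : T ≠ ⊥) : ∃ t ∈ T, t * t = 1 ∧ t ≠ 1 := by
  obtain ⟨x, hx, hx1⟩ := (Subgroup.bot_or_exists_ne_one T).resolve_left hne
  obtain ⟨k, hk⟩ := R.isPGroup' ⟨x, hTR hx⟩
  have hk' : x ^ (2 ^ k) = 1 := by simpa using congrArg Subtype.val hk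
  exact exists_invol_aux T k x hx hx1 hk'

/-- Disjoint double transpositions. -/
theorem disjoint_double {a a' b b' : Ω} (h3 : a ≠ b) (h4 : a ≠ b') (h5 : a' ≠ b) (h6 : a' ≠ b') :
    Disjoint (swap a a') (swap b b') := by
  intro x
  by_cases h1 : x = a
  · right
    subst h1
    exact swap_apply_of_ne_of_ne h3 h4
  by_cases h2 : x = a'
  · right
    subst h2
    exact swap_apply_of_ne_of_ne h5 h6
  · left
    exact swap_apply_of_ne_of_ne h1 h2

theorem card_support_double {a a' b b' : Ω} (h1 : a ≠ a') (h2 : b ≠ b') (h3 : a ≠ b) (h4 : a ≠ b')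
    (h5 : a' ≠ b) (h6 : a' ≠ b') : (swap a a' * swap b b').support.card = 4 := by
  rw [(disjoint_double h3 h4 h5 h6).card_support_mul, card_support_swap h1, card_support_swap h2]

theorem double_mul_self {a a' b b' : Ω} (h3 : a ≠ b) (h4 : a ≠ b') (h5 : a' ≠ b) (h6 : a' ≠ b') :
    (swap a a' * swap b b') * (swap a a' * swap b b') = 1 := by
  have h := (disjoint_double h3 h4 h5 h6).commute
  calc (swap a a' * swap b b') * (swap a a' * swap b b')
      = swap a a' * (swap b b' * swap a a') * swap b b' := by group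
    _ = swap a a' * (swap a a' * swap b b') * swap b b' := by rw [h.eq]
    _ = (swap a a' * swap a a') * (swap b b' * swap b b') := by group
    _ = 1 := by rw [swap_mul_self, swap_mul_self, one_mul]

/-- The lift of a transposition is a double transposition. -/
theorem liftPerm_swap (t₁ t₂ : swapSet (R : Subgroup (Perm Ω))) [DecidableEq (swapSet (R : Subgroup (Perm Ω)))] :
    liftPerm R (swap t₁ t₂) = swap (fstPt t₁) (fstPt t₂) * swap (sndPt t₁) (sndPt t₂) := by
  classical
  have ha : ∀ t : swapSet (R : Subgroup (Perm Ω)), fstPt t = coordEquiv R (Sum.inl (t, false)) := fun _ => rfl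
  have hb : ∀ t : swapSet (R : Subgroup (Perm Ω)), sndPt t = coordEquiv R (Sum.inl (t, true)) := fun _ => rfl
  ext x
  obtain ⟨y, rfl⟩ := (coordEquiv R).surjective x
  rw [ha, ha, hb, hb, Perm.mul_apply, (coordEquiv R).injective.swap_apply,
    (coordEquiv R).injective.swap_apply]
  have h : liftPerm R (swap t₁ t₂) (coordEquiv R y) = coordEquiv R
      (Equiv.sumCongr (Equiv.prodCongr (swap t₁ t₂) (Equiv.refl Bool)) (Equiv.refl _) y) := by
    simp [liftPerm, Equiv.permCongr_apply]
  rw [h]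
  congr 1
  rcases y with ⟨t, b⟩ | z
  · by_cases h1 : t = t₁
    · subst h1
      cases b <;> simp [swap_apply_def]
    · by_cases h2 : t = t₂
      · subst h2
        cases b <;> simp [swap_apply_def]
      · cases b <;> simp [swap_apply_def, h1, h2]
  · simp [swap_apply_def]

/-- A point moved by `R`, and its partner. -/
theorem partner_fixed {x : Perm Ω} (hxx : x * x = 1)
    (hed : ∀ ω, x ω ≠ ω → swap ω (x ω) ∈ (R : Subgroup (Perm Ω))) {c c' : Ω} (hc : x c = c) (hcc : c' ≠ c)
    (hm : swap c c' ∈ (R : Subgroup (Perm Ω))) : x c' = c' := by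
  by_contra h
  have h1 := hed c' h
  have h2 := swap_overlap R (a := c') (b := c) (c := x c') hcc.symm h (by rwa [swap_comm]) h1
  have h3 : x (x c') = c' := by
    have := congrArg (fun f : Perm Ω => f c') hxx
    simpa using this
  rw [← h2, hc] at h3
  exact hcc h3.symm

/-- Step of the chain of even involutions that are products of edges. -/
theorem chain_step (hdouble : ∀ a a' b b' : Ω, a ≠ a' → b ≠ b' → a ≠ b → a ≠ b' → a' ≠ b → a' ≠ b' →
      swap a a' ∈ (R : Subgroup (Perm Ω)) → swap b b' ∈ (R : Subgroup (Perm Ω)) → swap a a' * swap b b' ∈ T)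
    (j : ℕ) (hj : 4 * j ≤ Fintype.card Ω) :
    ∃ x ∈ T, x * x = 1 ∧ x.support.card = 4 * j ∧ ∀ ω, x ω ≠ ω → swap ω (x ω) ∈ (R : Subgroup (Perm Ω)) := by
  induction j with
  | zero =>
    exact ⟨1, one_mem _, one_mul _, by simp, by simp⟩
  | succ j ih =>
    obtain ⟨x, hx, hxx, hxc, hxe⟩ := ih (by omega)
    obtain ⟨c, hcS, hcm⟩ := exists_moved_notMem R x.support (by omega)
    obtain ⟨c', hc', hcmem⟩ := exists_swap_mem R c hcm
    have hxc0 : x c = c := by simpa using hcS
    have hxc1 : x c' = c' := partner_fixed R hxx hxe hxc0 hc' hcmem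
    obtain ⟨d, hdS, hdm⟩ := exists_moved_notMem R (x.support ∪ {c, c'}) (by
      have h1 := Finset.card_union_le x.support {c, c'}
      have h2 : ({c, c'} : Finset Ω).card ≤ 2 := Finset.card_le_two
      omega)
    simp only [Finset.mem_union, Finset.mem_insert, Finset.mem_singleton, not_or, mem_support,
      not_not] at hdS
    obtain ⟨hxd0, hdc, hdc'⟩ := hdS
    obtain ⟨d', hd', hdmem⟩ := exists_swap_mem R d hdm
    have hxd1 : x d' = d' := partner_fixed R hxx hxe hxd0 hd' hdmem
    have hd'c : d' ≠ c := by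
      rintro rfl
      exact hdc' (swap_overlap R (a := d') (b := d) (c := c') hdc hc' (by rwa [swap_comm]) hcmem)
    have hd'c' : d' ≠ c' := by
      rintro rfl
      exact hdc (swap_overlap R (a := d') (b := d) (c := c) hdc' hc'.symm (by rwa [swap_comm]) (by rwa [swap_comm]))
    set δ := swap c c' * swap d d' with hδ
    have hδT : δ ∈ T := hdouble c c' d d' hc'.symm hd'.symm (Ne.symm hdc) (Ne.symm hd'c) (Ne.symm hdc') (Ne.symm hd'c') hcmem hdmem
    have hδδ : δ * δ = 1 := double_mul_self (Ne.symm hdc) (Ne.symm hd'c) (Ne.symm hdc') (Ne.symm hd'c')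
    have hδc : δ.support.card = 4 := card_support_double hc'.symm hd'.symm (Ne.symm hdc) (Ne.symm hd'c) (Ne.symm hdc') (Ne.symm hd'c')
    have hδfix : ∀ ω, ω ≠ c → ω ≠ c' → ω ≠ d → ω ≠ d' → δ ω = ω := by
      intro ω h1 h2 h3 h4
      rw [hδ, Perm.mul_apply, swap_apply_of_ne_of_ne h3 h4, swap_apply_of_ne_of_ne h1 h2]
    have hdis : Disjoint x δ := by
      intro ω
      by_cases h1 : ω = c
      · left; rw [h1]; exact hxc0
      by_cases h2 : ω = c'
      · left; rw [h2]; exact hxc1
      by_cases h3 : ω = d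
      · left; rw [h3]; exact hxd0
      by_cases h4 : ω = d'
      · left; rw [h4]; exact hxd1
      · right; exact hδfix ω h1 h2 h3 h4
    have hδ1 : δ c = c' := by
      rw [hδ, Perm.mul_apply, swap_apply_of_ne_of_ne (Ne.symm hdc) (Ne.symm hd'c), swap_apply_left]
    have hδ2 : δ c' = c := by
      rw [hδ, Perm.mul_apply, swap_apply_of_ne_of_ne (Ne.symm hdc') (Ne.symm hd'c'), swap_apply_right]
    have hδ3 : δ d = d' := by
      rw [hδ, Perm.mul_apply, swap_apply_left, swap_apply_of_ne_of_ne hd'c hd'c']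
    have hδ4 : δ d' = d := by
      rw [hδ, Perm.mul_apply, swap_apply_right, swap_apply_of_ne_of_ne hdc hdc']
    refine ⟨x * δ, mul_mem hx hδT, ?_, ?_, ?_⟩
    · calc x * δ * (x * δ) = x * (δ * x) * δ := by group
        _ = x * (x * δ) * δ := by rw [hdis.commute.eq]
        _ = (x * x) * (δ * δ) := by group
        _ = 1 := by rw [hxx, hδδ, one_mul]
    · rw [hdis.card_support_mul, hxc, hδc]
      ring
    · intro ω hω
      by_cases h1 : ω = c
      · rw [h1, Perm.mul_apply, hδ1, hxc1]
        exact hcmem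
      by_cases h2 : ω = c'
      · rw [h2, Perm.mul_apply, hδ2, hxc0, swap_comm]
        exact hcmem
      by_cases h3 : ω = d
      · rw [h3, Perm.mul_apply, hδ3, hxd1]
        exact hdmem
      by_cases h4 : ω = d'
      · rw [h4, Perm.mul_apply, hδ4, hxd0, swap_comm]
        exact hdmem
      · rw [Perm.mul_apply, hδfix ω h1 h2 h3 h4] at hω ⊢
        exact hxe ω hω


/-- From a nontrivial strongly closed subgroup to an even involution with support of size `4`. -/
theorem exists_support_four (hTR : T ≤ (R : Subgroup (Perm Ω)))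
    (hcl : ∀ x ∈ T, ∀ g : Perm Ω, sign g = 1 → g * x * g⁻¹ ∈ (R : Subgroup (Perm Ω)) → g * x * g⁻¹ ∈ T)
    (hne : T ≠ ⊥) (hcard : 6 ≤ Fintype.card Ω) :
    ∃ w ∈ T, w * w = 1 ∧ w.support.card = 4 := by
  classical
  obtain ⟨t, ht, htt, ht1⟩ := exists_invol R T hTR hne
  have htR : t ∈ (R : Subgroup (Perm Ω)) := hTR ht
  have hinv : ∀ a, t (t a) = a := fun a => by
    have := congrArg (fun f : Perm Ω => f a) htt
    simpa using this
  have htinv : t⁻¹ = t := inv_eq_of_mul_eq_one_left htt
  by_cases hA : ∃ a, t a ≠ a ∧ swap a (t a) ∉ (R : Subgroup (Perm Ω))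
  · obtain ⟨a, ha, haR⟩ := hA
    obtain ⟨a', ha', hmem⟩ := exists_swap_mem R a ⟨t, htR, ha⟩
    have hcon : swap (t a) (t a') ∈ (R : Subgroup (Perm Ω)) := by
      rw [swap_apply_apply]
      exact mul_mem (mul_mem htR hmem) (inv_mem htR)
    have h1 : a' ≠ t a := by
      rintro rfl
      exact haR hmem
    have h2 : t a' ≠ a' := by
      intro h
      rw [h] at hcon
      have := swap_overlap R (a := a') (b := t a) (c := a) (Ne.symm h1) (Ne.symm ha') (by rwa [swap_comm])
        (by rwa [swap_comm])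
      exact ha this
    have h3 : a ≠ t a' := by
      intro h
      apply h1
      rw [h, hinv]
    have hd := keyL R T hTR hcl ht htt ht1 a a' (mul_mem hmem hcon)
    exact ⟨_, hd, double_mul_self (Ne.symm ha) h3 h1 (Ne.symm h2),
      card_support_double (Ne.symm ha') (fun h => ha' (t.injective h).symm) (Ne.symm ha) h3 h1 (Ne.symm h2)⟩
  push Not at hA
  obtain ⟨a, ha⟩ : ∃ a, t a ≠ a := by
    by_contra h
    push Not at h
    exact ht1 (Equiv.ext h)
  by_cases hB : ∃ c, t c = c ∧ ∃ r ∈ (R : Subgroup (Perm Ω)), r c ≠ c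
  · obtain ⟨c, hc, hcm⟩ := hB
    obtain ⟨c', hc', hcmem⟩ := exists_swap_mem R c hcm
    have hc1 : t c' = c' := partner_fixed R htt hA hc hc' hcmem
    have hab := hA a ha
    set b := t a with hb
    have htb : t b = a := hinv a
    have hac : a ≠ c := fun h => ha (by rw [hb, h]; exact hc)
    have hac' : a ≠ c' := fun h => ha (by rw [hb, h]; exact hc1)
    have hbc : b ≠ c := by
      intro h
      have := htb
      rw [h, hc] at this
      exact hac this.symm
    have hbc' : b ≠ c' := by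
      intro h
      have := htb
      rw [h, hc1] at this
      exact hac' this.symm
    have hδ : swap a b * swap c c' ∈ (R : Subgroup (Perm Ω)) := mul_mem hab hcmem
    have hab' : a ≠ b := Ne.symm ha
    have hmain : swap a c * swap b c' * t * (swap a c * swap b c')⁻¹ = t * (swap a b * swap c c') := by
      set u := t * swap a b with hu
      have hu0 : t = u * swap a b := by rw [hu, mul_assoc, swap_mul_self, mul_one]
      have hu1 : u a = a := by rw [hu, Perm.mul_apply, swap_apply_left, htb]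
      have hu2 : u b = b := by rw [hu, Perm.mul_apply, swap_apply_right]
      have hu3 : u c = c := by
        rw [hu, Perm.mul_apply, swap_apply_of_ne_of_ne (Ne.symm hac) (Ne.symm hbc), hc]
      have hu4 : u c' = c' := by
        rw [hu, Perm.mul_apply, swap_apply_of_ne_of_ne (Ne.symm hac') (Ne.symm hbc'), hc1]
      have hd1 : Disjoint u (swap a c) := by
        intro x
        by_cases h1 : x = a
        · left; rw [h1]; exact hu1
        by_cases h2 : x = c
        · left; rw [h2]; exact hu3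
        · right; exact swap_apply_of_ne_of_ne h1 h2
      have hd2 : Disjoint u (swap b c') := by
        intro x
        by_cases h1 : x = b
        · left; rw [h1]; exact hu2
        by_cases h2 : x = c'
        · left; rw [h2]; exact hu4
        · right; exact swap_apply_of_ne_of_ne h1 h2
      have hcomm : Commute u (swap a c * swap b c') := hd1.commute.mul_right hd2.commute
      have hg1 : (swap a c * swap b c') a = c := by
        rw [Perm.mul_apply, swap_apply_of_ne_of_ne hab' hac', swap_apply_left]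
      have hg2 : (swap a c * swap b c') b = c' := by
        rw [Perm.mul_apply, swap_apply_left, swap_apply_of_ne_of_ne (Ne.symm hac') hc']
      have h5 : swap a c * swap b c' * swap a b * (swap a c * swap b c')⁻¹ = swap c c' := by
        rw [← swap_apply_apply, hg1, hg2]
      have h6 : t * (swap a b * swap c c') = u * swap c c' := by
        rw [hu, mul_assoc]
      rw [h6, ← h5]
      nth_rewrite 1 [hu0]
      calc swap a c * swap b c' * (u * swap a b) * (swap a c * swap b c')⁻¹
          = (swap a c * swap b c' * u) * swap a b * (swap a c * swap b c')⁻¹ := by group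
        _ = (u * (swap a c * swap b c')) * swap a b * (swap a c * swap b c')⁻¹ := by rw [hcomm.eq]
        _ = u * (swap a c * swap b c' * swap a b * (swap a c * swap b c')⁻¹) := by group
    obtain ⟨g, hs, hg⟩ := exists_even_conj htt ht1 hmain
    have h3 : t * (swap a b * swap c c') ∈ T := by
      rw [← hg]
      apply hcl t ht g hs
      rw [hg]
      exact mul_mem htR hδ
    have h4 : swap a b * swap c c' ∈ T := by
      have h5 : swap a b * swap c c' = t⁻¹ * (t * (swap a b * swap c c')) := by group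
      rw [h5]
      exact mul_mem (inv_mem ht) h3
    exact ⟨_, h4, double_mul_self hac hac' hbc hbc', card_support_double (Ne.symm ha) hc'.symm hac hac' hbc hbc'⟩
  push Not at hB
  -- `t` moves everything moved by `R`
  have hpart : ∀ a b : Ω, a ≠ b → swap a b ∈ (R : Subgroup (Perm Ω)) → t a = b := by
    intro a b hab hm
    have h1 : t a ≠ a := by
      intro h
      have := hB a h _ hm
      rw [swap_apply_left] at this
      exact hab this.symm
    exact (swap_overlap R (a := a) (b := t a) (c := b) h1 hab.symm (hA a h1) hm)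
  -- two edges
  obtain ⟨c, -, hcm⟩ := exists_moved_notMem R ∅ (by simp; omega)
  obtain ⟨c', hc', hcmem⟩ := exists_swap_mem R c hcm
  obtain ⟨d, hdS, hdm⟩ := exists_moved_notMem R {c, c'} (by
    have h2 : ({c, c'} : Finset Ω).card ≤ 2 := Finset.card_le_two
    omega)
  simp only [Finset.mem_insert, Finset.mem_singleton, not_or] at hdS
  obtain ⟨d', hd', hdmem⟩ := exists_swap_mem R d hdm
  let e₁ : swapSet (R : Subgroup (Perm Ω)) := ⟨swap c c', hcmem, c, c', hc'.symm, rfl⟩
  let e₂ : swapSet (R : Subgroup (Perm Ω)) := ⟨swap d d', hdmem, d, d', hd'.symm, rfl⟩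
  have he : e₁ ≠ e₂ := by
    intro h
    have h1 : swap c c' = swap d d' := congrArg Subtype.val h
    have h2 := congrArg (fun f : Perm Ω => f d) h1
    simp only [swap_apply_left] at h2
    rw [swap_apply_of_ne_of_ne hdS.1 hdS.2] at h2
    exact hd' h2.symm
  obtain ⟨t₁, hm⟩ : ∃ t₁, ∃ r ∈ (imageSylow R : Subgroup (Perm (swapSet (R : Subgroup (Perm Ω))))), r t₁ ≠ t₁ := by
    by_contra h
    push Not at h
    exact he (eq_of_fixed_of_fixed (imageSylow R) (h e₁) (h e₂))
  obtain ⟨t₂, h12, hmem⟩ := exists_swap_mem (imageSylow R) t₁ hm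
  have hℓ := liftPerm_mem R hmem
  rw [liftPerm_swap] at hℓ
  have hne1 : fstPt t₁ ≠ sndPt t₁ := fstPt_ne_sndPt t₁
  have hne2 : fstPt t₂ ≠ sndPt t₂ := fstPt_ne_sndPt t₂
  have hmem1 : swap (fstPt t₁) (sndPt t₁) ∈ (R : Subgroup (Perm Ω)) := by
    rw [← eq_swap_pts]
    exact t₁.2.1
  have hmem2 : swap (fstPt t₂) (sndPt t₂) ∈ (R : Subgroup (Perm Ω)) := by
    rw [← eq_swap_pts]
    exact t₂.2.1
  have h1 := hpart _ _ hne1 hmem1
  have h2 := hpart _ _ hne2 hmem2
  have hd := keyL R T hTR hcl ht htt ht1 (fstPt t₁) (fstPt t₂) (by rw [h1, h2]; exact hℓ)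
  rw [h1, h2] at hd
  have hinj : Function.Injective (coordEquiv R) := (coordEquiv R).injective
  have n1 : fstPt t₁ ≠ fstPt t₂ := fun h => h12.symm (by
    have := hinj (show coordEquiv R (Sum.inl (t₁, false)) = coordEquiv R (Sum.inl (t₂, false)) from h)
    simpa using this)
  have n2 : sndPt t₁ ≠ sndPt t₂ := fun h => h12.symm (by
    have := hinj (show coordEquiv R (Sum.inl (t₁, true)) = coordEquiv R (Sum.inl (t₂, true)) from h)
    simpa using this)
  have n3 : fstPt t₁ ≠ sndPt t₂ := fun h => by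
    have := hinj (show coordEquiv R (Sum.inl (t₁, false)) = coordEquiv R (Sum.inl (t₂, true)) from h)
    simp at this
  have n4 : fstPt t₂ ≠ sndPt t₁ := fun h => by
    have := hinj (show coordEquiv R (Sum.inl (t₂, false)) = coordEquiv R (Sum.inl (t₁, true)) from h)
    simp at this
  exact ⟨_, hd, double_mul_self hne1 n3 n4 hne2, card_support_double n1 n2 hne1 n3 n4 hne2⟩

/-- **Main lemma**: a nontrivial subgroup of `R` closed under even conjugation in `R` contains the even part. -/
theorem even_le (hTR : T ≤ (R : Subgroup (Perm Ω)))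
    (hcl : ∀ x ∈ T, ∀ g : Perm Ω, sign g = 1 → g * x * g⁻¹ ∈ (R : Subgroup (Perm Ω)) → g * x * g⁻¹ ∈ T)
    (hne : T ≠ ⊥) (hcard : 6 ≤ Fintype.card Ω) (r : Perm Ω) (hr : r ∈ (R : Subgroup (Perm Ω)))
    (hsr : sign r = 1) : r ∈ T := by
  obtain ⟨w, hw, hww, hwc⟩ := exists_support_four R T hTR hcl hne hcard
  have hw1 : w ≠ 1 := by
    rintro rfl
    simp at hwc
  have hdouble : ∀ a a' b b' : Ω, a ≠ a' → b ≠ b' → a ≠ b → a ≠ b' → a' ≠ b → a' ≠ b' →
      swap a a' ∈ (R : Subgroup (Perm Ω)) → swap b b' ∈ (R : Subgroup (Perm Ω)) → swap a a' * swap b b' ∈ T := by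
    intro a a' b b' h1 h2 h3 h4 h5 h6 hm1 hm2
    exact mem_of_card R T hcl hw hww hw1 (mul_mem hm1 hm2) (double_mul_self h3 h4 h5 h6)
      (by rw [hwc, card_support_double h1 h2 h3 h4 h5 h6])
  have hinvol : ∀ y ∈ (R : Subgroup (Perm Ω)), y * y = 1 → sign y = 1 → y ∈ T := by
    intro y hy hyy hsy
    by_cases hy1 : y = 1
    · rw [hy1]; exact one_mem _
    obtain ⟨j, hj⟩ := four_dvd_card_support hyy hsy
    have hle : y.support.card ≤ Fintype.card Ω := Finset.card_le_univ _
    obtain ⟨x, hx, hxx, hxc, -⟩ := chain_step R T hdouble j (by omega)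
    have hx1 : x ≠ 1 := by
      rintro rfl
      have h0 : j = 0 := by simpa using hxc.symm
      rw [h0] at hj
      exact hy1 (by simpa using hj)
    exact mem_of_card R T hcl hx hxx hx1 hy hyy (by rw [hxc, hj])
  have h1 := even_gen R r hr hsr
  have h2 : Subgroup.closure {x : Perm Ω | x ∈ (R : Subgroup (Perm Ω)) ∧ x * x = 1 ∧ sign x = 1} ≤ T := by
    rw [Subgroup.closure_le]
    rintro y ⟨hy, hyy, hsy⟩
    exact hinvol y hy hyy hsy
  exact h2 h1

end Main

section Final

open Cfsg Cfsg.Agent.Lib.Fusion.AltCrit Cfsg.Agent.Lib.Fusion.SimpleCriterion3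

variable {Ω : Type u} [Fintype Ω] [DecidableEq Ω]

/-- **The 2-fusion system of `A_n`, `n ≥ 6`, is simple.** -/
theorem isSimple_two (hcard : 6 ≤ Fintype.card Ω) (S : Sylow 2 (alternatingGroup Ω)) :
    (groupFusionSystem (S : Subgroup (alternatingGroup Ω))).IsSimple 2 := by
  haveI : Fact (Nat.Prime 2) := ⟨Nat.prime_two⟩
  have hnorm := normalizer_sylow_alternating_le hcard S
  obtain ⟨R, hR⟩ := Cfsg.Agent.Lib.Perm.SylowTwoSym.exists_sylow_of_sylow_alternating S
  have hne : (S : Subgroup (alternatingGroup Ω)) ≠ ⊥ := by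
    apply Sylow.ne_bot_of_dvd_card
    haveI : Nontrivial Ω := Fintype.one_lt_card_iff_nontrivial.1 (by omega)
    have h1 := two_mul_card_alternatingGroup (α := Ω)
    have h2 : 4 ∣ (Fintype.card Ω).factorial := Nat.dvd_factorial (by norm_num) (by omega)
    rw [Nat.card_eq_fintype_card]
    rw [Fintype.card_perm] at h1
    rw [← h1] at h2
    omega
  refine isSimple_of_data' S hne ?_ {(S : Subgroup (alternatingGroup Ω))} ?_ ?_ ?_ S
  · intro T hT hcl
    by_cases hT1 : T = ⊥
    · exact Or.inl hT1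
    right
    apply le_antisymm hT
    -- transfer
    let T' : Subgroup (Perm Ω) := T.map (alternatingGroup Ω).subtype
    have hT'R : T' ≤ (R : Subgroup (Perm Ω)) := by
      rintro _ ⟨x, hx, rfl⟩
      exact (hR x).1 (hT hx)
    have hcl' : ∀ x ∈ T', ∀ g : Perm Ω, sign g = 1 → g * x * g⁻¹ ∈ (R : Subgroup (Perm Ω)) → g * x * g⁻¹ ∈ T' := by
      rintro _ ⟨x, hx, rfl⟩ g hg hm
      have hgA : g ∈ alternatingGroup Ω := Equiv.Perm.mem_alternatingGroup.2 hg
      have h1 : (⟨g, hgA⟩ : alternatingGroup Ω) * x * (⟨g, hgA⟩ : alternatingGroup Ω)⁻¹ ∈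
          (S : Subgroup (alternatingGroup Ω)) := (hR _).2 hm
      exact ⟨_, hcl x hx ⟨g, hgA⟩ h1, rfl⟩
    have hT'ne : T' ≠ ⊥ := by
      intro h
      apply hT1
      have h2 := (Subgroup.map_eq_bot_iff_of_injective T (Subgroup.subtype_injective _)).1 h
      exact h2
    intro g hg
    have h1 := even_le R T' hT'R hcl' hT'ne hcard g ((hR g).1 hg) (Equiv.Perm.mem_alternatingGroup.1 g.2)
    obtain ⟨y, hy, he⟩ := h1
    have : y = g := Subtype.ext he
    rwa [← this]
  · rintro _ rfl
    exact le_rfl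
  · rintro _ rfl
    intro x hx
    apply hnorm
    rw [Subgroup.mem_normalizer_iff]
    intro h
    have hc := Subgroup.mem_centralizer_iff.1 hx
    constructor
    · intro hh
      have h1 := hc h hh
      have h2 : x * h * x⁻¹ = h := by
        rw [← h1]
        group
      rwa [h2]
    · intro hh
      have h1 := hc _ hh
      have h2 : h = x * h * x⁻¹ := by
        have h3 : x * h * x⁻¹ * x = x * h := by group
        rw [h3] at h1
        have h4 : x * (x * h * x⁻¹) = x * h := h1.symm
        exact (mul_left_cancel h4).symm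
      rwa [h2]
  · intro x hx
    have hxS := hnorm hx
    apply Subgroup.subset_closure
    refine ⟨_, rfl, Subgroup.subset_closure ⟨hx, ?_⟩, hx⟩
    obtain ⟨k, hk⟩ := S.isPGroup' ⟨x, hxS⟩
    have hk' : x ^ (2 ^ k) = 1 := by simpa using congrArg Subtype.val hk
    obtain ⟨m, -, hm⟩ := (Nat.dvd_prime_pow Nat.prime_two).1 (orderOf_dvd_of_pow_eq_one hk')
    exact ⟨m, hm⟩

end Final

end Cfsg.Agent.Lib.Fusion.AltTwo
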