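/-
Constrained fusion passes to quotients by central subgroups.
-/
import Mathlib
import Cfsg.Prelude.Def_FusionSystem
import Cfsg.Agent.Lib.Fusion.Basic
import Cfsg.Agent.Lib.Fusion.GroupSylow
import Cfsg.Agent.Lib.Fusion.Model
import Cfsg.Agent.Lib.Fusion.ModelF
import Cfsg.Agent.Lib.Fusion.ModelLocal
import Cfsg.Agent.Lib.Fusion.NormalCR

set_option autoImplicit false

namespace Cfsg.Agent.Lib.Fusion.CentralQuotConstrained

open Cfsg Cfsg.FusionSystem
open Cfsg.Agent.Lib.Fusion.Basic Cfsg.Agent.Lib.Fusion.Model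
open Cfsg.Agent.Lib.Fusion.GroupSylow (isSaturated_groupFusionSystem)

universe u

variable {X : Type u} [Group X] [Finite X] {p : ℕ} [Fact p.Prime]

/-- A `p`-element of `P Z`, `Z` central, lies in `P`. -/
theorem mem_of_map_mem (P : Sylow p X) (Z : Subgroup X) [Z.Normal] (hZ : Z ≤ Subgroup.center X) {y : X}
    (hy : QuotientGroup.mk' Z y ∈ (P : Subgroup X).map (QuotientGroup.mk' Z)) (k : ℕ) (hyp : y ^ p ^ k = 1) :
    y ∈ (P : Subgroup X) := by
  obtain ⟨a, ha, hay⟩ := hy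
  have hz : a⁻¹ * y ∈ Z := by
    have h1 := QuotientGroup.eq.1 hay
    exact h1
  have hzc : a⁻¹ * y ∈ Subgroup.center X := hZ hz
  have hc : ∀ g : X, g * (a⁻¹ * y) = (a⁻¹ * y) * g := fun g => (Subgroup.mem_center_iff.1 hzc g)
  -- `a` and `y` commute
  have hay' : Commute a y := by
    have h1 := hc a
    show a * y = y * a
    have h2 : y = a * (a⁻¹ * y) := by group
    calc a * y = a * (a * (a⁻¹ * y)) := by rw [← h2]
      _ = a * ((a⁻¹ * y) * a) := by rw [h1]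
      _ = y * a := by group
  obtain ⟨m, hm⟩ := (IsPGroup.iff_orderOf.1 P.isPGroup') ⟨a, ha⟩
  have ham : a ^ p ^ m = 1 := by
    have h1 := pow_orderOf_eq_one (⟨a, ha⟩ : (P : Subgroup X))
    rw [hm] at h1
    exact congrArg Subtype.val h1
  have hzp : (a⁻¹ * y) ^ p ^ (m + k) = 1 := by
    have hcom : Commute a⁻¹ y := hay'.inv_left
    rw [hcom.mul_pow, inv_pow, pow_add]
    rw [pow_mul, ham, one_pow, inv_one, one_mul, pow_mul', hyp, one_pow]
  -- the cyclic subgroup generated by `z` is a normal `p`-subgroup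
  let z : X := a⁻¹ * y
  have hzn : (Subgroup.zpowers z).Normal := by
    refine ⟨fun n hn g => ?_⟩
    obtain ⟨i, rfl⟩ := Subgroup.mem_zpowers_iff.1 hn
    have hcz : Commute g (z ^ i) := (show Commute g z from hc g).zpow_right i
    rw [hcz.eq]
    simpa using Subgroup.zpow_mem_zpowers z i
  have hzP : IsPGroup p (Subgroup.zpowers z) := by
    rintro ⟨_, i, rfl⟩
    refine ⟨m + k, Subtype.ext ?_⟩
    show ((fun j : ℤ => z ^ j) i) ^ p ^ (m + k) = 1
    show (z ^ i) ^ p ^ (m + k) = 1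
    rw [← zpow_natCast, ← zpow_mul, mul_comm, zpow_mul, zpow_natCast, hzp, one_zpow]
  have hle : Subgroup.zpowers z ≤ (P : Subgroup X) := hzP.le_sylow_of_normal P
  have h3 := (P : Subgroup X).mul_mem ha (hle (Subgroup.mem_zpowers z))
  have e : a * z = y := by
    show a * (a⁻¹ * y) = y
    group
  rwa [e] at h3

/-- Constrained fusion passes to the quotient by a central subgroup. -/
theorem isConstrained_quot (P : Sylow p X) (hF : (groupFusionSystem (P : Subgroup X)).IsConstrained p) (Z : Subgroup X)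
    [hZn : Z.Normal] (hZ : Z ≤ Subgroup.center X) :
    (groupFusionSystem ((P : Subgroup X).map (QuotientGroup.mk' Z))).IsConstrained p := by
  classical
  obtain ⟨M, _, ι, hfinM, hreal, ⟨T, hT⟩, hC⟩ := Cfsg.Agent.Lib.Fusion.ModelF.exists_model P.isPGroup' hF
  haveI := hfinM
  let Q₁ : Subgroup X := coreIn ι p
  have hQ₁n : (groupFusionSystem (P : Subgroup X)).IsNormal Q₁ := isNormal_coreIn hreal hT
  have hQ₁c : (groupFusionSystem (P : Subgroup X)).IsCentric Q₁ := isCentric_coreIn hreal hT hC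
  have hQ₁P : Q₁ ≤ (P : Subgroup X) := coreIn_le p
  have hON : (pCore p M).Normal := Cfsg.Agent.Lib.Basic.PCore.pCore_normal p M
  have hO := pCore_le_range (ι := ι) hT
  -- `M` centralizes the image of `Z ∩ O_p`
  have hfix : ∀ (g : M) (z : (P : Subgroup X)), (z : X) ∈ Z → ι z ∈ pCore p M → g * ι z * g⁻¹ = ι z := by
    intro g z hzZ hzO
    have hv : ∀ r : Q₁, g * ι ⟨r, hQ₁P r.2⟩ * g⁻¹ ∈ ι.range := by
      intro r
      obtain ⟨_, hr⟩ := mem_coreIn.1 r.2
      exact hO (hON.conj_mem _ hr g)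
    obtain ⟨ψ, hψ, hψe⟩ := exists_hom_of_conj hreal hQ₁P g hv
    have hzQ : (z : X) ∈ Q₁ := mem_coreIn.2 ⟨z.2, hzO⟩
    obtain ⟨hs, hs2⟩ := hψe ⟨z, hzQ⟩
    obtain ⟨-, -, h, hh⟩ := hψ
    have h1 := hh ⟨z, hzQ⟩
    have h2 : h * (z : X) * h⁻¹ = z := by
      rw [Subgroup.mem_center_iff.1 (hZ hzZ) h]
      group
    have h3 : ψ ⟨z, hzQ⟩ = z := h1.trans h2
    have e : (⟨ψ ⟨z, hzQ⟩, hs⟩ : (P : Subgroup X)) = z := Subtype.ext h3
    rw [e] at hs2
    exact hs2.symm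
  -- the key property of `Q₁`
  have hkey : ∀ x : (P : Subgroup X), (∀ q ∈ Q₁, q⁻¹ * (x : X) * q * (x : X)⁻¹ ∈ Z) → (x : X) ∈ Q₁ := by
    intro x hx
    refine mem_coreIn.2 ⟨x.2, ?_⟩
    let D : ℕ → Subgroup (pCore p M) := fun i => match i with
      | 0 => ⊥
      | 1 => ((Z.subgroupOf (P : Subgroup X)).map ι).subgroupOf (pCore p M)
      | _ => ⊤
    refine Cfsg.Agent.Lib.Fusion.ModelLocal.mem_pCore_of_stab hC (D := D) (m := 2) rfl rfl ?_ ?_
    · intro i hi g y hy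
      match i, hi, hy with
      | 0, _, hy =>
        have hy1 : y = 1 := hy
        rw [hy1, map_one]
        exact Subgroup.one_mem _
      | 1, _, hy =>
        obtain ⟨z, hz, hze⟩ := hy
        have hze' : ι z = (y : M) := hze
        have hzO : ι z ∈ pCore p M := by
          rw [hze']
          exact y.2
        have h2 := hfix g z hz hzO
        have e : MulAut.conjNormal (H := pCore p M) g y = y := by
          apply Subtype.ext
          show g * (y : M) * g⁻¹ = y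
          rw [← hze', h2]
        rw [e]
        exact ⟨z, hz, hze⟩
      | 2, _, _ => trivial
    · intro i hi y hy
      match i, hi, hy with
      | 0, _, hy =>
        obtain ⟨z, hz, hze⟩ := hy
        have hze' : ι z = (y : M) := hze
        have hzO : ι z ∈ pCore p M := by
          rw [hze']
          exact y.2
        have h2 := hfix (ι x) z hz hzO
        have e : MulAut.conjNormal (H := pCore p M) (ι x) y = y := by
          apply Subtype.ext
          show ι x * (y : M) * (ι x)⁻¹ = y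
          rw [← hze', h2]
        rw [e]
        simp
      | 1, _, _ =>
        obtain ⟨q, hq⟩ := hO y.2
        have hqQ : (q : X) ∈ Q₁ := mem_coreIn.2 ⟨q.2, by rw [hq]; exact y.2⟩
        refine ⟨q⁻¹ * x * q * x⁻¹, hx _ hqQ, ?_⟩
        show ι (q⁻¹ * x * q * x⁻¹) = (y : M)⁻¹ * (ι x * (y : M) * (ι x)⁻¹)
        rw [← hq]
        simp [mul_assoc]
  -- the quotient
  let π : X →* X ⧸ Z := QuotientGroup.mk' Z
  have hπs : Function.Surjective π := QuotientGroup.mk'_surjective Z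
  have hker : ∀ {y : X}, π y = 1 → y ∈ Z := fun h => (QuotientGroup.eq_one_iff _).1 h
  have hinv : ∀ a b : X, π a = π b → a⁻¹ * b ∈ Z := fun a b h => QuotientGroup.eq.1 h
  have hsat : (groupFusionSystem ((P : Subgroup X).map π)).IsSaturated p := by
    have := isSaturated_groupFusionSystem (P.mapSurjective hπs)
    rwa [Sylow.coe_mapSurjective] at this
  have hQbn : (groupFusionSystem ((P : Subgroup X).map π)).IsNormal (Q₁.map π) := by
    refine ⟨Subgroup.map_mono hQ₁P, fun Pb₀ φb hφb => ?_⟩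
    obtain ⟨hPb₀, hvb, gb, hgb⟩ := hφb
    obtain ⟨g, rfl⟩ := hπs gb
    have hP₀map : (Pb₀.comap π ⊓ (P : Subgroup X)).map π = Pb₀ := by
      ext xb
      constructor
      · rintro ⟨x, hx, rfl⟩
        exact hx.1
      · intro hxb
        obtain ⟨x, hx, rfl⟩ := hPb₀ hxb
        exact ⟨x, ⟨hxb, hx⟩, rfl⟩
    have hval : ∀ x : ↥(Pb₀.comap π ⊓ (P : Subgroup X)), g * (x : X) * g⁻¹ ∈ (P : Subgroup X) := by
      intro x
      obtain ⟨m, hm⟩ := (IsPGroup.iff_orderOf.1 P.isPGroup') ⟨x, x.2.2⟩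
      have hxm : (x : X) ^ p ^ m = 1 := by
        have h1 := pow_orderOf_eq_one (⟨x, x.2.2⟩ : (P : Subgroup X))
        rw [hm] at h1
        exact congrArg Subtype.val h1
      refine mem_of_map_mem P Z hZ ?_ m ?_
      · have h1 := hvb ⟨π x, x.2.1⟩
        rw [hgb] at h1
        simpa [π] using h1
      · rw [conj_pow, hxm]
        group
    let φ : ↥(Pb₀.comap π ⊓ (P : Subgroup X)) →* X := conjHom _ g
    have hφ : φ ∈ (groupFusionSystem (P : Subgroup X)).Hom (Pb₀.comap π ⊓ (P : Subgroup X)) :=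
      ⟨inf_le_right, hval, g, fun x => rfl⟩
    obtain ⟨ψ, hψ, hag, him⟩ := hQ₁n.2 _ φ hφ
    obtain ⟨hψP, hψv, g', hg'⟩ := hψ
    have hsup : Pb₀ ⊔ Q₁.map π = (Pb₀.comap π ⊓ (P : Subgroup X) ⊔ Q₁).map π := by
      rw [Subgroup.map_sup, hP₀map]
    have hψbv : ∀ yb : ↥(Pb₀ ⊔ Q₁.map π), π g' * (yb : X ⧸ Z) * (π g')⁻¹ ∈ (P : Subgroup X).map π := by
      intro yb
      have h1 := hsup.le yb.2
      obtain ⟨y, hy, hye⟩ := h1
      rw [← hye]
      refine ⟨_, hψv ⟨y, hy⟩, ?_⟩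
      rw [hg' ⟨y, hy⟩]
      simp
    refine ⟨conjHom _ (π g'), ⟨?_, hψbv, π g', fun x => rfl⟩, fun xb => ?_, ?_⟩
    · exact sup_le hPb₀ (Subgroup.map_mono hQ₁P)
    · obtain ⟨x, hx, hxe⟩ := hP₀map.ge xb.2
      have h1 := hag ⟨x, hx⟩
      have h2 := hgb xb
      rw [h2]
      show π g' * (xb : X ⧸ Z) * (π g')⁻¹ = π g * (xb : X ⧸ Z) * (π g)⁻¹
      rw [← hxe]
      have h3 : ψ (Subgroup.inclusion le_sup_left ⟨x, hx⟩) = g' * x * g'⁻¹ := hg' _
      have h4 : φ ⟨x, hx⟩ = g * x * g⁻¹ := rfl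
      rw [h3, h4] at h1
      have h5 := congrArg π h1
      simpa using h5
    · ext yb
      constructor
      · rintro ⟨ub, hub, rfl⟩
        obtain ⟨q, hq, hqe⟩ := hub
        have hq' : q ∈ Pb₀.comap π ⊓ (P : Subgroup X) ⊔ Q₁ := (le_sup_right : Q₁ ≤ _) hq
        have h1 : ψ ⟨q, hq'⟩ ∈ Q₁ := him.le ⟨⟨q, hq'⟩, hq, rfl⟩
        refine ⟨_, h1, ?_⟩
        rw [hg' ⟨q, hq'⟩]
        show π (g' * q * g'⁻¹) = π g' * (ub : X ⧸ Z) * (π g')⁻¹
        have hqe' : π q = (ub : X ⧸ Z) := hqe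
        rw [← hqe']
        simp
      · rintro ⟨q, hq, rfl⟩
        obtain ⟨n, hn, hne⟩ := him.ge hq
        have hnQ : (n : X) ∈ Q₁ := hn
        have hmem : π n ∈ Q₁.map π := ⟨n, hnQ, rfl⟩
        have hmem2 : π n ∈ Pb₀ ⊔ Q₁.map π := (le_sup_right : Q₁.map π ≤ _) hmem
        refine ⟨⟨π n, hmem2⟩, hmem, ?_⟩
        show π g' * π n * (π g')⁻¹ = π q
        rw [← hne, hg' n]
        simp
  refine ⟨hsat, Q₁.map π, hQbn, Subgroup.map_mono hQ₁P, fun Rb hRb => ?_⟩
  have hSC := Cfsg.Agent.Lib.Fusion.NormalCR.IsNormal.stronglyClosed hQbn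
  have hRbe : Rb = Q₁.map π := by
    obtain ⟨φ, hφ, rfl⟩ := hRb
    have hle : φ.range ≤ Q₁.map π := by
      rintro _ ⟨x, rfl⟩
      exact hSC.2 _ le_rfl φ hφ x
    exact Subgroup.eq_of_le_of_card_ge hle (card_eq_of_range hφ rfl).le
  subst hRbe
  rintro xb ⟨hxb, hxbc⟩
  obtain ⟨x, hx, rfl⟩ := hxb
  refine ⟨x, hkey ⟨x, hx⟩ (fun q hq => ?_), rfl⟩
  apply hker
  have h1 : π q * π x = π x * π q := (Subgroup.mem_centralizer_iff.1 hxbc) (π q) ⟨q, hq, rfl⟩
  have h2 : π (q⁻¹ * x * q * x⁻¹) = (π q)⁻¹ * (π x * π q) * (π x)⁻¹ := by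
    simp [mul_assoc]
  show π (q⁻¹ * x * q * x⁻¹) = 1
  rw [h2]
  calc (π q)⁻¹ * (π x * π q) * (π x)⁻¹ = (π q)⁻¹ * (π q * π x) * (π x)⁻¹ := by rw [h1]
    _ = 1 := by group

end Cfsg.Agent.Lib.Fusion.CentralQuotConstrained
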