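/-
`O^{p'}` of a weakly normal subsystem, part 1: the relation `LL F T Q w`, saying that some map of `F` on `Q C_S(T)` fixes `Q`
pointwise and acts on `C_S(T)` modulo `T` as the automorphism `w` of `T C_S(T)`.
-/
import Mathlib
import Cfsg.Agent.Lib.Fusion.GoodLift7

set_option autoImplicit false
set_option linter.style.haveILetI false

namespace Cfsg.Agent.Lib.Fusion.PResNormal

open Cfsg Cfsg.FusionSystem Cfsg.Agent.Lib.Fusion.Basic Cfsg.Agent.Lib.Fusion.Saturated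
open Cfsg.Agent.Lib.Fusion.Saturated2 (autOfHom autOfHom_mem)
open Cfsg.Agent.Lib.Fusion.LocalSystems (map_mem_sup_of_ext range_ext_eq)
open Cfsg.Agent.Lib.Fusion.NormalPair
open Cfsg.Agent.Lib.Fusion.NormalCR
open Cfsg.Agent.Lib.Fusion.GoodLift

variable {Ω : Type*} [Group Ω] {S T : Subgroup Ω} {F : FusionSystem S}

/-- The relation: a map of `F` on `Q C_S(T)` fixes `Q` pointwise and acts on `C_S(T)` modulo `T` as `w`. -/
def LL (F : FusionSystem S) (T Q : Subgroup Ω) (w : MulAut ↥(hat S T)) : Prop :=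
  ∃ κ : ↥(Q ⊔ centralizerIn S T) →* Ω, κ ∈ F.Hom (Q ⊔ centralizerIn S T) ∧
    (∀ x : Q, κ (Subgroup.inclusion le_sup_left x) = x) ∧
    ∀ y : centralizerIn S T, ((w (Subgroup.inclusion (cen_le_hat T) y) : ↥(hat S T)) : Ω)⁻¹ *
      κ (Subgroup.inclusion le_sup_right y) ∈ T

section Basic

variable [Finite S]

theorem y_comm {t y : Ω} (ht : t ∈ T) (hy : y ∈ centralizerIn S T) : t * y = y * t :=
  comm_of_mem_cen hy.2 ht

theorem cen_le_of_le {Q : Subgroup Ω} (hQT : Q ≤ T) : centralizerIn S T ≤ centralizerIn S Q :=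
  cen_mono hQT

/-- A map of `F` on `hat S T` preserves `T`. -/
theorem w_mem_T (hT : F.StronglyClosed T) {w : MulAut ↥(hat S T)} (hw : w ∈ F.autGroup (hat S T)) (x : ↥(hat S T))
    (hx : (x : Ω) ∈ T) : ((w x : ↥(hat S T)) : Ω) ∈ T :=
  aut_mem_T hT (hat_le hT.1) hw x hx

/-- A map of `F` on `hat S T` preserves `C_S(T)`. -/
theorem w_mem_Y (hT : F.StronglyClosed T) {w : MulAut ↥(hat S T)} (hw : w ∈ F.autGroup (hat S T)) (y : ↥(hat S T))
    (hy : (y : Ω) ∈ centralizerIn S T) : ((w y : ↥(hat S T)) : Ω) ∈ centralizerIn S T := by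
  have hTS := hT.1
  refine ⟨hat_le hTS (w y).2, Subgroup.mem_centralizer_iff.2 fun t ht => ?_⟩
  -- pull `t` back
  have ht' : (((w⁻¹) (Subgroup.inclusion (le_hat T) ⟨t, ht⟩) : ↥(hat S T)) : Ω) ∈ T :=
    w_mem_T hT ((F.autGroup _).inv_mem hw) _ ht
  set t₀ : ↥(hat S T) := (w⁻¹) (Subgroup.inclusion (le_hat T) ⟨t, ht⟩) with ht₀
  have ht₁ : w t₀ = Subgroup.inclusion (le_hat T) ⟨t, ht⟩ := by simp [ht₀]
  have hc : t₀ * y = y * t₀ := Subtype.ext (comm_of_mem_cen hy.2 ht')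
  have h1 : w t₀ * w y = w y * w t₀ := by rw [← map_mul, ← map_mul, hc]
  rw [ht₁] at h1
  exact congrArg (fun z : ↥(hat S T) => (z : Ω)) h1

/-- A map of `F` on `hat S T`, pulling back `C_S(T)`. -/
theorem w_surj_Y (hT : F.StronglyClosed T) {w : MulAut ↥(hat S T)} (hw : w ∈ F.autGroup (hat S T)) (y : centralizerIn S T) :
    ∃ y₀ : centralizerIn S T, w (Subgroup.inclusion (cen_le_hat T) y₀) = Subgroup.inclusion (cen_le_hat T) y := by
  have h := w_mem_Y hT ((F.autGroup _).inv_mem hw) (Subgroup.inclusion (cen_le_hat T) y) y.2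
  refine ⟨⟨_, h⟩, ?_⟩
  have e : Subgroup.inclusion (cen_le_hat T) (⟨_, h⟩ : centralizerIn S T) =
      (w⁻¹) (Subgroup.inclusion (cen_le_hat T) y) := Subtype.ext rfl
  rw [e]
  simp

/-- The values on `C_S(T)` of a map fixing `Q`: `κ(y) ∈ w(y) C_T(Q)`. -/
theorem val_fix {Q : Subgroup Ω} (hT : F.StronglyClosed T) (hQT : Q ≤ T) (hc : centralizerIn T Q ≤ Q)
    {w : MulAut ↥(hat S T)} (hw : w ∈ F.autGroup (hat S T)) {κ : ↥(Q ⊔ centralizerIn S T) →* Ω}
    (hκ : ∀ x : Q, κ (Subgroup.inclusion le_sup_left x) = x)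
    (y : centralizerIn S T) (hy : ((w (Subgroup.inclusion (cen_le_hat T) y) : ↥(hat S T)) : Ω)⁻¹ *
      κ (Subgroup.inclusion le_sup_right y) ∈ T)
    (hκS : κ (Subgroup.inclusion le_sup_right y) ∈ S) :
    ((w (Subgroup.inclusion (cen_le_hat T) y) : ↥(hat S T)) : Ω)⁻¹ * κ (Subgroup.inclusion le_sup_right y) ∈ Q := by
  have hwy := w_mem_Y hT hw (Subgroup.inclusion (cen_le_hat T) y) y.2
  refine hc ⟨hy, ?_⟩
  refine Subgroup.mul_mem _ (Subgroup.inv_mem _ (cen_le_of_le hQT hwy).2) ?_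
  refine Subgroup.mem_centralizer_iff.2 fun q hq => ?_
  have h1 : Subgroup.inclusion (le_sup_left : Q ≤ Q ⊔ centralizerIn S T) ⟨q, hq⟩ *
      Subgroup.inclusion (le_sup_right : centralizerIn S T ≤ Q ⊔ centralizerIn S T) y =
      Subgroup.inclusion le_sup_right y * Subgroup.inclusion le_sup_left ⟨q, hq⟩ :=
    Subtype.ext (y_comm (hQT hq) y.2)
  have h2 := congrArg κ h1
  rw [map_mul, map_mul, hκ] at h2
  exact h2

/-- A map fixing `Q` has values in `Q C_S(T)`. -/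
theorem val_sup {Q : Subgroup Ω} (hT : F.StronglyClosed T) (hQT : Q ≤ T) (hc : centralizerIn T Q ≤ Q)
    {w : MulAut ↥(hat S T)} (hw : w ∈ F.autGroup (hat S T)) {κ : ↥(Q ⊔ centralizerIn S T) →* Ω}
    (hκF : κ ∈ F.Hom (Q ⊔ centralizerIn S T))
    (hκ : ∀ x : Q, κ (Subgroup.inclusion le_sup_left x) = x)
    (hy : ∀ y : centralizerIn S T, ((w (Subgroup.inclusion (cen_le_hat T) y) : ↥(hat S T)) : Ω)⁻¹ *
      κ (Subgroup.inclusion le_sup_right y) ∈ T) (u : ↥(Q ⊔ centralizerIn S T)) :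
    κ u ∈ Q ⊔ centralizerIn S T := by
  refine map_mem_sup_of_ext κ (fun x => ?_) (fun y => ?_) u
  · rw [hκ]
    exact le_sup_left (a := Q) x.2
  · have h1 := val_fix hT hQT hc hw hκ y (hy y) (map_mem_S hκF _)
    have hwy := w_mem_Y hT hw (Subgroup.inclusion (cen_le_hat T) y) y.2
    have h2 := (Q ⊔ centralizerIn S T).mul_mem (le_sup_right (a := Q) hwy) (le_sup_left (a := Q) h1)
    simpa using h2

/-- The relation at the identity. -/
theorem LL.one (Q : Subgroup Ω) (hQS : Q ≤ S) : LL F T Q 1 := by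
  have hU : Q ⊔ centralizerIn S T ≤ S := sup_le hQS inf_le_left
  refine ⟨(Q ⊔ centralizerIn S T).subtype, subtype_mem hU, fun x => rfl, fun y => ?_⟩
  show (y : Ω)⁻¹ * (y : Ω) ∈ T
  simp

/-- Products. -/
theorem LL.mul {Q : Subgroup Ω} (hT : F.StronglyClosed T) (hQT : Q ≤ T) (hc : centralizerIn T Q ≤ Q)
    {w₁ w₂ : MulAut ↥(hat S T)} (hw₁ : w₁ ∈ F.autGroup (hat S T)) (hw₂ : w₂ ∈ F.autGroup (hat S T))
    (h₁ : LL F T Q w₁) (h₂ : LL F T Q w₂) : LL F T Q (w₁ * w₂) := by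
  obtain ⟨κ₁, hκ₁, hf₁, hy₁⟩ := h₁
  obtain ⟨κ₂, hκ₂, hf₂, hy₂⟩ := h₂
  have hval := val_sup hT hQT hc hw₂ hκ₂ hf₂ hy₂
  refine ⟨κ₁.comp (κ₂.codRestrict _ hval), F.comp_mem hκ₂ hκ₁ hval, fun x => ?_, fun y => ?_⟩
  · have e : κ₂.codRestrict _ hval (Subgroup.inclusion le_sup_left x) = Subgroup.inclusion le_sup_left x :=
      Subtype.ext (hf₂ x)
    show κ₁ (κ₂.codRestrict _ hval (Subgroup.inclusion le_sup_left x)) = x
    rw [e, hf₁]
  · -- `κ₂ y = w₂ y * t`, `t ∈ Q`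
    have ht := val_fix hT hQT hc hw₂ hf₂ y (hy₂ y) (map_mem_S hκ₂ _)
    set t : Ω := ((w₂ (Subgroup.inclusion (cen_le_hat T) y) : ↥(hat S T)) : Ω)⁻¹ *
      κ₂ (Subgroup.inclusion le_sup_right y) with htd
    have hwy := w_mem_Y hT hw₂ (Subgroup.inclusion (cen_le_hat T) y) y.2
    set y' : centralizerIn S T := ⟨_, hwy⟩ with hy'
    have e1 : κ₂.codRestrict _ hval (Subgroup.inclusion le_sup_right y) =
        Subgroup.inclusion le_sup_right y' * Subgroup.inclusion le_sup_left (⟨t, ht⟩ : Q) := by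
      apply Subtype.ext
      show κ₂ _ = ((w₂ (Subgroup.inclusion (cen_le_hat T) y) : ↥(hat S T)) : Ω) * t
      rw [htd]
      group
    have e2 : (w₁ * w₂) (Subgroup.inclusion (cen_le_hat T) y) = w₁ (Subgroup.inclusion (cen_le_hat T) y') := by
      rw [MulAut.mul_apply]
      congr 1
    show (((w₁ * w₂) (Subgroup.inclusion (cen_le_hat T) y) : ↥(hat S T)) : Ω)⁻¹ *
      κ₁ (κ₂.codRestrict _ hval (Subgroup.inclusion le_sup_right y)) ∈ T
    rw [e1, e2, map_mul, hf₁, ← mul_assoc]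
    exact T.mul_mem (hy₁ y') (hQT ht)

/-- The subgroup of elements of `Aut_F(T C_S(T))` with the relation. -/
def LSub (F : FusionSystem S) (hT : F.StronglyClosed T) (Q : Subgroup Ω) (hQT : Q ≤ T) (hc : centralizerIn T Q ≤ Q) :
    Subgroup (MulAut ↥(hat S T)) where
  carrier := {w | w ∈ F.autGroup (hat S T) ∧ LL F T Q w}
  mul_mem' := by
    rintro a b ⟨ha, ha'⟩ ⟨hb, hb'⟩
    exact ⟨(F.autGroup _).mul_mem ha hb, LL.mul hT hQT hc ha hb ha' hb'⟩
  one_mem' := ⟨(F.autGroup _).one_mem, LL.one Q (hQT.trans hT.1)⟩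
  inv_mem' := by
    rintro a ⟨ha, ha'⟩
    refine ⟨(F.autGroup _).inv_mem ha, ?_⟩
    haveI : Finite ↥(hat S T) := finite_of_le (hat_le hT.1)
    haveI : Finite (MulAut ↥(hat S T)) := inferInstance
    have hpow : ∀ n : ℕ, LL F T Q (a ^ n) := by
      intro n
      induction n with
      | zero => simpa using LL.one Q (hQT.trans hT.1)
      | succ n ih =>
        rw [pow_succ]
        exact LL.mul hT hQT hc ((F.autGroup _).pow_mem ha n) ha ih ha'
    have hn : 0 < orderOf a := orderOf_pos a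
    have e : a⁻¹ = a ^ (orderOf a - 1) := by
      rw [eq_comm, ← mul_eq_one_iff_eq_inv, ← pow_succ, Nat.sub_add_cancel hn, pow_orderOf_eq_one]
    rw [e]
    exact hpow _

theorem mem_LSub {hT : F.StronglyClosed T} {Q : Subgroup Ω} {hQT : Q ≤ T} {hc : centralizerIn T Q ≤ Q}
    {w : MulAut ↥(hat S T)} : w ∈ LSub F hT Q hQT hc ↔ w ∈ F.autGroup (hat S T) ∧ LL F T Q w := Iff.rfl

/-- **Transport of the relation** along a map of `F` which on `C_S(T)` acts modulo `T` as `a`. -/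
theorem LL.transport {Q Q' : Subgroup Ω} (hT : F.StronglyClosed T) (hQT : Q ≤ T) (hc : centralizerIn T Q ≤ Q)
    (hQ'T : Q' ≤ T) (hc' : centralizerIn T Q' ≤ Q') {a : MulAut ↥(hat S T)} (ha : a ∈ F.autGroup (hat S T))
    {ψ : ↥(Q ⊔ centralizerIn S T) →* Ω} (hψ : ψ ∈ F.Hom (Q ⊔ centralizerIn S T))
    (hψQ : ∀ x : Q, ψ (Subgroup.inclusion le_sup_left x) ∈ Q')
    (hψQ' : ∀ y ∈ Q', ∃ x : Q, ψ (Subgroup.inclusion le_sup_left x) = y)
    (hψY : ∀ y : centralizerIn S T, ((a (Subgroup.inclusion (cen_le_hat T) y) : ↥(hat S T)) : Ω)⁻¹ *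
      ψ (Subgroup.inclusion le_sup_right y) ∈ T)
    {w : MulAut ↥(hat S T)} (hw : w ∈ F.autGroup (hat S T)) (hL : LL F T Q w) : LL F T Q' (a * w * a⁻¹) := by
  classical
  obtain ⟨κ, hκ, hκf, hκy⟩ := hL
  -- values of `ψ` on `C_S(T)`
  have hcomm : ∀ y : centralizerIn S T, ψ (Subgroup.inclusion le_sup_right y) ∈
      Subgroup.centralizer (Q' : Set Ω) := by
    intro y
    refine Subgroup.mem_centralizer_iff.2 fun q hq => ?_
    obtain ⟨x, rfl⟩ := hψQ' q hq
    rw [← map_mul, ← map_mul]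
    congr 1
    exact Subtype.ext (y_comm (hQT x.2) y.2)
  have hψt : ∀ y : centralizerIn S T, ((a (Subgroup.inclusion (cen_le_hat T) y) : ↥(hat S T)) : Ω)⁻¹ *
      ψ (Subgroup.inclusion le_sup_right y) ∈ Q' := by
    intro y
    refine hc' ⟨hψY y, ?_⟩
    have hay := w_mem_Y hT ha (Subgroup.inclusion (cen_le_hat T) y) y.2
    exact Subgroup.mul_mem _ (Subgroup.inv_mem _ (cen_le_of_le hQ'T hay).2) (hcomm y)
  have hr : ψ.range = Q' ⊔ centralizerIn S T := by
    apply le_antisymm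
    · rintro _ ⟨u, rfl⟩
      refine map_mem_sup_of_ext ψ (fun x => le_sup_left (a := Q') (hψQ x)) (fun y => ?_) u
      have hay := w_mem_Y hT ha (Subgroup.inclusion (cen_le_hat T) y) y.2
      have h2 := (Q' ⊔ centralizerIn S T).mul_mem (le_sup_right (a := Q') hay) (le_sup_left (a := Q') (hψt y))
      simpa using h2
    · refine sup_le (fun y hy => ?_) (fun y hy => ?_)
      · obtain ⟨x, hx⟩ := hψQ' y hy
        exact ⟨_, hx⟩
      · obtain ⟨y₀, hy₀⟩ := w_surj_Y hT ha ⟨y, hy⟩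
        have h1 := hψt y₀
        rw [hy₀] at h1
        obtain ⟨x, hx⟩ := hψQ' _ h1
        refine ⟨Subgroup.inclusion le_sup_right y₀ * (Subgroup.inclusion le_sup_left x)⁻¹, ?_⟩
        rw [map_mul, map_inv, hx]
        show _ * ((y : Ω)⁻¹ * _)⁻¹ = y
        group
  obtain ⟨ι, hι, hιr, hι1, hι2⟩ := exists_inv hψ hr
  have hιv : ∀ u, ι u ∈ Q ⊔ centralizerIn S T := fun u => hιr.le ⟨u, rfl⟩
  have hval := val_sup hT hQT hc hw hκ hκf hκy
  -- the composite
  have h1 := F.comp_mem hι hκ hιv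
  set f : ↥(Q' ⊔ centralizerIn S T) →* Ω := κ.comp (ι.codRestrict _ hιv) with hfd
  have hfv : ∀ u, f u ∈ Q ⊔ centralizerIn S T := fun u => hval _
  have h2 := F.comp_mem h1 hψ hfv
  refine ⟨ψ.comp (f.codRestrict _ hfv), h2, fun y => ?_, fun y => ?_⟩
  · obtain ⟨x, hx⟩ := hψQ' y y.2
    have e0 : ψ (Subgroup.inclusion le_sup_left x) ∈ Q' ⊔ centralizerIn S T := by
      rw [hx]
      exact le_sup_left (a := Q') y.2
    have e1 : ι (Subgroup.inclusion le_sup_left y) = x := by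
      have := hι1 (Subgroup.inclusion le_sup_left x) e0
      have e : (⟨ψ (Subgroup.inclusion le_sup_left x), e0⟩ : ↥(Q' ⊔ centralizerIn S T)) = Subgroup.inclusion le_sup_left y :=
        Subtype.ext hx
      rw [e] at this
      exact this
    have e2 : ι.codRestrict _ hιv (Subgroup.inclusion le_sup_left y) = Subgroup.inclusion le_sup_left x :=
      Subtype.ext e1
    have e3 : f.codRestrict _ hfv (Subgroup.inclusion le_sup_left y) = Subgroup.inclusion le_sup_left x := by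
      apply Subtype.ext
      show κ (ι.codRestrict _ hιv (Subgroup.inclusion le_sup_left y)) = x
      rw [e2, hκf]
    show ψ (f.codRestrict _ hfv (Subgroup.inclusion le_sup_left y)) = y
    rw [e3, hx]
  · obtain ⟨y₀, hy₀⟩ := w_surj_Y hT ha y
    have h3 := hψt y₀
    rw [hy₀] at h3
    obtain ⟨x₀, hx₀⟩ := hψQ' _ h3
    -- `ι y = y₀ x₀⁻¹`
    have e0 : ψ (Subgroup.inclusion le_sup_right y₀ * (Subgroup.inclusion le_sup_left x₀)⁻¹) = y := by
      rw [map_mul, map_inv, hx₀]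
      show _ * ((y : Ω)⁻¹ * _)⁻¹ = y
      group
    have e0' : ψ (Subgroup.inclusion le_sup_right y₀ * (Subgroup.inclusion le_sup_left x₀)⁻¹) ∈ Q' ⊔ centralizerIn S T := by
      rw [e0]
      exact le_sup_right (a := Q') y.2
    have e1 : ι (Subgroup.inclusion le_sup_right y) =
        ((Subgroup.inclusion le_sup_right y₀ * (Subgroup.inclusion le_sup_left x₀)⁻¹ : ↥(Q ⊔ centralizerIn S T)) : Ω) := by
      have := hι1 _ e0'
      have e : (⟨_, e0'⟩ : ↥(Q' ⊔ centralizerIn S T)) = Subgroup.inclusion le_sup_right y := Subtype.ext e0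
      rw [e] at this
      exact this
    have e2 : ι.codRestrict _ hιv (Subgroup.inclusion le_sup_right y) =
        Subgroup.inclusion le_sup_right y₀ * (Subgroup.inclusion le_sup_left x₀)⁻¹ := Subtype.ext e1
    -- `κ y₀ = w y₀ * t₁`
    have ht₁ := val_fix hT hQT hc hw hκf y₀ (hκy y₀) (map_mem_S hκ _)
    set t₁ : Ω := ((w (Subgroup.inclusion (cen_le_hat T) y₀) : ↥(hat S T)) : Ω)⁻¹ *
      κ (Subgroup.inclusion le_sup_right y₀) with ht₁d
    have hwy := w_mem_Y hT hw (Subgroup.inclusion (cen_le_hat T) y₀) y₀.2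
    set y₁ : centralizerIn S T := ⟨_, hwy⟩ with hy₁
    have e3 : f.codRestrict _ hfv (Subgroup.inclusion le_sup_right y) =
        Subgroup.inclusion le_sup_right y₁ * Subgroup.inclusion le_sup_left ((⟨t₁, ht₁⟩ : Q) * x₀⁻¹) := by
      apply Subtype.ext
      show κ (ι.codRestrict _ hιv (Subgroup.inclusion le_sup_right y)) = _
      rw [e2, map_mul, map_inv, hκf]
      show _ = ((w (Subgroup.inclusion (cen_le_hat T) y₀) : ↥(hat S T)) : Ω) * (t₁ * (x₀ : Ω)⁻¹)
      rw [ht₁d]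
      group
    have e4 : (a * w * a⁻¹) (Subgroup.inclusion (cen_le_hat T) y) = a (Subgroup.inclusion (cen_le_hat T) y₁) := by
      have e5 : a⁻¹ (Subgroup.inclusion (cen_le_hat T) y) = Subgroup.inclusion (cen_le_hat T) y₀ := by
        rw [← hy₀]
        simp
      rw [MulAut.mul_apply, MulAut.mul_apply, e5]
      congr 1
    show (((a * w * a⁻¹) (Subgroup.inclusion (cen_le_hat T) y) : ↥(hat S T)) : Ω)⁻¹ *
      ψ (f.codRestrict _ hfv (Subgroup.inclusion le_sup_right y)) ∈ T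
    rw [e3, e4, map_mul, ← mul_assoc]
    exact T.mul_mem (hψY y₁) (hQ'T (hψQ _))

end Basic

end Cfsg.Agent.Lib.Fusion.PResNormal
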