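/-
`O^{p'}` of a weakly normal subsystem, part 2: the step from `X` to `N_T(X)` at a fully normalized subgroup `X` of `T`
with `C_T(X) ≤ X`.  The relation `LL` for `w` at `X` gives the relation for `c⁻¹ w` at `N_T(X)`, with `c ∈ C_S(X)`.
-/
import Mathlib
import Cfsg.Agent.Lib.Fusion.PResNormal1
import Cfsg.Agent.Lib.Fusion.CLiftG1

set_option autoImplicit false
set_option linter.style.haveILetI false

namespace Cfsg.Agent.Lib.Fusion.PResNormal

open Cfsg Cfsg.FusionSystem Cfsg.Agent.Lib.Fusion.Basic Cfsg.Agent.Lib.Fusion.Saturated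
open Cfsg.Agent.Lib.Fusion.Saturated2 (autOfHom autOfHom_mem)
open Cfsg.Agent.Lib.Fusion.LocalSystems (map_mem_sup_of_ext range_ext_eq)
open Cfsg.Agent.Lib.Fusion.NormalPair
open Cfsg.Agent.Lib.Fusion.NormalCR
open Cfsg.Agent.Lib.Fusion.GoodLift

variable {Ω : Type*} [Group Ω] {S T : Subgroup Ω} {F : FusionSystem S}

section Norm

/-- Elements of `T` normalize `C_S(T)`, in fact they centralize it. -/
theorem T_le_normY {t : Ω} (ht : t ∈ T) : t ∈ Subgroup.normalizer (centralizerIn S T : Set Ω) := by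
  refine mem_norm_of_conj (fun y hy => ?_) (fun y hy => ?_)
  · have h : t * y = y * t := comm_of_mem_cen hy.2 ht
    rw [h]
    simpa using hy
  · have h : t⁻¹ * y = y * t⁻¹ := comm_of_mem_cen hy.2 (T.inv_mem ht)
    have e : t⁻¹ * y * t = y := by
      rw [h]
      group
    rw [e]
    exact hy

/-- Elements of `S` normalize `C_S(T)`. -/
theorem S_le_normY (hT : F.StronglyClosed T) {s : Ω} (hs : s ∈ S) :
    s ∈ Subgroup.normalizer (centralizerIn S T : Set Ω) :=
  mem_norm_of_conj (fun y hy => conj_mem_cen hs (StronglyClosed.le_normalizer hT hs) hy) (fun y hy => by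
    have := conj_mem_cen (S.inv_mem hs) (StronglyClosed.le_normalizer hT (S.inv_mem hs)) hy
    simpa using this)

/-- Elements of `S` normalizing `A` normalize `A C_S(T)`. -/
theorem norm_sup (hT : F.StronglyClosed T) {s : Ω} {A : Subgroup Ω} (hs : s ∈ S)
    (hA : s ∈ Subgroup.normalizer (A : Set Ω)) : s ∈ Subgroup.normalizer ((A ⊔ centralizerIn S T : Subgroup Ω) : Set Ω) :=
  KNormalizer.mem_normalizer_sup hA (S_le_normY hT hs)

/-- Elements of `S` normalizing `X` normalize `N_T(X)`. -/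
theorem norm_normalizerIn (hT : F.StronglyClosed T) {s : Ω} {X : Subgroup Ω} (hs : s ∈ S)
    (hX : s ∈ Subgroup.normalizer (X : Set Ω)) : s ∈ Subgroup.normalizer (normalizerIn T X : Set Ω) := by
  refine mem_norm_of_conj (fun y hy => ?_) (fun y hy => ?_)
  · exact ⟨StronglyClosed.conj_mem hT hs hy.1, Subgroup.mul_mem _ (Subgroup.mul_mem _ hX hy.2) (Subgroup.inv_mem _ hX)⟩
  · have h1 := StronglyClosed.conj_mem hT (S.inv_mem hs) hy.1
    refine ⟨by simpa using h1, ?_⟩
    exact Subgroup.mul_mem _ (Subgroup.mul_mem _ (Subgroup.inv_mem _ hX) hy.2) hX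

end Norm

section Main

variable [Finite S] {p : ℕ} [hp : Fact p.Prime] {X : Subgroup Ω}

omit [Finite S] hp in
/-- `X C_S(T) ∩ T = X`, when `C_T(X) ≤ X`. -/
theorem sup_inf_le (hXT : X ≤ T) (hc : centralizerIn T X ≤ X) {u : Ω} (hu : u ∈ X ⊔ centralizerIn S T)
    (huT : u ∈ T) : u ∈ X := by
  obtain ⟨x, hx, y, hy, rfl⟩ := GroupSylow.exists_mul_of_mem_sup (fun x hx => T_le_normY (hXT hx)) hu
  have hyT : y ∈ T := by
    have := T.mul_mem (T.inv_mem (hXT hx)) huT
    simpa using this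
  have hyX : y ∈ X := hc ⟨hyT, Subgroup.centralizer_le (fun z hz => hXT hz) hy.2⟩
  exact X.mul_mem hx hyX

/-- `X C_S(T)` is fully normalized if `X` is. -/
theorem isFullyNormalized_sup (hT : F.StronglyClosed T) (hXT : X ≤ T) (hc : centralizerIn T X ≤ X)
    (hFN : F.IsFullyNormalized X) : F.IsFullyNormalized (X ⊔ centralizerIn S T) := by
  have hTS : T ≤ S := hT.1
  have hUS : X ⊔ centralizerIn S T ≤ S := sup_le (hXT.trans hTS) inf_le_left
  refine ⟨hUS, fun V hV => ?_⟩
  obtain ⟨ψ, hψ, hr⟩ := hV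
  have hVS : V ≤ S := hr ▸ range_le hψ
  obtain ⟨θ, hθ, hθr, hθ1, hθ2⟩ := exists_inv hψ hr
  have hle : X ≤ X ⊔ centralizerIn S T := le_sup_left
  have hψX := res_mem hψ hle
  have hrX : (ψ.comp (Subgroup.inclusion hle)).range = V ⊓ T := by
    apply le_antisymm
    · rintro _ ⟨x, rfl⟩
      refine ⟨?_, stronglyClosed_apply hT hψ _ (hXT x.2)⟩
      rw [← hr]
      exact ⟨_, rfl⟩
    · rintro v ⟨hvV, hvT⟩
      have h1 : θ ⟨v, hvV⟩ ∈ T := stronglyClosed_apply hT hθ _ hvT
      have h2 : θ ⟨v, hvV⟩ ∈ X ⊔ centralizerIn S T := by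
        rw [← hθr]
        exact ⟨_, rfl⟩
      have h3 := sup_inf_le hXT hc h2 h1
      refine ⟨⟨_, h3⟩, ?_⟩
      exact hθ2 ⟨v, hvV⟩ h2
  have h1 := hFN.2 _ ⟨_, hψX, hrX⟩
  haveI : Finite (normalizerIn S (V ⊓ T)) := finite_of_le normalizerIn_le
  haveI : Finite (normalizerIn S (X ⊔ centralizerIn S T)) := finite_of_le normalizerIn_le
  have h2 : Nat.card (normalizerIn S V) ≤ Nat.card (normalizerIn S (V ⊓ T)) := by
    refine Subgroup.card_le_of_le ?_
    rintro s ⟨hs, hsN⟩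
    refine ⟨hs, mem_norm_of_conj (fun y hy => ?_) (fun y hy => ?_)⟩
    · exact ⟨(Subgroup.mem_normalizer_iff.1 hsN y).1 hy.1, StronglyClosed.conj_mem hT hs hy.2⟩
    · refine ⟨(Subgroup.mem_normalizer_iff.1 (Subgroup.inv_mem _ hsN) y).1 hy.1 |> fun h => by simpa using h, ?_⟩
      have := StronglyClosed.conj_mem hT (S.inv_mem hs) hy.2
      simpa using this
  have h3 : Nat.card (normalizerIn S X) ≤ Nat.card (normalizerIn S (X ⊔ centralizerIn S T)) := by
    refine Subgroup.card_le_of_le ?_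
    rintro s ⟨hs, hsN⟩
    exact ⟨hs, norm_sup hT hs hsN⟩
  omega

/-- Elements of `Aut_F(X C_S(T))` preserve `X`. -/
theorem aut_mem_X (hT : F.StronglyClosed T) (hXT : X ≤ T) (hc : centralizerIn T X ≤ X)
    {g : MulAut ↥(X ⊔ centralizerIn S T)} (hg : g ∈ F.autGroup (X ⊔ centralizerIn S T)) (x : ↥(X ⊔ centralizerIn S T))
    (hx : (x : Ω) ∈ X) : ((g x : ↥(X ⊔ centralizerIn S T)) : Ω) ∈ X := by
  have hUS : X ⊔ centralizerIn S T ≤ S := sup_le (hXT.trans hT.1) inf_le_left
  exact sup_inf_le hXT hc (g x).2 (aut_mem_T hT hUS hg x (hXT hx))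

/-- The conjugation by `t ∈ T` is trivial on `X C_S(T)` modulo `X`. -/
theorem conj_diff_mem (hT : F.StronglyClosed T) (hXT : X ≤ T) (hc : centralizerIn T X ≤ X) {t : Ω} (ht : t ∈ T)
    (htN : t ∈ Subgroup.normalizer ((X ⊔ centralizerIn S T : Subgroup Ω) : Set Ω)) (w : ↥(X ⊔ centralizerIn S T)) :
    (w : Ω)⁻¹ * ((normConj t htN w : ↥(X ⊔ centralizerIn S T)) : Ω) ∈ X := by
  have hUS : X ⊔ centralizerIn S T ≤ S := sup_le (hXT.trans hT.1) inf_le_left
  refine sup_inf_le (S := S) hXT hc ?_ ?_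
  · exact Subgroup.mul_mem _ (Subgroup.inv_mem _ w.2) (normConj t htN w).2
  · have h1 := StronglyClosed.conj_mem hT (S.inv_mem (hUS w.2)) ht
    have h2 := T.mul_mem h1 (T.inv_mem ht)
    have e : (w : Ω)⁻¹ * ((normConj t htN w : ↥(X ⊔ centralizerIn S T)) : Ω) = (w : Ω)⁻¹ * t * (w : Ω)⁻¹⁻¹ * t⁻¹ := by
      show (w : Ω)⁻¹ * (t * w * t⁻¹) = _
      group
    rw [e]
    exact h2

/-- A map of `Aut_F(X C_S(T))` fixing `X` extends to `N_T(X) C_S(T)`: the elements of `N_T(X)` are in the extender. -/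
theorem mem_extender_of_fix (hS : IsPGroup p S) (hF : F.IsSaturated p) (hT : F.StronglyClosed T) (hXT : X ≤ T)
    (hc : centralizerIn T X ≤ X) (hFN : F.IsFullyNormalized X) {b : MulAut ↥(X ⊔ centralizerIn S T)}
    (hb : b ∈ F.autGroup (X ⊔ centralizerIn S T))
    (hfix : ∀ x : X, b (Subgroup.inclusion le_sup_left x) = Subgroup.inclusion le_sup_left x)
    {t : Ω} (ht : t ∈ normalizerIn T X) :
    t ∈ extender S (X ⊔ centralizerIn S T) ((X ⊔ centralizerIn S T).subtype.comp b.toMonoidHom) := by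
  have hTS : T ≤ S := hT.1
  have hUS : X ⊔ centralizerIn S T ≤ S := sup_le (hXT.trans hTS) inf_le_left
  have hUFN := isFullyNormalized_sup hT hXT hc hFN
  have htS : t ∈ S := hTS ht.1
  have htN : t ∈ Subgroup.normalizer ((X ⊔ centralizerIn S T : Subgroup Ω) : Set Ω) := norm_sup hT htS ht.2
  set c : MulAut ↥(X ⊔ centralizerIn S T) := normConj t htN with hcd
  have hcF : c ∈ F.autGroup (X ⊔ centralizerIn S T) := autInducedBy_le_autGroup hUS (normConj_mem_autInducedBy htS htN)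
  have hbinv : ∀ x : X, b⁻¹ (Subgroup.inclusion le_sup_left x) = Subgroup.inclusion le_sup_left x := by
    intro x
    conv_lhs => rw [← hfix x]
    simp
  have hdF : b * c * b⁻¹ * c⁻¹ ∈ F.autGroup (X ⊔ centralizerIn S T) :=
    Subgroup.mul_mem _ (Subgroup.mul_mem _ (Subgroup.mul_mem _ hb hcF) (Subgroup.inv_mem _ hb)) (Subgroup.inv_mem _ hcF)
  have hcv : ∀ v : ↥(X ⊔ centralizerIn S T), ((c⁻¹ v : ↥(X ⊔ centralizerIn S T)) : Ω) = t⁻¹ * v * t := fun v => rfl
  have hcvv : ∀ v : ↥(X ⊔ centralizerIn S T), ((c v : ↥(X ⊔ centralizerIn S T)) : Ω) = t * v * t⁻¹ := fun v => rfl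
  have hmem : (⟨b * c * b⁻¹ * c⁻¹, hdF⟩ : F.autGroup (X ⊔ centralizerIn S T)) ∈ DeltaK F T (X ⊔ centralizerIn S T) := by
    refine ⟨fun v hv => ?_, fun v => ?_⟩
    · -- on `X`
      have hvX : (v : Ω) ∈ X := sup_inf_le hXT hc v.2 hv
      have h1 : t⁻¹ * v * t ∈ X := by
        have := (Subgroup.mem_normalizer_iff.1 (Subgroup.inv_mem _ ht.2) v).1 hvX
        simpa using this
      have e1 : c⁻¹ v = Subgroup.inclusion le_sup_left (⟨t⁻¹ * v * t, h1⟩ : X) := Subtype.ext (hcv v)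
      show b (c (b⁻¹ (c⁻¹ v))) = v
      rw [e1, hbinv]
      have e2 : c (Subgroup.inclusion le_sup_left (⟨t⁻¹ * v * t, h1⟩ : X)) = Subgroup.inclusion le_sup_left (⟨v, hvX⟩ : X) := by
        apply Subtype.ext
        show t * (t⁻¹ * v * t) * t⁻¹ = v
        group
      rw [e2, hfix]
      rfl
    · -- modulo `T`
      show (v : Ω)⁻¹ * ((b (c (b⁻¹ (c⁻¹ v))) : ↥(X ⊔ centralizerIn S T)) : Ω) ∈ T
      set w : ↥(X ⊔ centralizerIn S T) := b⁻¹ (c⁻¹ v) with hw
      have ha := conj_diff_mem hT hXT hc ht.1 htN w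
      set a : X := ⟨(w : Ω)⁻¹ * ((normConj t htN w : ↥(X ⊔ centralizerIn S T)) : Ω), ha⟩ with hadef
      have e1 : c w = w * Subgroup.inclusion le_sup_left a := by
        apply Subtype.ext
        show ((normConj t htN w : ↥(X ⊔ centralizerIn S T)) : Ω) = (w : Ω) * ((w : Ω)⁻¹ * ((normConj t htN w : ↥(X ⊔ centralizerIn S T)) : Ω))
        group
      rw [e1, map_mul, hfix]
      have e2 : b w = c⁻¹ v := by rw [hw]; simp
      rw [e2]
      have e3 : (v : Ω)⁻¹ * ((c⁻¹ v * Subgroup.inclusion le_sup_left a : ↥(X ⊔ centralizerIn S T)) : Ω) =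
          ((v : Ω)⁻¹ * t⁻¹ * (v : Ω)⁻¹⁻¹) * (t * (a : Ω)) := by
        show (v : Ω)⁻¹ * (t⁻¹ * v * t * (a : Ω)) = _
        group
      rw [e3]
      exact T.mul_mem (StronglyClosed.conj_mem hT (S.inv_mem (hUS v.2)) (T.inv_mem ht.1)) (T.mul_mem ht.1 (hXT a.2))
  have hind := Cfsg.Agent.Lib.Fusion.CLiftG.mem_autInduced_of_normal hS hF hUFN (DeltaK F T (X ⊔ centralizerIn S T))
    (DeltaK_normal hT hUS) (isPGroup_DeltaK hS hUS) hmem
  obtain ⟨s, hs, hsv⟩ := mem_autInducedBy_iff.1 hind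
  refine extender_closure_mem htS htN (S.mul_mem hs htS) (fun x hx => ?_)
  show ((b ⟨t * x * t⁻¹, hx⟩ : ↥(X ⊔ centralizerIn S T)) : Ω) = _
  have e1 : (⟨t * x * t⁻¹, hx⟩ : ↥(X ⊔ centralizerIn S T)) = c x := Subtype.ext rfl
  rw [e1]
  have h2 := hsv (b x)
  have e2 : ((b * c * b⁻¹ * c⁻¹) (b x)) = b (c (b⁻¹ (c⁻¹ (b x)))) := rfl
  have h3 : (b * c * b⁻¹ * c⁻¹) (c (b x)) = b (c x) := by
    simp [MulAut.mul_apply]
  have h4 := hsv (c (b x))
  simp only at h4
  rw [h3] at h4
  rw [h4, hcvv]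
  show _ = s * t * (((b x : ↥(X ⊔ centralizerIn S T)) : Ω)) * (s * t)⁻¹
  group

theorem le_MM (X : Subgroup Ω) (hXS : X ≤ S) (hXT : X ≤ T) : X ⊔ centralizerIn S T ≤ normalizerIn T X ⊔ centralizerIn S T :=
  sup_le_sup_right (le_inf hXT Subgroup.le_normalizer) _

/-- **A map of `Aut_F(X C_S(T))` fixing `X`, of order prime to `p`**, extends to an automorphism of `N_T(X) C_S(T)` in `F`
fixing `N_T(X)`. -/
theorem exists_ext_pprime (hS : IsPGroup p S) (hF : F.IsSaturated p) (hT : F.StronglyClosed T) (hXT : X ≤ T)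
    (hc : centralizerIn T X ≤ X) (hFN : F.IsFullyNormalized X) {b : MulAut ↥(X ⊔ centralizerIn S T)}
    (hb : b ∈ F.autGroup (X ⊔ centralizerIn S T))
    (hfix : ∀ x : X, b (Subgroup.inclusion le_sup_left x) = Subgroup.inclusion le_sup_left x)
    (hord : Nat.Coprime (orderOf b) p) :
    ∃ m : MulAut ↥(normalizerIn T X ⊔ centralizerIn S T), m ∈ F.autGroup (normalizerIn T X ⊔ centralizerIn S T) ∧
      (∀ t : normalizerIn T X, m (Subgroup.inclusion le_sup_left t) = Subgroup.inclusion le_sup_left t) ∧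
      ∀ u : ↥(X ⊔ centralizerIn S T), m (Subgroup.inclusion (le_MM X (hXT.trans hT.1) hXT) u) =
        Subgroup.inclusion (le_MM X (hXT.trans hT.1) hXT) (b u) := by
  classical
  have hTS : T ≤ S := hT.1
  have hXS : X ≤ S := hXT.trans hTS
  have hUS : X ⊔ centralizerIn S T ≤ S := sup_le hXS inf_le_left
  have hMS : normalizerIn T X ⊔ centralizerIn S T ≤ S := sup_le (normalizerIn_le.trans hTS) inf_le_left
  have hUM := le_MM X hXS hXT
  have hUFN := isFullyNormalized_sup hT hXT hc hFN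
  haveI : Finite ↥(normalizerIn T X ⊔ centralizerIn S T) := finite_of_le hMS
  haveI : Finite ↥(X ⊔ centralizerIn S T) := finite_of_le hUS
  set φ : ↥(X ⊔ centralizerIn S T) →* Ω := (X ⊔ centralizerIn S T).subtype.comp b.toMonoidHom with hφd
  have hφ : φ ∈ F.Hom (X ⊔ centralizerIn S T) := autGroup_mem_hom hUS hb
  have hφr : φ.range = X ⊔ centralizerIn S T := by
    ext y
    constructor
    · rintro ⟨z, rfl⟩
      exact (b z).2
    · intro hy
      exact ⟨b⁻¹ ⟨y, hy⟩, by simp [hφd]⟩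
  obtain ⟨ψ, hψ, hψe⟩ := (fullyNormalized_receptive hS hF hUFN).2 _ φ hφ hφr
  have hUext : X ⊔ centralizerIn S T ≤ extender S (X ⊔ centralizerIn S T) φ :=
    le_extender hUS (map_mem_S hφ)
  have hMext : normalizerIn T X ⊔ centralizerIn S T ≤ extender S (X ⊔ centralizerIn S T) φ := by
    refine sup_le (fun t ht => mem_extender_of_fix hS hF hT hXT hc hFN hb hfix ht) (fun y hy => hUext ?_)
    exact le_sup_right (a := X) hy
  set f : ↥(normalizerIn T X ⊔ centralizerIn S T) →* Ω := ψ.comp (Subgroup.inclusion hMext) with hfd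
  have hf : f ∈ F.Hom (normalizerIn T X ⊔ centralizerIn S T) := res_mem hψ hMext
  have hfU : ∀ u : ↥(X ⊔ centralizerIn S T), f (Subgroup.inclusion hUM u) = b u := by
    intro u
    exact hψe u u.2 (hUext u.2)
  have hfX : ∀ x : X, f (Subgroup.inclusion le_sup_left (Subgroup.inclusion (le_normalizerIn hXT) x)) = x := by
    intro x
    have h1 := hfU (Subgroup.inclusion le_sup_left x)
    rw [hfix x] at h1
    exact h1
  -- values on `N_T(X)`
  have hz : ∀ t : normalizerIn T X, (t : Ω)⁻¹ * f (Subgroup.inclusion le_sup_left t) ∈ X := by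
    intro t
    have htT := stronglyClosed_apply hT hf (Subgroup.inclusion le_sup_left t) t.2.1
    refine hc ⟨T.mul_mem (T.inv_mem t.2.1) htT, Subgroup.mem_centralizer_iff.2 fun x hx => ?_⟩
    have hx1 : (t : Ω) * x * (t : Ω)⁻¹ ∈ X := (Subgroup.mem_normalizer_iff.1 t.2.2 x).1 hx
    have h1 := hfX ⟨_, hx1⟩
    have e : Subgroup.inclusion (le_normalizerIn (S := T) hXT) (⟨_, hx1⟩ : X) =
        t * Subgroup.inclusion (le_normalizerIn hXT) ⟨x, hx⟩ * t⁻¹ := Subtype.ext rfl
    rw [e, map_mul, map_mul, map_mul, map_mul, map_inv, map_inv, hfX] at h1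
    simp only at h1
    have h2 : f (Subgroup.inclusion le_sup_left t) * x = (t : Ω) * x * (t : Ω)⁻¹ * f (Subgroup.inclusion le_sup_left t) := by
      rw [← h1]
      group
    calc x * ((t : Ω)⁻¹ * f (Subgroup.inclusion le_sup_left t)) = (t : Ω)⁻¹ * ((t : Ω) * x * (t : Ω)⁻¹ * f (Subgroup.inclusion le_sup_left t)) := by group
      _ = (t : Ω)⁻¹ * (f (Subgroup.inclusion le_sup_left t) * x) := by rw [h2]
      _ = _ := by group
  have hv : ∀ u, f u ∈ normalizerIn T X ⊔ centralizerIn S T := by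
    refine map_mem_sup_of_ext f (fun t => ?_) (fun y => ?_)
    · have hzM : (t : Ω) * ((t : Ω)⁻¹ * f (Subgroup.inclusion le_sup_left t)) ∈ normalizerIn T X :=
        (normalizerIn T X).mul_mem t.2 (le_normalizerIn hXT (hz t))
      have e : (t : Ω) * ((t : Ω)⁻¹ * f (Subgroup.inclusion le_sup_left t)) = f (Subgroup.inclusion le_sup_left t) := by group
      rw [e] at hzM
      exact le_sup_left (a := normalizerIn T X) hzM
    · have h1 := hfU (Subgroup.inclusion le_sup_right y)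
      have e : Subgroup.inclusion hUM (Subgroup.inclusion le_sup_right y) =
          (Subgroup.inclusion le_sup_right y : ↥(normalizerIn T X ⊔ centralizerIn S T)) := rfl
      rw [e] at h1
      rw [h1]
      exact hUM (b _).2
  set b₃ := autOfHom f (F.injective_of_mem hf) hv with hb₃d
  have hb₃ : b₃ ∈ F.autGroup (normalizerIn T X ⊔ centralizerIn S T) := autOfHom_mem hf hv
  have hb₃U : ∀ u : ↥(X ⊔ centralizerIn S T), b₃ (Subgroup.inclusion hUM u) = Subgroup.inclusion hUM (b u) := by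
    intro u
    exact Subtype.ext (hfU u)
  have hpowU : ∀ (k : ℕ) (u : ↥(X ⊔ centralizerIn S T)), (b₃ ^ k) (Subgroup.inclusion hUM u) = Subgroup.inclusion hUM ((b ^ k) u) := by
    intro k
    induction k with
    | zero => intro u; rfl
    | succ k ih =>
      intro u
      rw [pow_succ', pow_succ', MulAut.mul_apply, MulAut.mul_apply, ih, hb₃U]
  have hb₃X : ∀ x : X, b₃ (Subgroup.inclusion le_sup_left (Subgroup.inclusion (le_normalizerIn hXT) x)) =
      Subgroup.inclusion le_sup_left (Subgroup.inclusion (le_normalizerIn hXT) x) := by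
    intro x
    exact Subtype.ext (hfX x)
  have hpowT : ∀ (k : ℕ) (t : normalizerIn T X) (z : X),
      (b₃ (Subgroup.inclusion le_sup_left t) = Subgroup.inclusion le_sup_left t *
        Subgroup.inclusion le_sup_left (Subgroup.inclusion (le_normalizerIn hXT) z)) →
      (b₃ ^ k) (Subgroup.inclusion le_sup_left t) = Subgroup.inclusion le_sup_left t *
        (Subgroup.inclusion le_sup_left (Subgroup.inclusion (le_normalizerIn hXT) z)) ^ k := by
    intro k t z hz'
    induction k with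
    | zero => simp
    | succ k ih =>
      rw [pow_succ', MulAut.mul_apply, ih, map_mul, map_pow, hz', hb₃X, pow_succ', mul_assoc]
  -- the power
  have hXp : IsPGroup p X := isPGroup_of_le hS hXS
  haveI : Finite X := finite_of_le hXS
  obtain ⟨e, he⟩ := IsPGroup.iff_card.1 hXp
  have hco : Nat.Coprime (orderOf b) (Nat.card X) := by
    rw [he]
    exact Nat.Coprime.pow_right e hord
  obtain ⟨n, hn1, hn2⟩ := Nat.chineseRemainder hco 1 0
  have hbn : b ^ n = b := by
    have := (pow_eq_pow_iff_modEq (x := b)).2 hn1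
    rwa [pow_one] at this
  have hdvd : Nat.card X ∣ n := (Nat.modEq_zero_iff_dvd).1 hn2
  refine ⟨b₃ ^ n, (F.autGroup _).pow_mem hb₃ n, fun t => ?_, fun u => ?_⟩
  · have hzt := hz t
    set z : X := ⟨_, hzt⟩ with hzd
    have e1 : b₃ (Subgroup.inclusion le_sup_left t) = Subgroup.inclusion le_sup_left t *
        Subgroup.inclusion le_sup_left (Subgroup.inclusion (le_normalizerIn hXT) z) := by
      apply Subtype.ext
      show f (Subgroup.inclusion le_sup_left t) = (t : Ω) * ((t : Ω)⁻¹ * f (Subgroup.inclusion le_sup_left t))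
      group
    rw [hpowT n t z e1]
    have h1 : z ^ n = 1 := by
      obtain ⟨r, hr⟩ := hdvd
      rw [hr, pow_mul, pow_card_eq_one', one_pow]
    rw [← map_pow, ← map_pow, h1, map_one, map_one, mul_one]
  · rw [hpowU, hbn]

/-- The automorphisms of `U` extending to automorphisms of `M` fixing `X₁`. -/
def BB (F : FusionSystem S) (X₁ U M : Subgroup Ω) (h₁ : X₁ ≤ M) (hUM : U ≤ M) : Subgroup (MulAut U) where
  carrier := {b | b ∈ F.autGroup U ∧ ∃ m : MulAut M, m ∈ F.autGroup M ∧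
    (∀ t : X₁, m (Subgroup.inclusion h₁ t) = Subgroup.inclusion h₁ t) ∧
    ∀ u : U, m (Subgroup.inclusion hUM u) = Subgroup.inclusion hUM (b u)}
  mul_mem' := by
    rintro a b ⟨ha, m, hm, hm1, hm2⟩ ⟨hb, n, hn, hn1, hn2⟩
    refine ⟨(F.autGroup U).mul_mem ha hb, m * n, (F.autGroup M).mul_mem hm hn, fun t => ?_, fun u => ?_⟩
    · rw [MulAut.mul_apply, hn1, hm1]
    · rw [MulAut.mul_apply, hn2, hm2]
      rfl
  one_mem' := ⟨(F.autGroup U).one_mem, 1, (F.autGroup M).one_mem, fun _ => rfl, fun _ => rfl⟩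
  inv_mem' := by
    rintro a ⟨ha, m, hm, hm1, hm2⟩
    refine ⟨(F.autGroup U).inv_mem ha, m⁻¹, (F.autGroup M).inv_mem hm, fun t => ?_, fun u => ?_⟩
    · conv_lhs => rw [← hm1 t]
      simp
    · have h1 := hm2 (a⁻¹ u)
      simp only [MulAut.apply_inv_self] at h1
      rw [← h1]
      simp

/-- The elements of `Aut_F(U)` fixing `X`. -/
def FixK (F : FusionSystem S) {X U : Subgroup Ω} (hXU : X ≤ U) : Subgroup (F.autGroup U) where
  carrier := {g | ∀ x : X, (g : MulAut U) (Subgroup.inclusion hXU x) = Subgroup.inclusion hXU x}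
  mul_mem' := by
    intro a b ha hb x
    show (a : MulAut U) ((b : MulAut U) _) = _
    rw [hb x, ha x]
  one_mem' := fun _ => rfl
  inv_mem' := by
    intro a ha x
    show (a : MulAut U)⁻¹ _ = _
    conv_lhs => rw [← ha x]
    simp

theorem FixK_normal (hT : F.StronglyClosed T) (hXT : X ≤ T) (hc : centralizerIn T X ≤ X) :
    (FixK F (le_sup_left : X ≤ X ⊔ centralizerIn S T)).Normal := by
  refine ⟨fun g hg a x => ?_⟩
  have h1 := aut_mem_X hT hXT hc ((F.autGroup _).inv_mem a.2) (Subgroup.inclusion le_sup_left x) x.2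
  have e : (a : MulAut ↥(X ⊔ centralizerIn S T))⁻¹ (Subgroup.inclusion le_sup_left x) =
      Subgroup.inclusion le_sup_left (⟨_, h1⟩ : X) := Subtype.ext rfl
  show (a : MulAut ↥(X ⊔ centralizerIn S T)) ((g : MulAut ↥(X ⊔ centralizerIn S T))
    ((a : MulAut ↥(X ⊔ centralizerIn S T))⁻¹ _)) = _
  rw [e, hg]
  rw [← e]
  simp

/-- `Aut_{N_S(X)}(U)` normalizes `BB`. -/
theorem conj_mem_BB (hT : F.StronglyClosed T) (hXT : X ≤ T) {a : MulAut ↥(X ⊔ centralizerIn S T)}
    (ha : a ∈ autInducedBy (normalizerIn S X) (X ⊔ centralizerIn S T)) {b : MulAut ↥(X ⊔ centralizerIn S T)}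
    (hb : b ∈ BB F (normalizerIn T X) (X ⊔ centralizerIn S T) (normalizerIn T X ⊔ centralizerIn S T) le_sup_left
      (le_MM X (hXT.trans hT.1) hXT)) :
    a * b * a⁻¹ ∈ BB F (normalizerIn T X) (X ⊔ centralizerIn S T) (normalizerIn T X ⊔ centralizerIn S T) le_sup_left
      (le_MM X (hXT.trans hT.1) hXT) := by
  have hTS : T ≤ S := hT.1
  have hXS : X ≤ S := hXT.trans hTS
  have hUS : X ⊔ centralizerIn S T ≤ S := sup_le hXS inf_le_left
  have hMS : normalizerIn T X ⊔ centralizerIn S T ≤ S := sup_le (normalizerIn_le.trans hTS) inf_le_left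
  have hUM := le_MM X hXS hXT
  obtain ⟨hbF, m, hm, hm1, hm2⟩ := hb
  obtain ⟨g, hg, hga⟩ := mem_autInducedBy_iff.1 ha
  have haF : a ∈ F.autGroup (X ⊔ centralizerIn S T) := by
    refine autInducedBy_le_autGroup hUS (mem_autInducedBy_iff.2 ⟨g, hg.1, hga⟩)
  have hgS : g ∈ S := hg.1
  have hgM : g ∈ Subgroup.normalizer ((normalizerIn T X ⊔ centralizerIn S T : Subgroup Ω) : Set Ω) :=
    norm_sup hT hgS (norm_normalizerIn hT hgS hg.2)
  set c := normConj g hgM with hcd
  have hcF : c ∈ F.autGroup (normalizerIn T X ⊔ centralizerIn S T) :=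
    autInducedBy_le_autGroup hMS (normConj_mem_autInducedBy hgS hgM)
  refine ⟨(F.autGroup _).mul_mem ((F.autGroup _).mul_mem haF hbF) ((F.autGroup _).inv_mem haF), c * m * c⁻¹,
    (F.autGroup _).mul_mem ((F.autGroup _).mul_mem hcF hm) ((F.autGroup _).inv_mem hcF), fun t => ?_, fun u => ?_⟩
  · have h1 : g⁻¹ * t * g ∈ normalizerIn T X := by
      have := (Subgroup.mem_normalizer_iff.1 (Subgroup.inv_mem _ (norm_normalizerIn hT hgS hg.2)) t).1 t.2
      simpa using this
    have e1 : c⁻¹ (Subgroup.inclusion le_sup_left t) = Subgroup.inclusion le_sup_left (⟨_, h1⟩ : normalizerIn T X) :=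
      Subtype.ext rfl
    rw [MulAut.mul_apply, MulAut.mul_apply, e1, hm1, ← e1]
    simp
  · -- `a⁻¹ u`
    have hu : ((a⁻¹ u : ↥(X ⊔ centralizerIn S T)) : Ω) = g⁻¹ * u * g := by
      have h1 := hga (a⁻¹ u)
      simp only [MulAut.apply_inv_self] at h1
      rw [h1]
      group
    have e1 : c⁻¹ (Subgroup.inclusion hUM u) = Subgroup.inclusion hUM (a⁻¹ u) :=
      Subtype.ext (by
        rw [show ((Subgroup.inclusion hUM (a⁻¹ u) : ↥(normalizerIn T X ⊔ centralizerIn S T)) : Ω) = ((a⁻¹ u : ↥(X ⊔ centralizerIn S T)) : Ω) from rfl, hu]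
        rfl)
    rw [MulAut.mul_apply, MulAut.mul_apply, e1, hm2]
    apply Subtype.ext
    show g * ((b (a⁻¹ u) : ↥(X ⊔ centralizerIn S T)) : Ω) * g⁻¹ = ((a (b (a⁻¹ u)) : ↥(X ⊔ centralizerIn S T)) : Ω)
    rw [hga]

/-- **The step.** -/
theorem step (hS : IsPGroup p S) (hF : F.IsSaturated p) (hT : F.StronglyClosed T) (hXT : X ≤ T)
    (hc : centralizerIn T X ≤ X) (hFN : F.IsFullyNormalized X) {w : MulAut ↥(hat S T)}
    (hw : w ∈ F.autGroup (hat S T)) (hL : LL F T X w) :
    ∃ c ∈ centralizerIn S X, ∃ hN : c ∈ Subgroup.normalizer (hat S T : Set Ω),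
      LL F T (normalizerIn T X) ((normConj c hN)⁻¹ * w) := by
  classical
  obtain ⟨κ, hκ, hκf, hκy⟩ := hL
  have hTS : T ≤ S := hT.1
  have hXS : X ≤ S := hXT.trans hTS
  have hUS : X ⊔ centralizerIn S T ≤ S := sup_le hXS inf_le_left
  have hMS : normalizerIn T X ⊔ centralizerIn S T ≤ S := sup_le (normalizerIn_le.trans hTS) inf_le_left
  have hUM := le_MM X hXS hXT
  have hUFN := isFullyNormalized_sup hT hXT hc hFN
  haveI : Finite ↥(X ⊔ centralizerIn S T) := finite_of_le hUS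
  have hval := val_sup hT hXT hc hw hκ hκf hκy
  set κ' := autOfHom κ (F.injective_of_mem hκ) hval with hκ'd
  have hκ'F : κ' ∈ F.autGroup (X ⊔ centralizerIn S T) := autOfHom_mem hκ hval
  obtain ⟨-, R, hR⟩ := (fullyNormalized_props hS hF hUFN).2
  haveI : Finite (F.autGroup (X ⊔ centralizerIn S T)) := finite_autGroup hUS
  set K := FixK F (le_sup_left : X ≤ X ⊔ centralizerIn S T) with hK
  haveI hKn : K.Normal := FixK_normal hT hXT hc
  obtain ⟨V, hV⟩ := Cfsg.Agent.Lib.Fusion.GroupNormal.isSylowIn_inf R K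
  set H := autInducedBy (normalizerIn S X) (X ⊔ centralizerIn S T) with hH
  set B := BB F (normalizerIn T X) (X ⊔ centralizerIn S T) (normalizerIn T X ⊔ centralizerIn S T) le_sup_left hUM with hB
  have hnorm : H ≤ Subgroup.normalizer (B : Set (MulAut ↥(X ⊔ centralizerIn S T))) := by
    intro a ha
    refine mem_norm_of_conj (fun y hy => conj_mem_BB hT hXT ha hy) (fun y hy => ?_)
    have := conj_mem_BB hT hXT ((H).inv_mem ha) hy
    simpa using this
  have htop := Cfsg.Agent.Lib.Fusion.LiftSys.eq_top_of_sylow_pprime V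
    ((H ⊔ B).comap ((F.autGroup (X ⊔ centralizerIn S T)).subtype.comp K.subtype)) (by
      intro v hv
      have h2 : v ∈ ((R : Subgroup (F.autGroup (X ⊔ centralizerIn S T))) ⊓ K).subgroupOf K := by
        rw [← hV]
        exact hv
      have h3 : (v : F.autGroup (X ⊔ centralizerIn S T)) ∈ (R : Subgroup (F.autGroup (X ⊔ centralizerIn S T))) :=
        (Subgroup.mem_inf.1 (Subgroup.mem_subgroupOf.1 h2)).1
      rw [hR, Subgroup.mem_subgroupOf] at h3
      obtain ⟨s, hs, hsv⟩ := mem_autInducedBy_iff.1 h3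
      refine Subgroup.mem_sup_left (mem_autInducedBy_iff.2 ⟨s, ?_, hsv⟩)
      -- `s` centralizes `X`
      have hsx : ∀ x ∈ X, s * x * s⁻¹ = x := by
        intro x hx
        have h4 := hsv (Subgroup.inclusion le_sup_left ⟨x, hx⟩)
        have h5 : ((v : F.autGroup (X ⊔ centralizerIn S T)) : MulAut ↥(X ⊔ centralizerIn S T))
            (Subgroup.inclusion le_sup_left ⟨x, hx⟩) = Subgroup.inclusion le_sup_left ⟨x, hx⟩ := v.2 ⟨x, hx⟩
        rw [h5] at h4
        exact h4.symm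
      refine ⟨hs, mem_norm_of_conj (fun y hy => ?_) (fun y hy => ?_)⟩
      · rw [hsx y hy]
        exact hy
      · have e : s⁻¹ * y * s = y := by
          conv_lhs => rw [← hsx y hy]
          group
        rw [e]
        exact hy) (fun g hg => by
        refine Subgroup.mem_sup_right ?_
        have hg' : Nat.Coprime (orderOf ((g : F.autGroup (X ⊔ centralizerIn S T)) : MulAut ↥(X ⊔ centralizerIn S T))) p := by
          rwa [Subgroup.orderOf_coe, Subgroup.orderOf_coe]
        obtain ⟨m, hm, hm1, hm2⟩ := exists_ext_pprime hS hF hT hXT hc hFN (g : F.autGroup (X ⊔ centralizerIn S T)).2 g.2 hg'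
        exact ⟨(g : F.autGroup (X ⊔ centralizerIn S T)).2, m, hm, hm1, hm2⟩)
  have hk : (⟨κ', hκ'F⟩ : F.autGroup (X ⊔ centralizerIn S T)) ∈ K := fun x => Subtype.ext (hκf x)
  have hmem : κ' ∈ H ⊔ B := by
    have h1 : (⟨⟨κ', hκ'F⟩, hk⟩ : K) ∈ ((H ⊔ B).comap ((F.autGroup (X ⊔ centralizerIn S T)).subtype.comp K.subtype)) := by
      rw [htop]
      trivial
    exact h1
  obtain ⟨a, ha, b, hb, hab⟩ := Cfsg.Agent.Lib.Fusion.GroupSylow.exists_mul_of_mem_sup hnorm hmem
  obtain ⟨c, hcN, hca⟩ := mem_autInducedBy_iff.1 ha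
  obtain ⟨hbF, m, hm, hm1, hm2⟩ := hb
  have hbx : ∀ x : X, b (Subgroup.inclusion le_sup_left x) = Subgroup.inclusion le_sup_left x := by
    intro x
    have h1 := hm2 (Subgroup.inclusion le_sup_left x)
    have h2 := hm1 (Subgroup.inclusion (le_normalizerIn hXT) x)
    have e : Subgroup.inclusion hUM (Subgroup.inclusion le_sup_left x) =
        Subgroup.inclusion le_sup_left (Subgroup.inclusion (le_normalizerIn hXT) x) := rfl
    rw [e, h2] at h1
    exact Subtype.ext (congrArg (fun z : ↥(normalizerIn T X ⊔ centralizerIn S T) => (z : Ω)) h1).symm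
  have hκa : ∀ u : ↥(X ⊔ centralizerIn S T), κ u = c * ((b u : ↥(X ⊔ centralizerIn S T)) : Ω) * c⁻¹ := by
    intro u
    have h1 : κ' u = a (b u) := by rw [hab]; rfl
    have h2 : κ u = ((a (b u) : ↥(X ⊔ centralizerIn S T)) : Ω) := congrArg (fun z : ↥(X ⊔ centralizerIn S T) => (z : Ω)) h1
    rw [h2, hca]
  have hcC : c ∈ centralizerIn S X := by
    refine ⟨hcN.1, Subgroup.mem_centralizer_iff.2 fun x hx => ?_⟩
    have h1 := hκa (Subgroup.inclusion le_sup_left ⟨x, hx⟩)
    rw [hκf, hbx] at h1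
    have h2 : x = c * x * c⁻¹ := h1
    calc x * c = c * x * c⁻¹ * c := by rw [← h2]
      _ = c * x := by group
  have hN : c ∈ Subgroup.normalizer (hat S T : Set Ω) := norm_sup hT hcN.1 (StronglyClosed.le_normalizer hT hcN.1)
  refine ⟨c, hcC, hN, (normalizerIn T X ⊔ centralizerIn S T).subtype.comp m.toMonoidHom, autGroup_mem_hom hMS hm,
    fun x => ?_, fun y => ?_⟩
  · exact congrArg (fun z : ↥(normalizerIn T X ⊔ centralizerIn S T) => (z : Ω)) (hm1 x)
  · have e2 : (((normalizerIn T X ⊔ centralizerIn S T).subtype.comp m.toMonoidHom) (Subgroup.inclusion le_sup_right y)) =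
        ((b (Subgroup.inclusion le_sup_right y) : ↥(X ⊔ centralizerIn S T)) : Ω) :=
      congrArg (fun z : ↥(normalizerIn T X ⊔ centralizerIn S T) => (z : Ω)) (hm2 (Subgroup.inclusion le_sup_right y))
    have e3 : ((((normConj c hN)⁻¹ * w) (Subgroup.inclusion (cen_le_hat T) y) : ↥(hat S T)) : Ω) =
        c⁻¹ * ((w (Subgroup.inclusion (cen_le_hat T) y) : ↥(hat S T)) : Ω) * c := rfl
    rw [e2, e3]
    have h1 := hκy y
    rw [hκa] at h1
    have h2 := StronglyClosed.conj_mem hT (S.inv_mem hcN.1) h1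
    convert h2 using 1
    group

end Main

end Cfsg.Agent.Lib.Fusion.PResNormal
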