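/-
`O^{p'}` of a weakly normal subsystem, part 3: good lifts of `p`-elements at all `E`-centric subgroups, and the fusion system
over `T` of the maps of `E` having an extension acting trivially on `C_S(T)` modulo `T`.
-/
import Mathlib
import Cfsg.Agent.Lib.Fusion.PResNormal2

set_option autoImplicit false
set_option linter.style.haveILetI false

namespace Cfsg.Agent.Lib.Fusion.PResNormal

open Cfsg Cfsg.FusionSystem Cfsg.Agent.Lib.Fusion.Basic Cfsg.Agent.Lib.Fusion.Saturated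
open Cfsg.Agent.Lib.Fusion.Saturated2 (autOfHom autOfHom_mem)
open Cfsg.Agent.Lib.Fusion.LocalSystems (map_mem_sup_of_ext range_ext_eq)
open Cfsg.Agent.Lib.Fusion.NormalPair
open Cfsg.Agent.Lib.Fusion.NormalCR
open Cfsg.Agent.Lib.Fusion.GoodLift
open Cfsg.Agent.Lib.Fusion.PPrime (KK KK_le_iff mem_KK coreClass)
open Cfsg.Agent.Lib.Fusion.Centric (isCentric_of_le)
open Cfsg.Agent.Lib.Fusion.Subsystem (isCentric_of_isConj)

variable {Ω : Type*} [Group Ω] {S T : Subgroup Ω} {F : FusionSystem S} {E : FusionSystem T}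

section Lift

variable [Finite S] {p : ℕ} [hp : Fact p.Prime]

/-- Transport of a good lift along a map of `F`. -/
theorem lift_of_transport {P P₁ : Subgroup Ω} {χ : ↥(hat S P) →* Ω} {α : MulAut P} {α₁ : MulAut P₁}
    {β₁ : MulAut ↥(hat S P₁)} (hP₁S : P₁ ≤ S) (hom : χ ∈ F.Hom (hat S P))
    (val : ∀ x : P, χ (Subgroup.inclusion (le_hat P) x) ∈ P₁)
    (surj : ∀ y ∈ P₁, ∃ x : P, χ (Subgroup.inclusion (le_hat P) x) = y)
    (conj : ∀ x : P, ((α₁ ⟨_, val x⟩ : P₁) : Ω) = χ (Subgroup.inclusion (le_hat P) (α x)))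
    (good : IsGood F P₁ β₁ α₁) : ∃ ρ : MulAut ↥(hat S P), IsGood F P ρ α := by
  classical
  have hPS : P ≤ S := fun x hx => source_le hom (le_hat P hx)
  have hinj : Function.Injective χ := F.injective_of_mem hom
  have cen_mem : ∀ (c : ↥(hat S P)) (hc : (c : Ω) ∈ centralizerIn S P), χ c ∈ centralizerIn S P₁ :=
    fun c hc => map_cen_mem hom surj c hc
  have val_hat : ∀ u : ↥(hat S P), χ u ∈ hat S P₁ := fun u =>
    map_mem_sup_of_ext χ (fun y => le_hat P₁ (val y)) (fun y => cen_le_hat P₁ (cen_mem _ y.2)) u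
  have exists_zc : ∀ {z : Ω}, z ∈ Zc P₁ → ∃ z₀ : P, (z₀ : Ω) ∈ Zc P ∧ χ (Subgroup.inclusion (le_hat P) z₀) = z := by
    intro z hz
    obtain ⟨x, rfl⟩ := surj z (Zc.left hz)
    refine ⟨x, Subgroup.mem_inf.2 ⟨x.2, Subgroup.mem_centralizer_iff.2 ?_⟩, rfl⟩
    intro u hu
    have h1 := comm_of_mem_cen (Zc.right hz) (val ⟨u, hu⟩)
    have h3 : χ (Subgroup.inclusion (le_hat P) ⟨u, hu⟩ * Subgroup.inclusion (le_hat P) x) =
        χ (Subgroup.inclusion (le_hat P) x * Subgroup.inclusion (le_hat P) ⟨u, hu⟩) := by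
      rw [map_mul, map_mul]
      exact h1
    have h2 := hinj h3
    exact congrArg (fun t : ↥(hat S P) => (t : Ω)) h2
  let χ₁ : ↥(hat S P) →* ↥(hat S P₁) := χ.codRestrict _ val_hat
  have hχ₁ : ∀ u, ((χ₁ u : ↥(hat S P₁)) : Ω) = χ u := fun _ => rfl
  let f : ↥(hat S P) →* Ω := ((hat S P₁).subtype.comp β₁.toMonoidHom).comp χ₁
  have hf : f ∈ F.Hom (hat S P) := F.comp_mem hom (autGroup_mem_hom (hat_le hP₁S) good.mem) val_hat
  have hfv : ∀ u, f u = ((β₁ (χ₁ u) : ↥(hat S P₁)) : Ω) := fun _ => rfl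
  have hfP : ∀ x : P, f (Subgroup.inclusion (le_hat P) x) = χ (Subgroup.inclusion (le_hat P) (α x)) := by
    intro x
    rw [hfv]
    have e : χ₁ (Subgroup.inclusion (le_hat P) x) = Subgroup.inclusion (le_hat P₁) ⟨_, val x⟩ := Subtype.ext rfl
    rw [e, good.res, conj]
  have hfC : ∀ (c : ↥(hat S P)) (hc : (c : Ω) ∈ centralizerIn S P), ∃ z₀ : P, (z₀ : Ω) ∈ Zc P ∧
      f c = χ (c * Subgroup.inclusion (le_hat P) z₀) := by
    intro c hc
    have h1 := good.cen (χ₁ c) (cen_mem c hc)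
    obtain ⟨z₀, hz₀, hz₀e⟩ := exists_zc h1
    refine ⟨z₀, hz₀, ?_⟩
    rw [map_mul, hz₀e, hfv]
    show _ = χ c * ((χ c)⁻¹ * ((β₁ (χ₁ c) : ↥(hat S P₁)) : Ω))
    group
  have hfr : ∀ u, f u ∈ χ.range := by
    intro u
    refine map_mem_sup_of_ext f (fun y => ?_) (fun y => ?_) u
    · rw [hfP]
      exact ⟨_, rfl⟩
    · obtain ⟨z₀, -, h⟩ := hfC (Subgroup.inclusion (cen_le_hat P) y) y.2
      have e : f (Subgroup.inclusion le_sup_right y) = f (Subgroup.inclusion (cen_le_hat P) y) := rfl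
      rw [e, h]
      exact ⟨_, rfl⟩
  obtain ⟨ι, hι, hιr, hι1, hι2⟩ := exists_inv hom (rfl : χ.range = χ.range)
  have hρ₀ : ι.comp (f.codRestrict χ.range hfr) ∈ F.Hom (hat S P) := F.comp_mem hf hι hfr
  set ρ₀ : ↥(hat S P) →* Ω := ι.comp (f.codRestrict χ.range hfr) with hρ₀d
  have hv : ∀ u, ρ₀ u ∈ hat S P := fun u => hιr.le ⟨_, rfl⟩
  haveI := finite_hat (S := S) hPS
  let ρ : MulAut ↥(hat S P) := autOfHom ρ₀ (F.injective_of_mem hρ₀) hv
  have hform : ∀ u, χ (ρ u) = f u := fun u => hι2 ⟨f u, hfr u⟩ (hv u)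
  refine ⟨ρ, ⟨autOfHom_mem hρ₀ hv, fun x => ?_, fun c hc => ?_⟩⟩
  · have h1 := (hform (Subgroup.inclusion (le_hat P) x)).trans (hfP x)
    exact congrArg (fun t : ↥(hat S P) => (t : Ω)) (hinj h1)
  · obtain ⟨z₀, hz₀, h⟩ := hfC c hc
    have h1 := hinj ((hform c).trans h)
    rw [h1]
    simpa using hz₀

/-- **Good lifts of `p`-elements at all `E`-centric subgroups.** -/
theorem exists_good_pelement (hS : IsPGroup p S) (hF : F.IsSaturated p) (hE : E.IsWeaklyNormalIn F p) {P : Subgroup Ω}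
    (hc : E.IsCentric P) {γ : MulAut P} (hγ : γ ∈ E.autGroup P) (hk : ∃ k : ℕ, orderOf γ = p ^ k) :
    ∃ ρ : MulAut ↥(hat S P), IsGood F P ρ γ := by
  classical
  have hinv := hE.2.2
  have hTsc := hinv.2.1
  have hTS : T ≤ S := hTsc.1
  have hPT : P ≤ T := hc.1
  have hPS : P ≤ S := hPT.trans hTS
  obtain ⟨P₁, ⟨χ₀, hχ₀, hr⟩, hFN⟩ := exists_fullyNormalized (F := F) hPS
  have hrec := fullyNormalized_receptive hS hF hFN
  obtain ⟨χ₁, hχ₁, hχ₁a⟩ := hrec.2 P χ₀ hχ₀ hr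
  have hext : hat S P ≤ extender S P χ₀ := sup_centralizerIn_le_extender hPS (map_mem_S hχ₀)
  have hχ := res_mem hχ₁ hext
  have hχP : ∀ x : P, (χ₁.comp (Subgroup.inclusion hext)) (Subgroup.inclusion (le_hat P) x) = χ₀ x :=
    fun x => hχ₁a x x.2 (hext (le_hat P x.2))
  let e : P ≃* P₁ := isoOfRange (F.injective_of_mem hχ₀) hr
  have he : ∀ x : P, ((e x : P₁) : Ω) = χ₀ x := fun _ => rfl
  have hP₁S : P₁ ≤ S := hFN.1
  have hP₁T : P₁ ≤ T := by
    rw [← hr]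
    rintro _ ⟨x, rfl⟩
    exact hTsc.2 P hPT χ₀ hχ₀ x
  have hC := centric_transport hinv hc hχ₀ hr
  obtain ⟨β₁, hβ₁⟩ := isGood_of_pelement hS hF hE hFN hP₁T hC (congr_mem_autGroup hinv hPT hχ₀ e he hγ) (by
    obtain ⟨k, hk⟩ := hk
    exact ⟨k, by rw [← hk]; exact orderOf_injective (MulAut.congr e).toMonoidHom (MulEquiv.injective _) γ⟩)
  have hval : ∀ x : P, (χ₁.comp (Subgroup.inclusion hext)) (Subgroup.inclusion (le_hat P) x) ∈ P₁ := by
    intro x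
    rw [hχP, ← hr]
    exact ⟨x, rfl⟩
  refine lift_of_transport hP₁S hχ hval (fun y hy => ?_) (fun x => ?_) hβ₁
  · rw [← hr] at hy
    obtain ⟨x, rfl⟩ := hy
    exact ⟨x, hχP x⟩
  · have e1 : (⟨(χ₁.comp (Subgroup.inclusion hext)) (Subgroup.inclusion (le_hat P) x), hval x⟩ : P₁) = e x :=
      Subtype.ext (hχP x)
    rw [e1, hχP]
    have e2 : (MulAut.congr e γ) (e x) = e (γ x) := by simp [MulAut.congr_apply]
    rw [e2]
    rfl

end Lift

section System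

/-- A map `φ` on `P` has an extension to `P C_S(T)` acting trivially on `C_S(T)` modulo `T`. -/
def HasExt (F : FusionSystem S) (T P : Subgroup Ω) (φ : P →* Ω) : Prop :=
  ∃ ρ : ↥(P ⊔ centralizerIn S T) →* Ω, ρ ∈ F.Hom (P ⊔ centralizerIn S T) ∧
    (∀ x : P, ρ (Subgroup.inclusion le_sup_left x) = φ x) ∧
    ∀ y : centralizerIn S T, (y : Ω)⁻¹ * ρ (Subgroup.inclusion le_sup_right y) ∈ T

/-- The values on `C_S(T)` of an extension. -/
theorem HasExt.val_mem {P : Subgroup Ω} {φ : P →* Ω} (hφT : ∀ x, φ x ∈ T) (hC : centralizerIn T φ.range ≤ φ.range)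
    {ρ : ↥(P ⊔ centralizerIn S T) →* Ω} (hρ : ∀ x : P, ρ (Subgroup.inclusion le_sup_left x) = φ x)
    {y : centralizerIn S T} (hy : (y : Ω)⁻¹ * ρ (Subgroup.inclusion le_sup_right y) ∈ T) (hPT : P ≤ T) :
    (y : Ω)⁻¹ * ρ (Subgroup.inclusion le_sup_right y) ∈ φ.range := by
  refine hC ⟨hy, Subgroup.mem_centralizer_iff.2 ?_⟩
  rintro _ ⟨x, rfl⟩
  have h1 : Subgroup.inclusion (le_sup_left : P ≤ P ⊔ centralizerIn S T) x * Subgroup.inclusion le_sup_right y =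
      Subgroup.inclusion le_sup_right y * Subgroup.inclusion le_sup_left x :=
    Subtype.ext (comm_of_mem_cen y.2.2 (hPT x.2))
  have h2 := congrArg ρ h1
  rw [map_mul, map_mul, hρ] at h2
  have h3 : φ x * (y : Ω)⁻¹ = (y : Ω)⁻¹ * φ x := comm_of_mem_cen (Subgroup.inv_mem _ y.2.2) (hφT x)
  calc φ x * ((y : Ω)⁻¹ * ρ (Subgroup.inclusion le_sup_right y))
      = (y : Ω)⁻¹ * (φ x * ρ (Subgroup.inclusion le_sup_right y)) := by rw [← mul_assoc, h3, mul_assoc]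
    _ = _ := by rw [h2, mul_assoc]

/-- Composition. -/
theorem HasExt.comp {P Q : Subgroup Ω} {φ : P →* Ω} {ψ : Q →* Ω} (hPT : P ≤ T) (hφT : ∀ x, φ x ∈ T)
    (hC : centralizerIn T φ.range ≤ φ.range) (hψT : ∀ x, ψ x ∈ T) (h1 : HasExt F T P φ) (h2 : HasExt F T Q ψ)
    (h : ∀ x, φ x ∈ Q) : HasExt F T P (ψ.comp (φ.codRestrict Q h)) := by
  obtain ⟨ρ₁, hρ₁, hρ₁x, hρ₁y⟩ := h1
  obtain ⟨ρ₂, hρ₂, hρ₂x, hρ₂y⟩ := h2
  have hle : φ.range ≤ Q := by
    rintro _ ⟨x, rfl⟩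
    exact h x
  have hval : ∀ u, ρ₁ u ∈ Q ⊔ centralizerIn S T := by
    refine map_mem_sup_of_ext ρ₁ (fun x => ?_) (fun y => ?_)
    · rw [hρ₁x]
      exact le_sup_left (a := Q) (h x)
    · have h3 := hle (HasExt.val_mem hφT hC hρ₁x (hρ₁y y) hPT)
      have h4 := (Q ⊔ centralizerIn S T).mul_mem (le_sup_right (a := Q) y.2) (le_sup_left (a := Q) h3)
      simpa using h4
  refine ⟨ρ₂.comp (ρ₁.codRestrict _ hval), F.comp_mem hρ₁ hρ₂ hval, fun x => ?_, fun y => ?_⟩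
  · have e : ρ₁.codRestrict _ hval (Subgroup.inclusion le_sup_left x) = Subgroup.inclusion le_sup_left (⟨φ x, h x⟩ : Q) :=
      Subtype.ext (hρ₁x x)
    show ρ₂ (ρ₁.codRestrict _ hval (Subgroup.inclusion le_sup_left x)) = ψ ⟨φ x, h x⟩
    rw [e, hρ₂x]
  · have h3 := hle (HasExt.val_mem hφT hC hρ₁x (hρ₁y y) hPT)
    set t : Q := ⟨_, h3⟩ with ht
    have e : ρ₁.codRestrict _ hval (Subgroup.inclusion le_sup_right y) =
        Subgroup.inclusion le_sup_right y * Subgroup.inclusion le_sup_left t := by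
      apply Subtype.ext
      show ρ₁ (Subgroup.inclusion le_sup_right y) = (y : Ω) * ((y : Ω)⁻¹ * ρ₁ (Subgroup.inclusion le_sup_right y))
      group
    show (y : Ω)⁻¹ * ρ₂ (ρ₁.codRestrict _ hval (Subgroup.inclusion le_sup_right y)) ∈ T
    rw [e, map_mul, hρ₂x, ← mul_assoc]
    exact T.mul_mem (hρ₂y y) (hψT t)

/-- Inverses. -/
theorem HasExt.inv {P : Subgroup Ω} {φ : P →* Ω} {ψ : φ.range →* Ω} (hPT : P ≤ T) (hφT : ∀ x, φ x ∈ T)
    (hC : centralizerIn T φ.range ≤ φ.range) (hψ : ∀ x : P, ψ ⟨φ x, ⟨x, rfl⟩⟩ = x) (h : HasExt F T P φ) :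
    HasExt F T φ.range ψ := by
  obtain ⟨ρ, hρ, hρx, hρy⟩ := h
  have hval := fun y : centralizerIn S T => HasExt.val_mem hφT hC hρx (hρy y) hPT
  have hr : ρ.range = φ.range ⊔ centralizerIn S T := by
    apply le_antisymm
    · rintro _ ⟨u, rfl⟩
      refine map_mem_sup_of_ext ρ (fun x => ?_) (fun y => ?_) u
      · rw [hρx]
        exact le_sup_left (a := φ.range) ⟨x, rfl⟩
      · have h4 := (φ.range ⊔ centralizerIn S T).mul_mem (le_sup_right (a := φ.range) y.2) (le_sup_left (a := φ.range) (hval y))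
        simpa using h4
    · refine sup_le ?_ (fun y hy => ?_)
      · rintro _ ⟨x, rfl⟩
        exact ⟨_, hρx x⟩
      · obtain ⟨p, hp⟩ := hval ⟨y, hy⟩
        refine ⟨Subgroup.inclusion le_sup_right (⟨y, hy⟩ : centralizerIn S T) * (Subgroup.inclusion le_sup_left p)⁻¹, ?_⟩
        rw [map_mul, map_inv, hρx, hp]
        group
  obtain ⟨ι, hι, hιr, hι1, hι2⟩ := exists_inv hρ hr
  refine ⟨ι, hι, ?_, fun y => ?_⟩
  · rintro ⟨_, x, rfl⟩
    have h1 := hι1 (Subgroup.inclusion le_sup_left x) (by rw [hρx]; exact le_sup_left (a := φ.range) ⟨x, rfl⟩)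
    have e : (⟨ρ (Subgroup.inclusion le_sup_left x), by rw [hρx]; exact le_sup_left (a := φ.range) ⟨x, rfl⟩⟩ :
        ↥(φ.range ⊔ centralizerIn S T)) = Subgroup.inclusion le_sup_left (⟨φ x, ⟨x, rfl⟩⟩ : φ.range) := Subtype.ext (hρx x)
    rw [e] at h1
    rw [h1, hψ]
    rfl
  · obtain ⟨p, hp⟩ := hval y
    have e0 : ρ (Subgroup.inclusion le_sup_right y * (Subgroup.inclusion le_sup_left p)⁻¹) = y := by
      rw [map_mul, map_inv, hρx, hp]
      group
    have e0' : ρ (Subgroup.inclusion le_sup_right y * (Subgroup.inclusion le_sup_left p)⁻¹) ∈ φ.range ⊔ centralizerIn S T := by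
      rw [e0]
      exact le_sup_right (a := φ.range) y.2
    have h1 := hι1 _ e0'
    have e : (⟨_, e0'⟩ : ↥(φ.range ⊔ centralizerIn S T)) = Subgroup.inclusion le_sup_right y := Subtype.ext e0
    rw [e] at h1
    rw [h1]
    show (y : Ω)⁻¹ * ((y : Ω) * (p : Ω)⁻¹) ∈ T
    simpa using T.inv_mem (hPT p.2)

/-- The fusion system over `T` of the maps of `E` with an extension, when the source is `E`-centric. -/
def GSys (F : FusionSystem S) (E : FusionSystem T) (hTS : T ≤ S) : FusionSystem T where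
  Hom P := {φ | φ ∈ E.Hom P ∧ (E.IsCentric P → HasExt F T P φ)}
  le_of_mem h := E.le_of_mem h.1
  injective_of_mem h := E.injective_of_mem h.1
  conj_mem := by
    intro P g hP hg
    refine ⟨E.conj_mem hP hg, fun _ => ⟨conjHom _ g, F.conj_mem (sup_le (hP.trans hTS) inf_le_left) (hTS hg),
      fun x => rfl, fun y => ?_⟩⟩
    have h : g * (y : Ω) = y * g := comm_of_mem_cen y.2.2 hg
    show (y : Ω)⁻¹ * (g * y * g⁻¹) ∈ T
    rw [h]
    simp
  comp_mem := by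
    rintro P Q φ ψ ⟨hφ, hφe⟩ ⟨hψ, hψe⟩ h
    refine ⟨E.comp_mem hφ hψ h, fun hc => ?_⟩
    have h1 : E.IsCentric φ.range := isCentric_of_isConj hc ⟨φ, hφ, rfl⟩
    have hle : φ.range ≤ Q := by
      rintro _ ⟨x, rfl⟩
      exact h x
    have h2 : E.IsCentric Q := isCentric_of_le h1 hle (source_le hψ)
    exact HasExt.comp hc.1 (map_mem_S hφ) (hc.2 _ ⟨φ, hφ, rfl⟩) (map_mem_S hψ) (hφe hc) (hψe h2) h
  inv_mem := by
    rintro P φ ⟨hφ, hφe⟩
    obtain ⟨ψ, hψ, hx⟩ := E.inv_mem hφ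
    refine ⟨ψ, ⟨hψ, fun hc => ?_⟩, hx⟩
    have hr : ψ.range = P := by
      apply le_antisymm
      · rintro _ ⟨⟨_, x, rfl⟩, rfl⟩
        rw [hx]
        exact x.2
      · intro x hx'
        exact ⟨_, hx ⟨x, hx'⟩⟩
    have hcP : E.IsCentric P := isCentric_of_isConj hc ⟨ψ, hψ, hr⟩
    exact HasExt.inv hcP.1 (map_mem_S hφ) (hcP.2 _ ⟨φ, hφ, rfl⟩) hx (hφe hcP)

variable [Finite S] {p : ℕ} [hp : Fact p.Prime]

/-- The fusion system `GSys` contains `O^{p'}(Aut_E(R))` for `R` `E`-centric. -/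
theorem GSys_mem_coreClass (hS : IsPGroup p S) (hF : F.IsSaturated p) (hE : E.IsWeaklyNormalIn F p) (hTS : T ≤ S) :
    GSys F E hTS ∈ coreClass E p := by
  intro R hR
  rw [KK_le_iff]
  intro α hα hk
  have hRT : R ≤ T := hR.1
  have hRS : R ≤ S := hRT.trans hTS
  obtain ⟨ρ, hρ⟩ := exists_good_pelement hS hF hE hR hα hk
  refine mem_autGroup_of_mem ⟨autGroup_mem_hom hRT hα, fun _ => ?_⟩
  have hle : R ⊔ centralizerIn S T ≤ hat S R := sup_le_sup_left (cen_mono hRT) _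
  refine ⟨((hat S R).subtype.comp ρ.toMonoidHom).comp (Subgroup.inclusion hle),
    res_mem (autGroup_mem_hom (hat_le hRS) hρ.mem) hle, fun x => hρ.res x, fun y => ?_⟩
  have h1 := hρ.cen (Subgroup.inclusion (cen_le_hat R) ⟨y, cen_mono hRT y.2⟩) (cen_mono hRT y.2)
  exact hRT (Zc.left h1)

end System

end Cfsg.Agent.Lib.Fusion.PResNormal
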