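/-
The `p'`-residual subsystem acts on a normal subgroup through the subgroup generated by the `p`-elements.  A saturated
system with the hyperfocal subgroup equal to `S` acts through the subgroup generated by the `p'`-elements.
-/
import Mathlib
import Cfsg.Agent.Lib.Fusion.ResidSeries5
import Cfsg.Agent.Lib.Fusion.Centric
import Cfsg.Agent.Lib.Fusion.Focal

set_option autoImplicit false

namespace Cfsg.Agent.Lib.Fusion.ResidSeries

open Cfsg Cfsg.FusionSystem Cfsg.Agent.Lib.Fusion.Basic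
open Cfsg.Agent.Lib.Fusion.Joins (exists_hom_of_eq isNormal_core)
open Cfsg.Agent.Lib.Fusion.IsoTr (image_sup)
open Cfsg.Agent.Lib.Fusion.PPrime
open Cfsg.Agent.Lib.Fusion.Saturated (finite_autGroup fullyNormalized_props)

variable {Ω : Type*} [Group Ω] {S : Subgroup Ω}

theorem mem_sup_of_map {P Q R R' : Subgroup Ω} {ψ : ↥(P ⊔ R) →* Ω} (h1 : ∀ x : P, ψ (Subgroup.inclusion le_sup_left x) ∈ Q)
    (h2 : ∀ r : R, ψ (Subgroup.inclusion le_sup_right r) ∈ R') (x : ↥(P ⊔ R)) : ψ x ∈ Q ⊔ R' := by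
  have h := image_sup (θ := ψ) (A := P) (B := R) le_sup_left le_sup_right
  have hx : ψ x ∈ imageAlong ψ (P ⊔ R) := ⟨x, x.2, rfl⟩
  rw [h] at hx
  have hle : imageAlong ψ P ⊔ imageAlong ψ R ≤ Q ⊔ R' := by
    refine sup_le_sup ?_ ?_
    · rintro _ ⟨z, hz, rfl⟩
      exact h1 ⟨z, hz⟩
    · rintro _ ⟨z, hz, rfl⟩
      exact h2 ⟨z, hz⟩
  exact hle hx

/-- The system of maps extending to `P R` with restriction to `R` in `K`. -/
def sysK (F : FusionSystem S) {R : Subgroup Ω} (hR : F.IsNormal R) (K : Subgroup (MulAut R))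
    (hK : ∀ (g : Ω) (hg : g ∈ Subgroup.normalizer (R : Set Ω)), g ∈ S → normConj g hg ∈ K) : FusionSystem S where
  Hom P := {φ | ∃ ψ ∈ F.Hom (P ⊔ R), (∀ x : P, ψ (Subgroup.inclusion le_sup_left x) = φ x) ∧
    ∃ a ∈ K, ∀ r : R, ψ (Subgroup.inclusion le_sup_right r) = a r}
  le_of_mem := by
    rintro P φ ⟨ψ, hψ, he, -⟩
    obtain ⟨h1, h2⟩ := F.le_of_mem hψ
    exact ⟨le_sup_left.trans h1, fun x => by rw [← he]; exact h2 _⟩
  injective_of_mem := by
    rintro P φ ⟨ψ, hψ, he, -⟩ x y hxy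
    rw [← he, ← he] at hxy
    exact Subgroup.inclusion_injective _ (F.injective_of_mem hψ hxy)
  conj_mem := by
    intro P g hP hg
    have hW : P ⊔ R ≤ S := sup_le hP hR.1
    have hgN : g ∈ Subgroup.normalizer (R : Set Ω) :=
      NormalCR.StronglyClosed.le_normalizer (NormalCR.IsNormal.stronglyClosed hR) hg
    exact ⟨conjHom (P ⊔ R) g, F.conj_mem hW hg, fun x => rfl, normConj g hgN, hK g hgN hg, fun r => rfl⟩
  comp_mem := by
    rintro P Q φ χ ⟨ψ₁, hψ₁, he₁, a₁, ha₁, hr₁⟩ ⟨ψ₂, hψ₂, he₂, a₂, ha₂, hr₂⟩ h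
    have hv : ∀ x, ψ₁ x ∈ Q ⊔ R := mem_sup_of_map (fun x => by rw [he₁]; exact h x)
      (fun r => by rw [hr₁]; exact (a₁ r).2)
    refine ⟨ψ₂.comp (ψ₁.codRestrict _ hv), F.comp_mem hψ₁ hψ₂ hv, fun x => ?_, a₂ * a₁, K.mul_mem ha₂ ha₁, fun r => ?_⟩
    · have e : ψ₁.codRestrict _ hv (Subgroup.inclusion le_sup_left x) =
          Subgroup.inclusion (le_sup_left : Q ≤ Q ⊔ R) (φ.codRestrict Q h x) := Subtype.ext (he₁ x)
      show ψ₂ (ψ₁.codRestrict _ hv (Subgroup.inclusion le_sup_left x)) = χ (φ.codRestrict Q h x)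
      rw [e, he₂]
    · have e : ψ₁.codRestrict _ hv (Subgroup.inclusion le_sup_right r) =
          Subgroup.inclusion (le_sup_right : R ≤ Q ⊔ R) (a₁ r) := Subtype.ext (hr₁ r)
      show ψ₂ (ψ₁.codRestrict _ hv (Subgroup.inclusion le_sup_right r)) = ((a₂ (a₁ r) : R) : Ω)
      rw [e, hr₂]
  inv_mem := by
    rintro P φ ⟨ψ, hψ, he, a, ha, hr⟩
    have hrange : ψ.range = φ.range ⊔ R := by
      have h := image_sup (θ := ψ) (A := P) (B := R) le_sup_left le_sup_right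
      have h1 : imageAlong ψ (P ⊔ R) = ψ.range := by
        unfold imageAlong
        rw [Subgroup.subgroupOf_self, ← MonoidHom.range_eq_map]
      have h2 : imageAlong ψ P = φ.range := by
        ext y
        constructor
        · rintro ⟨⟨z, hz⟩, hzP, rfl⟩
          exact ⟨⟨z, hzP⟩, (he ⟨z, hzP⟩).symm⟩
        · rintro ⟨x, rfl⟩
          exact ⟨Subgroup.inclusion le_sup_left x, x.2, he x⟩
      have h3 : imageAlong ψ R = R := by
        ext y
        constructor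
        · rintro ⟨⟨z, hz⟩, hzP, rfl⟩
          have := hr ⟨z, hzP⟩
          have e : (⟨z, hz⟩ : ↥(P ⊔ R)) = Subgroup.inclusion le_sup_right ⟨z, hzP⟩ := rfl
          rw [e, this]
          exact (a _).2
        · intro hy
          refine ⟨Subgroup.inclusion le_sup_right (a⁻¹ ⟨y, hy⟩), (a⁻¹ ⟨y, hy⟩ : R).2, ?_⟩
          rw [hr]
          show ((a (a⁻¹ ⟨y, hy⟩) : R) : Ω) = y
          simp
      rw [← h1, h, h2, h3]
    obtain ⟨σ, hσ, hσe⟩ := F.inv_mem hψ
    obtain ⟨χ, hχ, hχe⟩ := exists_hom_of_eq F hrange σ hσ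
    refine ⟨χ.comp (Subgroup.inclusion le_sup_left), ⟨χ, hχ, fun y => rfl, a⁻¹, K.inv_mem ha, fun r => ?_⟩, fun x => ?_⟩
    · have hm : ψ (Subgroup.inclusion le_sup_right (a⁻¹ r)) = r := by
        rw [hr]
        show ((a (a⁻¹ r) : R) : Ω) = r
        simp
      have hr1 : (r : Ω) ∈ ψ.range := ⟨_, hm⟩
      have h1 := hχe r hr1 ((le_sup_right : R ≤ φ.range ⊔ R) r.2)
      refine h1.trans ?_
      have e : (⟨r, hr1⟩ : ψ.range) = ⟨ψ (Subgroup.inclusion le_sup_right (a⁻¹ r)), ⟨_, rfl⟩⟩ := Subtype.ext hm.symm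
      rw [e, hσe]
      rfl
    · have hmx : φ x = ψ (Subgroup.inclusion le_sup_left x) := (he x).symm
      have hr1 : φ x ∈ ψ.range := ⟨_, hmx.symm⟩
      have h1 := hχe (φ x) hr1 ((le_sup_left : φ.range ≤ φ.range ⊔ R) ⟨x, rfl⟩)
      show χ ⟨φ x, _⟩ = x
      refine h1.trans ?_
      have e : (⟨φ x, hr1⟩ : ψ.range) = ⟨ψ (Subgroup.inclusion le_sup_left x), ⟨_, rfl⟩⟩ := Subtype.ext hmx
      rw [e, hσe]
      rfl

section

variable {F : FusionSystem S} {R : Subgroup Ω} {hR : F.IsNormal R} {K : Subgroup (MulAut R)}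
  {hK : ∀ (g : Ω) (hg : g ∈ Subgroup.normalizer (R : Set Ω)), g ∈ S → normConj g hg ∈ K}

theorem autGroup_sysK_le {α : MulAut R} (hα : α ∈ (sysK F hR K hK).autGroup R) : α ∈ K := by
  obtain ⟨ψ, hψ, he, a, ha, hr⟩ := (mem_autGroup_iff hR.1).1 hα
  have : α = a := by
    ext r
    have h1 := he r
    have h2 := hr r
    exact h1.symm.trans h2
  rwa [this]

variable [Finite S] {p : ℕ} [hp : Fact p.Prime]

theorem sysK_mem_coreClass (hK' : ∀ b ∈ F.autGroup R, (∃ k : ℕ, orderOf b = p ^ k) → b ∈ K) :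
    sysK F hR K hK ∈ coreClass F p := by
  intro Q hQ
  rw [KK_le_iff]
  intro α hα hk
  obtain ⟨γ, hγ, he, b, hb, hr, hbk⟩ := exists_aut_sup_ppow hQ.1 hR hα hk
  exact mem_autGroup_of_mem ⟨(Q ⊔ R).subtype.comp γ.toMonoidHom, autGroup_mem_hom (sup_le hQ.1 hR.1) hγ, he,
    b, hK' b hb hbk, hr⟩

theorem gamma0_le_sysK (hS : IsPGroup p S) (hF : F.IsSaturated p)
    (hK' : ∀ b ∈ F.autGroup R, (∃ k : ℕ, orderOf b = p ^ k) → b ∈ K) :
    gamma0 F p ≤ (sysK F hR K hK).autGroup S := by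
  refine (Subgroup.closure_le _).2 ?_
  rintro β ⟨hβ, Q, hQ, hres⟩
  obtain ⟨ψ, hψ, he, a, ha, hr⟩ := coreSys_le (sysK_mem_coreClass (hR := hR) (hK := hK) hK') Q hres
  have hW : Q ⊔ R ≤ S := sup_le hQ.1 hR.1
  have hβW := resA_mem hβ hW
  obtain ⟨z, hzQ, hzC, hz⟩ := Centric.eq_comp_conj_of_agree hS hF (le_sup_left : Q ≤ Q ⊔ R) hQ hβW hψ (by
    intro x hx
    have h1 := he ⟨x, hx⟩
    have e : Subgroup.inclusion le_sup_left (⟨x, hx⟩ : Q) = x := rfl
    rw [e] at h1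
    rw [h1]
    rfl)
  have hzS : (z : Ω) ∈ S := hW z.2
  have hzN : (z : Ω) ∈ Subgroup.normalizer (R : Set Ω) :=
    NormalCR.StronglyClosed.le_normalizer (NormalCR.IsNormal.stronglyClosed hR) hzS
  obtain ⟨ψ', hψ', hψ'e⟩ := exists_hom_of_eq F (sup_eq_left.2 hR.1).symm (S.subtype.comp β.toMonoidHom)
    (autGroup_mem_hom le_rfl hβ)
  refine mem_autGroup_of_mem ⟨ψ', hψ', fun x => ?_, a * (normConj (z : Ω) hzN)⁻¹,
    K.mul_mem ha (K.inv_mem (hK _ hzN hzS)), fun r => ?_⟩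
  · exact hψ'e x x.2 _
  · have h0 := hψ'e r (hR.1 r.2) ((le_sup_right : R ≤ S ⊔ R) r.2)
    refine Eq.trans h0 ?_
    -- the element `r₁ = z⁻¹ r z`
    set r₁ : R := (normConj (z : Ω) hzN)⁻¹ r with hr₁
    have hr₁z : (z : Ω) * r₁ * (z : Ω)⁻¹ = r := by
      have h1 : ((normConj (z : Ω) hzN r₁ : R) : Ω) = r := by
        rw [hr₁]
        simp
      rw [← h1]
      rfl
    have h2 := hz (Subgroup.inclusion le_sup_right r₁)
    rw [hr r₁] at h2
    have e2 : z * Subgroup.inclusion le_sup_right r₁ * z⁻¹ = ⟨(r : Ω), (le_sup_right : R ≤ Q ⊔ R) r.2⟩ := Subtype.ext hr₁z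
    rw [e2] at h2
    exact h2.symm

theorem residSys_le_sysK (hS : IsPGroup p S) (hF : F.IsSaturated p)
    (hK' : ∀ b ∈ F.autGroup R, (∃ k : ℕ, orderOf b = p ^ k) → b ∈ K) : residSys F p ≤ sysK F hR K hK :=
  prodSys_le (coreSys_le (sysK_mem_coreClass (hR := hR) (hK := hK) hK')) (gamma0_le_sysK hS hF hK')

end

variable [Finite S] {p : ℕ} [hp : Fact p.Prime]

/-- Elements of `Aut_S(R)` have `p`-power order. -/
theorem exists_orderOf_normConj (hS : IsPGroup p S) {R : Subgroup Ω} {g : Ω} (hg : g ∈ S)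
    (hN : g ∈ Subgroup.normalizer (R : Set Ω)) : ∃ k : ℕ, orderOf (normConj g hN) = p ^ k := by
  obtain ⟨n, hn⟩ := isPGroup_autInducedBy hS R ⟨normConj g hN, normConj_mem_autInducedBy hg hN⟩
  have h1 : orderOf (⟨normConj g hN, normConj_mem_autInducedBy hg hN⟩ : autInducedBy S R) ∣ p ^ n :=
    orderOf_dvd_of_pow_eq_one hn
  rw [Subgroup.orderOf_mk] at h1
  obtain ⟨t, -, ht⟩ := (Nat.dvd_prime_pow hp.out).1 h1
  exact ⟨t, ht⟩

/-- **The `p'`-residual subsystem acts through the subgroup generated by `p`-elements.** -/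
theorem autGroup_residSys_le (hS : IsPGroup p S) {F : FusionSystem S} (hF : F.IsSaturated p) {R : Subgroup Ω}
    (hR : F.IsNormal R) : (residSys F p).autGroup R ≤ (pElts p (F.autGroup R)).map (F.autGroup R).subtype := by
  have hK' : ∀ b ∈ F.autGroup R, (∃ k : ℕ, orderOf b = p ^ k) → b ∈ (pElts p (F.autGroup R)).map (F.autGroup R).subtype := by
    rintro b hb ⟨k, hk⟩
    refine ⟨⟨b, hb⟩, Subgroup.subset_closure ⟨k, ?_⟩, rfl⟩
    rw [Subgroup.orderOf_mk]
    exact hk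
  have hK : ∀ (g : Ω) (hg : g ∈ Subgroup.normalizer (R : Set Ω)), g ∈ S →
      normConj g hg ∈ (pElts p (F.autGroup R)).map (F.autGroup R).subtype := by
    intro g hg hgS
    exact hK' _ (autInducedBy_le_autGroup hR.1 (normConj_mem_autInducedBy hgS hg)) (exists_orderOf_normConj hS hgS hg)
  intro α hα
  refine autGroup_sysK_le (hR := hR) (hK := hK) ?_
  exact autGroup_mono (residSys_le_sysK hS hF hK') R hα

end Cfsg.Agent.Lib.Fusion.ResidSeries
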