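/-
`O^{p'}` of a weakly normal subsystem, part 4: the induction, and good lifts of the elements of `Γ⁰(E)`.
-/
import Mathlib
import Cfsg.Agent.Lib.Fusion.PResNormal3
import Cfsg.Agent.Lib.Fusion.ResidSeries6

set_option autoImplicit false
set_option linter.style.haveILetI false

namespace Cfsg.Agent.Lib.Fusion.PResNormal

open Cfsg Cfsg.FusionSystem Cfsg.Agent.Lib.Fusion.Basic Cfsg.Agent.Lib.Fusion.Saturated
open Cfsg.Agent.Lib.Fusion.Saturated2 (autOfHom autOfHom_mem)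
open Cfsg.Agent.Lib.Fusion.LocalSystems (map_mem_sup_of_ext range_ext_eq)
open Cfsg.Agent.Lib.Fusion.NormalPair
open Cfsg.Agent.Lib.Fusion.NormalCR
open Cfsg.Agent.Lib.Fusion.GoodLift
open Cfsg.Agent.Lib.Fusion.PPrime (KK KK_le_iff mem_KK coreClass coreSys coreSys_le exists_prod_coreSys gamma0 gammaGens resA resA_mem)
open Cfsg.Agent.Lib.Fusion.Centric (isCentric_of_le)
open Cfsg.Agent.Lib.Fusion.Subsystem (isCentric_of_isConj)

variable {Ω : Type*} [Group Ω] {S T : Subgroup Ω} {F : FusionSystem S} {E : FusionSystem T}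

section Group

variable {G : Type*} [Group G]

/-- `c` normalizes `L`, `w ∈ L`, `c ^ n = 1`: then `(c w) ^ n ∈ L`. -/
theorem pow_mul_mem_of_normalizes {L : Subgroup G} {c w : G} (hc : ∀ z ∈ L, c * z * c⁻¹ ∈ L) (hw : w ∈ L) {n : ℕ}
    (hn : c ^ n = 1) : (c * w) ^ n ∈ L := by
  have hcn : ∀ k : ℕ, ∀ z ∈ L, c ^ k * z * (c ^ k)⁻¹ ∈ L := by
    intro k
    induction k with
    | zero => intro z hz; simpa using hz
    | succ k ih =>
      intro z hz
      have h1 := ih _ (hc z hz)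
      have e : c ^ (k + 1) * z * (c ^ (k + 1))⁻¹ = c ^ k * (c * z * c⁻¹) * (c ^ k)⁻¹ := by
        rw [pow_succ]
        group
      rw [e]
      exact h1
  have key : ∀ k : ℕ, (c * w) ^ k * (c ^ k)⁻¹ ∈ L := by
    intro k
    induction k with
    | zero => simp
    | succ k ih =>
      have h1 := hcn (k + 1) w hw
      have e : (c * w) ^ (k + 1) * (c ^ (k + 1))⁻¹ = ((c * w) ^ k * (c ^ k)⁻¹) * (c ^ (k + 1) * w * (c ^ (k + 1))⁻¹) := by
        rw [pow_succ (c * w), pow_succ c]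
        group
      rw [e]
      exact L.mul_mem ih h1
  have h := key n
  rw [hn] at h
  simpa using h

end Group

section Main

variable [Finite S] {p : ℕ} [hp : Fact p.Prime]

theorem hcT (T : Subgroup Ω) : centralizerIn T T ≤ T := inf_le_left

/-- The conjugation by `c` normalizing `Q` normalizes `LSub` at `Q`. -/
theorem conj_mem_LSub (hT : F.StronglyClosed T) {Q : Subgroup Ω} (hQT : Q ≤ T) (hc : centralizerIn T Q ≤ Q) {c : Ω}
    (hcS : c ∈ S) (hcQ : c ∈ Subgroup.normalizer (Q : Set Ω)) (hN : c ∈ Subgroup.normalizer (hat S T : Set Ω))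
    {w : MulAut ↥(hat S T)} (hw : w ∈ LSub F hT Q hQT hc) :
    normConj c hN * w * (normConj c hN)⁻¹ ∈ LSub F hT Q hQT hc := by
  have hTS := hT.1
  have haF : normConj c hN ∈ F.autGroup (hat S T) := autInducedBy_le_autGroup (hat_le hTS) (normConj_mem_autInducedBy hcS hN)
  refine ⟨(F.autGroup _).mul_mem ((F.autGroup _).mul_mem haF hw.1) ((F.autGroup _).inv_mem haF), ?_⟩
  refine LL.transport hT hQT hc hQT hc haF (F.conj_mem (sup_le (hQT.trans hTS) inf_le_left) hcS) (fun x => ?_)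
    (fun y hy => ?_) (fun y => ?_) hw.1 hw.2
  · exact (Subgroup.mem_normalizer_iff.1 hcQ x).1 x.2
  · have h1 : c⁻¹ * y * c ∈ Q := by
      have := (Subgroup.mem_normalizer_iff.1 (Subgroup.inv_mem _ hcQ) y).1 hy
      simpa using this
    refine ⟨⟨_, h1⟩, ?_⟩
    show c * (c⁻¹ * y * c) * c⁻¹ = y
    group
  · show (c * (y : Ω) * c⁻¹)⁻¹ * (c * y * c⁻¹) ∈ T
    rw [inv_mul_cancel]
    exact T.one_mem

/-- The subgroup `LSub` at `T` is normalized by `Aut_F(T C_S(T))`. -/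
theorem conj_mem_NN (hT : F.StronglyClosed T) {a : MulAut ↥(hat S T)} (ha : a ∈ F.autGroup (hat S T))
    {w : MulAut ↥(hat S T)} (hw : w ∈ LSub F hT T le_rfl (hcT T)) : a * w * a⁻¹ ∈ LSub F hT T le_rfl (hcT T) := by
  have hTS := hT.1
  refine ⟨(F.autGroup _).mul_mem ((F.autGroup _).mul_mem ha hw.1) ((F.autGroup _).inv_mem ha), ?_⟩
  refine LL.transport hT le_rfl (hcT T) le_rfl (hcT T) ha (autGroup_mem_hom (hat_le hTS) ha) (fun x => ?_)
    (fun y hy => ?_) (fun y => ?_) hw.1 hw.2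
  · exact w_mem_T hT ha _ x.2
  · have h1 := w_mem_T hT ((F.autGroup _).inv_mem ha) (Subgroup.inclusion (le_hat T) ⟨y, hy⟩) hy
    refine ⟨⟨_, h1⟩, ?_⟩
    have e : Subgroup.inclusion le_sup_left (⟨_, h1⟩ : T) = a⁻¹ (Subgroup.inclusion (le_hat T) ⟨y, hy⟩) := Subtype.ext rfl
    show ((a (Subgroup.inclusion le_sup_left (⟨_, h1⟩ : T)) : ↥(hat S T)) : Ω) = y
    rw [e]
    simp
  · show ((a (Subgroup.inclusion (cen_le_hat T) y) : ↥(hat S T)) : Ω)⁻¹ * ((a (Subgroup.inclusion (cen_le_hat T) y) : ↥(hat S T)) : Ω) ∈ T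
    simp

/-- **The induction.** For `Q` `E`-centric, an element `w` of `Aut_F(T C_S(T))` with the relation at `Q` has a `p`-power
power with the relation at `T`. -/
theorem main_ind (hS : IsPGroup p S) (hF : F.IsSaturated p) (hE : E.IsWeaklyNormalIn F p) (hT : F.StronglyClosed T) (n : ℕ) :
    ∀ (Q : Subgroup Ω), E.IsCentric Q → Nat.card T - Nat.card Q < n →
      ∀ w : MulAut ↥(hat S T), w ∈ F.autGroup (hat S T) → LL F T Q w →
      ∃ k : ℕ, w ^ (p ^ k) ∈ LSub F hT T le_rfl (hcT T) := by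
  classical
  induction n with
  | zero => intro Q _ h; exact absurd h (Nat.not_lt_zero _)
  | succ n ih =>
    intro Q hQ hn w hw hL
    obtain ⟨hEs, -, hinv⟩ := hE
    have hTS : T ≤ S := hT.1
    haveI : Finite T := finite_of_le hTS
    have hTp : IsPGroup p T := isPGroup_of_le hS hTS
    have hQT : Q ≤ T := hQ.1
    have hQS : Q ≤ S := hQT.trans hTS
    have hcQ : centralizerIn T Q ≤ Q := hQ.2 Q (Basic.IsConj.refl hQT)
    by_cases hQe : Q = T
    · subst hQe
      refine ⟨0, ?_⟩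
      rw [pow_zero, pow_one]
      exact ⟨hw, hL⟩
    obtain ⟨X, ⟨χ₀, hχ₀, hr⟩, hFN⟩ := exists_fullyNormalized (F := F) hQS
    have hXT : X ≤ T := by
      rw [← hr]
      rintro _ ⟨x, rfl⟩
      exact hT.2 Q hQT χ₀ hχ₀ x
    have hXc : E.IsCentric X := isCentric_transport hinv hQ hχ₀ hr
    have hcX : centralizerIn T X ≤ X := hXc.2 X (Basic.IsConj.refl hXT)
    -- the decomposition of `χ₀`
    obtain ⟨a₀, ha₀, φ₂, hφ₂, hag⟩ := hinv.2.2.2 Q hQT χ₀ hχ₀
    obtain ⟨a₁, ha₁, φ₃, hφ₃, hag'⟩ := exists_prod_coreSys hTp hEs hφ₂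
    have ha₁F : a₁ ∈ F.autGroup T := autGroup_le_of_subsystem hinv.1 T ha₁
    have hagg : ∀ x : Q, χ₀ x = (((a₀ * a₁) ⟨φ₃ x, map_mem_S hφ₃ x⟩ : T) : Ω) := by
      intro x
      rw [hag x (map_mem_S hφ₂ x)]
      have e : (⟨φ₂ x, map_mem_S hφ₂ x⟩ : T) = a₁ ⟨φ₃ x, map_mem_S hφ₃ x⟩ := Subtype.ext (hag' x (map_mem_S hφ₃ x))
      rw [e]
      rfl
    have hG := coreSys_le (GSys_mem_coreClass hS hF ⟨hEs, hF, hinv⟩ hTS) Q hφ₃
    obtain ⟨ρ, hρ, hρx, hρy⟩ := hG.2 hQ
    obtain ⟨a, ha, hax⟩ := exists_ext hS hF (isFullyNormalized_of_stronglyClosed hT)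
      ((F.autGroup T).mul_mem ha₀ ha₁F)
    -- the map `ψ = a ∘ ρ`
    have hρv : ∀ u, ρ u ∈ hat S T := by
      refine map_mem_sup_of_ext ρ (fun x => ?_) (fun y => ?_)
      · rw [hρx]
        exact le_hat T (map_mem_S hφ₃ x)
      · have h1 := (hat S T).mul_mem (cen_le_hat T y.2) (le_hat T (hρy y))
        simpa using h1
    have hψ := F.comp_mem hρ (autGroup_mem_hom (hat_le hTS) ha) hρv
    set ψ : ↥(Q ⊔ centralizerIn S T) →* Ω := ((hat S T).subtype.comp a.toMonoidHom).comp (ρ.codRestrict _ hρv) with hψd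
    have hψx : ∀ x : Q, ψ (Subgroup.inclusion le_sup_left x) = χ₀ x := by
      intro x
      have e : ρ.codRestrict _ hρv (Subgroup.inclusion le_sup_left x) =
          Subgroup.inclusion (le_hat T) (⟨φ₃ x, map_mem_S hφ₃ x⟩ : T) := Subtype.ext (hρx x)
      show ((a (ρ.codRestrict _ hρv (Subgroup.inclusion le_sup_left x)) : ↥(hat S T)) : Ω) = _
      rw [e, hax, hagg]
    have haw : a * w * a⁻¹ ∈ F.autGroup (hat S T) :=
      (F.autGroup _).mul_mem ((F.autGroup _).mul_mem ha hw) ((F.autGroup _).inv_mem ha)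
    have hL' : LL F T X (a * w * a⁻¹) := by
      refine LL.transport hT hQT hcQ hXT hcX ha hψ (fun x => ?_) (fun y hy => ?_) (fun y => ?_) hw hL
      · rw [hψx, ← hr]
        exact ⟨x, rfl⟩
      · rw [← hr] at hy
        obtain ⟨x, rfl⟩ := hy
        exact ⟨x, hψx x⟩
      · have e : ρ.codRestrict _ hρv (Subgroup.inclusion le_sup_right y) =
            Subgroup.inclusion (cen_le_hat T) y * Subgroup.inclusion (le_hat T) (⟨_, hρy y⟩ : T) := by
          apply Subtype.ext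
          show ρ (Subgroup.inclusion le_sup_right y) = (y : Ω) * ((y : Ω)⁻¹ * ρ (Subgroup.inclusion le_sup_right y))
          group
        show ((a (Subgroup.inclusion (cen_le_hat T) y) : ↥(hat S T)) : Ω)⁻¹ *
          ((a (ρ.codRestrict _ hρv (Subgroup.inclusion le_sup_right y)) : ↥(hat S T)) : Ω) ∈ T
        rw [e, map_mul, Subgroup.coe_mul, ← mul_assoc]
        simp only [inv_mul_cancel, one_mul]
        rw [hax]
        exact ((a₀ * a₁) _).2
    obtain ⟨c, hcC, hN, hL₁⟩ := step hS hF hT hXT hcX hFN haw hL'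
    have hcS : c ∈ S := hcC.1
    have hcXN : c ∈ Subgroup.normalizer (X : Set Ω) := by
      have := centralizerIn_le_normalizerIn hcC
      exact this.2
    set c' := normConj c hN with hc'd
    have hc'F : c' ∈ F.autGroup (hat S T) := autInducedBy_le_autGroup (hat_le hTS) (normConj_mem_autInducedBy hcS hN)
    have hX₁c : E.IsCentric (normalizerIn T X) := isCentric_of_le hXc (le_normalizerIn hXT) normalizerIn_le
    have hX₁T : normalizerIn T X ≤ T := normalizerIn_le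
    have hcX₁ : centralizerIn T (normalizerIn T X) ≤ normalizerIn T X := hX₁c.2 _ (Basic.IsConj.refl hX₁T)
    have hw₁ : c'⁻¹ * (a * w * a⁻¹) ∈ LSub F hT (normalizerIn T X) hX₁T hcX₁ :=
      ⟨(F.autGroup _).mul_mem ((F.autGroup _).inv_mem hc'F) haw, hL₁⟩
    obtain ⟨j, hj⟩ := Cfsg.Agent.Lib.Fusion.ResidSeries.exists_orderOf_normConj hS hcS hN
    have hcpow : c' ^ (p ^ j) = 1 := by
      rw [← hj]
      exact pow_orderOf_eq_one _
    have h1 := pow_mul_mem_of_normalizes (L := LSub F hT (normalizerIn T X) hX₁T hcX₁) (c := c')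
      (fun z hz => conj_mem_LSub hT hX₁T hcX₁ hcS (norm_normalizerIn hT hcS hcXN) hN hz) hw₁ hcpow
    have e1 : c' * (c'⁻¹ * (a * w * a⁻¹)) = a * w * a⁻¹ := by group
    rw [e1] at h1
    -- cardinalities
    have hXne : X ≠ T := by
      intro h
      apply hQe
      have hc1 : Nat.card Q = Nat.card X := card_eq_of_range hχ₀ hr
      refine Subgroup.eq_of_le_of_card_ge hQT ?_
      rw [hc1, h]
    have hlt : X < normalizerIn T X := Cfsg.Agent.Lib.Fusion.Saturated2.lt_normalizerIn hTp (lt_of_le_of_ne hXT hXne)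
    have hcardQ : Nat.card Q = Nat.card X := card_eq_of_range hχ₀ hr
    haveI : Finite (normalizerIn T X) := finite_of_le normalizerIn_le
    have hc1 : Nat.card X < Nat.card (normalizerIn T X) := by
      by_contra hcon
      exact hlt.ne (Subgroup.eq_of_le_of_card_ge hlt.le (not_lt.1 hcon))
    have hc2 : Nat.card (normalizerIn T X) ≤ Nat.card T := Subgroup.card_le_of_le hX₁T
    have hn' : Nat.card T - Nat.card (normalizerIn T X) < n := by omega
    obtain ⟨k, hk⟩ := ih _ hX₁c hn' _ h1.1 h1.2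
    refine ⟨j + k, ?_⟩
    have h2 := conj_mem_NN hT ((F.autGroup _).inv_mem ha) hk
    have e2 : a⁻¹ * ((a * w * a⁻¹) ^ p ^ j) ^ p ^ k * a⁻¹⁻¹ = w ^ p ^ (j + k) := by
      rw [← pow_mul, ← pow_add, conj_pow]
      group
    rwa [e2] at h2

end Main

end Cfsg.Agent.Lib.Fusion.PResNormal
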