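/-
`O^{p'}` of a weakly normal subsystem, part 5: good lifts of the elements of `Γ⁰(E)`, invariance under `Aut_F(T)`, and the
`p'`-residual subsystem of a weakly normal subsystem is normal.
-/
import Mathlib
import Cfsg.Agent.Lib.Fusion.PResNormal4

set_option autoImplicit false
set_option linter.style.haveILetI false

namespace Cfsg.Agent.Lib.Fusion.PResNormal

open Cfsg Cfsg.FusionSystem Cfsg.Agent.Lib.Fusion.Basic Cfsg.Agent.Lib.Fusion.Saturated
open Cfsg.Agent.Lib.Fusion.Saturated2 (autOfHom autOfHom_mem)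
open Cfsg.Agent.Lib.Fusion.LocalSystems (map_mem_sup_of_ext range_ext_eq)
open Cfsg.Agent.Lib.Fusion.NormalPair
open Cfsg.Agent.Lib.Fusion.NormalCR
open Cfsg.Agent.Lib.Fusion.GoodLift
open Cfsg.Agent.Lib.Fusion.PPrime
open Cfsg.Agent.Lib.Fusion.SatCrit (imgOf mem_imgOf imgOf_le)
open Cfsg.Agent.Lib.Fusion.Centric (isCentric_of_le)
open Cfsg.Agent.Lib.Fusion.Subsystem (isCentric_of_isConj)

variable {Ω : Type*} [Group Ω] {S T : Subgroup Ω} {F : FusionSystem S} {E : FusionSystem T}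

section Main

variable [Finite S] {p : ℕ} [hp : Fact p.Prime]

/-- An element of `LSub` at `T` yields a good lift. -/
theorem isGood_of_NN (hT : F.StronglyClosed T) {W : MulAut ↥(hat S T)} (hW : W ∈ LSub F hT T le_rfl (hcT T)) {α : MulAut T}
    (hres : ∀ x : T, ((W⁻¹ (Subgroup.inclusion (le_hat T) x) : ↥(hat S T)) : Ω) = α x) : ∃ β, IsGood F T β α := by
  classical
  obtain ⟨hWF, κ, hκ, hκf, hκy⟩ := hW
  have hTS := hT.1
  have hval := val_sup hT le_rfl (hcT T) hWF hκ hκf hκy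
  haveI := finite_hat (S := S) hTS
  set κ' := autOfHom κ (F.injective_of_mem hκ) hval with hκ'd
  have hκ'F : κ' ∈ F.autGroup (hat S T) := autOfHom_mem hκ hval
  refine ⟨W⁻¹ * κ', (F.autGroup _).mul_mem ((F.autGroup _).inv_mem hWF) hκ'F, fun x => ?_, fun c hc => ?_⟩
  · have e : κ' (Subgroup.inclusion (le_hat T) x) = Subgroup.inclusion (le_hat T) x := Subtype.ext (hκf x)
    rw [MulAut.mul_apply, e, hres]
  · set y : centralizerIn S T := ⟨c, hc⟩ with hy
    have ec : c = Subgroup.inclusion (cen_le_hat T) y := rfl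
    have ht := hκy y
    rw [← ec] at ht
    have hWc : ((W c : ↥(hat S T)) : Ω) ∈ centralizerIn S T := w_mem_Y hT hWF c hc
    set t : Ω := ((W c : ↥(hat S T)) : Ω)⁻¹ * κ c with htd
    have htC : t ∈ Subgroup.centralizer (T : Set Ω) := by
      refine Subgroup.mul_mem _ (Subgroup.inv_mem _ hWc.2) (Subgroup.mem_centralizer_iff.2 fun s hs => ?_)
      have h1 : Subgroup.inclusion (le_hat T) (⟨s, hs⟩ : T) * c = c * Subgroup.inclusion (le_hat T) (⟨s, hs⟩ : T) :=
        Subtype.ext (comm_of_mem_cen hc.2 hs)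
      have h2 := congrArg κ h1
      rw [map_mul, map_mul] at h2
      rw [show κ (Subgroup.inclusion (le_hat T) (⟨s, hs⟩ : T)) = s from hκf ⟨s, hs⟩] at h2
      exact h2
    have e1 : κ' c = W c * Subgroup.inclusion (le_hat T) (⟨t, ht⟩ : T) := by
      apply Subtype.ext
      show κ c = ((W c : ↥(hat S T)) : Ω) * (((W c : ↥(hat S T)) : Ω)⁻¹ * κ c)
      group
    have e2 : (W⁻¹ * κ') c = c * W⁻¹ (Subgroup.inclusion (le_hat T) (⟨t, ht⟩ : T)) := by
      rw [MulAut.mul_apply, e1, map_mul]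
      simp
    rw [e2, Subgroup.coe_mul, inv_mul_cancel_left]
    have hWiT := w_mem_T hT ((F.autGroup _).inv_mem hWF) (Subgroup.inclusion (le_hat T) (⟨t, ht⟩ : T)) ht
    refine Subgroup.mem_inf.2 ⟨hWiT, Subgroup.mem_centralizer_iff.2 fun s hs => ?_⟩
    have hWs := w_mem_T hT hWF (Subgroup.inclusion (le_hat T) (⟨s, hs⟩ : T)) hs
    have h1 : W (Subgroup.inclusion (le_hat T) (⟨s, hs⟩ : T)) * Subgroup.inclusion (le_hat T) (⟨t, ht⟩ : T) =
        Subgroup.inclusion (le_hat T) (⟨t, ht⟩ : T) * W (Subgroup.inclusion (le_hat T) (⟨s, hs⟩ : T)) :=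
      Subtype.ext (comm_of_mem_cen htC hWs)
    have h2 : (W⁻¹ : MulAut ↥(hat S T)) (W (Subgroup.inclusion (le_hat T) (⟨s, hs⟩ : T)) * Subgroup.inclusion (le_hat T) (⟨t, ht⟩ : T)) =
        (W⁻¹ : MulAut ↥(hat S T)) (Subgroup.inclusion (le_hat T) (⟨t, ht⟩ : T) * W (Subgroup.inclusion (le_hat T) (⟨s, hs⟩ : T))) := by
      rw [h1]
    rw [map_mul, map_mul] at h2
    simp only [MulAut.inv_apply_self] at h2
    exact congrArg (fun z : ↥(hat S T) => (z : Ω)) h2

/-- **The generators of `Γ⁰(E)` have good lifts.** -/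
theorem gen_mem_goodGroup (hS : IsPGroup p S) (hF : F.IsSaturated p) (hE : E.IsWeaklyNormalIn F p) (hT : F.StronglyClosed T)
    {β : MulAut T} (hβ : β ∈ gammaGens E p) : β ∈ goodGroup F T hT.1 := by
  classical
  obtain ⟨hβE, R, hR, hres⟩ := hβ
  obtain ⟨hEs, -, hinv⟩ := id hE
  have hTS : T ≤ S := hT.1
  haveI : Finite T := finite_of_le hTS
  have hRT : R ≤ T := hR.1
  have hG := coreSys_le (GSys_mem_coreClass hS hF hE hTS) R hres
  obtain ⟨ρ, hρ, hρx, hρy⟩ := hG.2 hR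
  have hTFN : F.IsFullyNormalized T := isFullyNormalized_of_stronglyClosed hT
  have hβF : β ∈ F.autGroup T := autGroup_le_of_subsystem hinv.1 T hβE
  obtain ⟨b, hb, hbx⟩ := exists_ext hS hF hTFN hβF
  have hρv : ∀ u, ρ u ∈ hat S T := by
    refine map_mem_sup_of_ext ρ (fun x => ?_) (fun y => ?_)
    · rw [hρx]
      exact le_hat T (β ⟨x, hRT x.2⟩).2
    · have h1 := (hat S T).mul_mem (cen_le_hat T y.2) (le_hat T (hρy y))
      simpa using h1
  have hbi : b⁻¹ ∈ F.autGroup (hat S T) := (F.autGroup _).inv_mem hb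
  have hL : LL F T R b⁻¹ := by
    refine ⟨((hat S T).subtype.comp (b⁻¹).toMonoidHom).comp (ρ.codRestrict _ hρv),
      F.comp_mem hρ (autGroup_mem_hom (hat_le hTS) hbi) hρv, fun x => ?_, fun y => ?_⟩
    · have e : ρ.codRestrict _ hρv (Subgroup.inclusion le_sup_left x) =
          b (Subgroup.inclusion (le_hat T) (⟨x, hRT x.2⟩ : T)) := by
        apply Subtype.ext
        rw [hbx]
        exact hρx x
      show ((b⁻¹ (ρ.codRestrict _ hρv (Subgroup.inclusion le_sup_left x)) : ↥(hat S T)) : Ω) = x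
      rw [e]
      simp
    · have e : ρ.codRestrict _ hρv (Subgroup.inclusion le_sup_right y) =
          Subgroup.inclusion (cen_le_hat T) y * Subgroup.inclusion (le_hat T) (⟨_, hρy y⟩ : T) := by
        apply Subtype.ext
        show ρ (Subgroup.inclusion le_sup_right y) = (y : Ω) * ((y : Ω)⁻¹ * ρ (Subgroup.inclusion le_sup_right y))
        group
      show ((b⁻¹ (Subgroup.inclusion (cen_le_hat T) y) : ↥(hat S T)) : Ω)⁻¹ *
        ((b⁻¹ (ρ.codRestrict _ hρv (Subgroup.inclusion le_sup_right y)) : ↥(hat S T)) : Ω) ∈ T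
      rw [e, map_mul, Subgroup.coe_mul, ← mul_assoc]
      simp only [inv_mul_cancel, one_mul]
      exact w_mem_T hT hbi _ (hρy y)
  haveI : Finite R := finite_of_le (hRT.trans hTS)
  obtain ⟨k, hk⟩ := main_ind hS hF hE hT (Nat.card T + 1) R hR (by omega) _ hbi hL
  -- the power of `β`
  have hpow : ∀ (m : ℕ) (x : T), ((b ^ m) (Subgroup.inclusion (le_hat T) x) : ↥(hat S T)) = Subgroup.inclusion (le_hat T) ((β ^ m) x) := by
    intro m
    induction m with
    | zero => intro x; rfl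
    | succ m ih =>
      intro x
      rw [pow_succ', pow_succ', MulAut.mul_apply, MulAut.mul_apply, ih]
      exact Subtype.ext (hbx _)
  have h1 : β ^ (p ^ k) ∈ goodGroup F T hTS := by
    refine isGood_of_NN hT hk (fun x => ?_)
    have e : ((b⁻¹) ^ p ^ k)⁻¹ = b ^ p ^ k := by
      rw [inv_pow, inv_inv]
    rw [e, hpow]
    rfl
  -- the other part
  haveI : Finite (MulAut T) := inferInstance
  obtain ⟨e, m, hm, he⟩ := Nat.exists_eq_pow_mul_and_not_dvd (orderOf_pos β).ne' p hp.out.ne_one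
  have hm0 : m ≠ 0 := fun h => hm (h ▸ dvd_zero p)
  have hord : orderOf (β ^ m) = p ^ e := by
    rw [orderOf_pow' β hm0, he, Nat.gcd_mul_left_left]
    simp [Nat.mul_div_cancel _ (Nat.pos_of_ne_zero hm0)]
  have h2 : β ^ m ∈ goodGroup F T hTS :=
    isGood_of_pelement hS hF hE hTFN le_rfl (hcT T) ((E.autGroup T).pow_mem hβE m) ⟨e, hord⟩
  have hco : Nat.Coprime (p ^ k) m := Nat.Coprime.pow_left k ((Nat.Prime.coprime_iff_not_dvd hp.out).2 hm)
  have hbez := Nat.gcd_eq_gcd_ab (p ^ k) m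
  rw [hco] at hbez
  have e3 : β = (β ^ (p ^ k)) ^ (Nat.gcdA (p ^ k) m) * (β ^ m) ^ (Nat.gcdB (p ^ k) m) := by
    rw [← zpow_natCast, ← zpow_natCast, ← zpow_mul, ← zpow_mul, ← zpow_add, ← hbez]
    simp
  rw [e3]
  exact (goodGroup F T hTS).mul_mem ((goodGroup F T hTS).zpow_mem h1 _) ((goodGroup F T hTS).zpow_mem h2 _)

/-- **The group `Γ⁰(E)` consists of automorphisms with good lifts.** -/
theorem gamma0_le_goodGroup (hS : IsPGroup p S) (hF : F.IsSaturated p) (hE : E.IsWeaklyNormalIn F p) (hT : F.StronglyClosed T) :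
    gamma0 E p ≤ goodGroup F T hT.1 :=
  (Subgroup.closure_le _).2 fun _ hβ => gen_mem_goodGroup hS hF hE hT hβ

end Main

section Inv

/-- The class of `E` is stable under transport by `Aut_F(T)`. -/
theorem conjSys_mem_coreClass' [Finite S] {p : ℕ} (hinv : E.IsInvariantIn F) {G : FusionSystem T} (hG : G ∈ coreClass E p)
    {α : MulAut T} (hα : α ∈ F.autGroup T) : conjSys G α ∈ coreClass E p := by
  intro R hR
  rw [KK_le_iff]
  intro γ hγ hk
  have hRT := hR.1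
  have hTS : T ≤ S := hinv.2.1.1
  have hm : resA α hRT ∈ F.Hom R := res_mem (autGroup_mem_hom hTS hα) hRT
  have hinj := F.injective_of_mem hm
  let e := isoOfRange hinj (range_resA α hRT)
  have he : ∀ x : R, ((e x : imgOf α R) : Ω) = resA α hRT x := fun x => rfl
  have hγ' : MulAut.congr e γ ∈ E.autGroup (imgOf α R) := congr_mem_autGroup hinv hRT hm e he hγ
  have hk' : ∃ k : ℕ, orderOf (MulAut.congr e γ) = p ^ k := by
    obtain ⟨k, hk⟩ := hk
    refine ⟨k, ?_⟩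
    rw [← hk]
    exact orderOf_injective (MulAut.congr e).toMonoidHom (MulEquiv.injective _) γ
  have hR' : E.IsCentric (imgOf α R) := isCentric_transport hinv hR hm (range_resA α hRT)
  have h1 := hG _ hR' (mem_KK hγ' hk')
  refine mem_autGroup_of_mem ⟨hRT, fun x => hRT (γ x).2, _, autGroup_mem_hom (imgOf_le α R) h1, ?_⟩
  intro a b ha hb hab
  have e1 : (⟨((α a : T) : Ω), hb⟩ : imgOf α R) = e ⟨a, ha⟩ := Subtype.ext rfl
  show (((MulAut.congr e γ) ⟨((α a : T) : Ω), hb⟩ : imgOf α R) : Ω) = _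
  rw [e1]
  have e2 : (MulAut.congr e γ) (e ⟨a, ha⟩) = e (γ ⟨a, ha⟩) := by
    simp [MulAut.congr_apply]
  rw [e2]
  have e3 : (⟨((γ ⟨a, ha⟩ : R) : Ω), hRT (γ ⟨a, ha⟩).2⟩ : T) = b := Subtype.ext hab
  show ((α ⟨((γ ⟨a, ha⟩ : R) : Ω), hRT (γ ⟨a, ha⟩).2⟩ : T) : Ω) = _
  rw [e3]

theorem coreSys_inv' [Finite S] {p : ℕ} (hinv : E.IsInvariantIn F) : IsInvUnder (coreSys E p) (F.autGroup T) := by
  intro β hβ P φ hφ G hG
  obtain ⟨hP, hv, χ, hχ, hc⟩ := hφ (conjSys G β) (conjSys_mem_coreClass' hinv hG hβ)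
  rwa [← hc.eq_conjMap hP]

/-- `Γ⁰` is normalized by `Aut_F(T)`. -/
theorem gamma0_conj' [Finite S] {p : ℕ} (hinv : E.IsInvariantIn F) {α : MulAut T} (hα : α ∈ F.autGroup T) {β : MulAut T}
    (hβ : β ∈ gamma0 E p) : α * β * α⁻¹ ∈ gamma0 E p := by
  induction hβ using Subgroup.closure_induction with
  | mem β hβ =>
    obtain ⟨hβF, R, hR, hres⟩ := hβ
    have hTS : T ≤ S := hinv.2.1.1
    have hm : resA α hR.1 ∈ F.Hom R := res_mem (autGroup_mem_hom hTS hα) hR.1
    have hconj : α * β * α⁻¹ ∈ E.autGroup T := by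
      have h := congr_mem_autGroup hinv (le_refl T) (autGroup_mem_hom hTS hα) α (fun _ => rfl) hβF
      convert h using 1
      ext x
      simp [MulAut.congr_apply]
    refine Subgroup.subset_closure ⟨hconj, imgOf α R, isCentric_transport hinv hR hm (range_resA α hR.1), ?_⟩
    have h1 := coreSys_inv' hinv α hα R _ hres
    convert h1 using 1
    ext y
    have hyS : (y : Ω) ∈ T := imgOf_le α R y.2
    set t : T := α⁻¹ ⟨y, hyS⟩ with ht
    have hty : α t = ⟨y, hyS⟩ := by simp [ht]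
    have h2 : ((α * β * α⁻¹) ⟨y, hyS⟩ : T) = α (β t) := rfl
    have h3 : (t : Ω) ∈ R := (mem_imgOf (⟨y, hyS⟩ : T)).1 y.2
    have hb : ((α t : T) : Ω) ∈ imgOf α R := by
      have e0 : ((α t : T) : Ω) = y := congrArg (fun z : T => (z : Ω)) hty
      rw [e0]
      exact y.2
    have h4 := isConjBy_conjMap α (resA β hR.1) (map_mem_S hres) t (β t) h3 hb rfl
    have e : y = ⟨α t, hb⟩ := Subtype.ext (congrArg (fun z : T => (z : Ω)) hty).symm
    rw [resA_apply]
    show (((α * β * α⁻¹) ⟨y, hyS⟩ : T) : Ω) = _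
    rw [h2, e]
    exact h4.symm
  | one => simp
  | mul x y _ _ hx hy =>
    have e : α * (x * y) * α⁻¹ = (α * x * α⁻¹) * (α * y * α⁻¹) := by group
    rw [e]
    exact (gamma0 E p).mul_mem hx hy
  | inv x _ hx =>
    have e : α * x⁻¹ * α⁻¹ = (α * x * α⁻¹)⁻¹ := by group
    rw [e]
    exact (gamma0 E p).inv_mem hx

/-- The residual system is invariant under `Aut_F(T)`. -/
theorem residSys_inv' [Finite S] {p : ℕ} (hinv : E.IsInvariantIn F) : IsInvUnder (residSys E p) (F.autGroup T) := by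
  rintro α hα P φ ⟨β, hβ, φ₀, hφ₀, he⟩
  refine ⟨α * β * α⁻¹, gamma0_conj' hinv hα hβ, conjMap α φ₀ (map_mem_S hφ₀), coreSys_inv' hinv α hα P φ₀ hφ₀, ?_⟩
  intro y hy
  have e1 : (⟨conjMap α φ₀ (map_mem_S hφ₀) y, hy⟩ : T) = α ⟨φ₀ (backTo α P y), map_mem_S hφ₀ _⟩ := rfl
  rw [e1]
  have hv : ∀ x : P, φ x ∈ T := by
    intro x
    rw [he x (map_mem_S hφ₀ x)]
    exact (β _).2
  have e2 : φ.codRestrict T hv (backTo α P y) = β ⟨φ₀ (backTo α P y), map_mem_S hφ₀ _⟩ :=
    Subtype.ext (he _ (map_mem_S hφ₀ _))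
  show ((α (φ.codRestrict T hv (backTo α P y)) : T) : Ω) = ((α (β (α⁻¹ (α ⟨φ₀ (backTo α P y), map_mem_S hφ₀ _⟩))) : T) : Ω)
  rw [e2]
  simp

end Inv

section Final

variable [Finite S] {p : ℕ} [hp : Fact p.Prime]

/-- **The `p'`-residual subsystem of a weakly normal subsystem is normal.** -/
theorem isNormalIn_residSys' (hS : IsPGroup p S) (hF : F.IsSaturated p) (hE : E.IsWeaklyNormalIn F p) :
    (residSys E p).IsNormalIn F p := by
  obtain ⟨hEs, -, hinv⟩ := id hE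
  have hT : F.StronglyClosed T := hinv.2.1
  have hTS : T ≤ S := hT.1
  haveI : Finite T := finite_of_le hTS
  have hTp : IsPGroup p T := isPGroup_of_le hS hTS
  refine ⟨⟨residSys_saturated hTp hEs, hF, fun P => (residSys_le E p P).trans (hinv.1 P), hT, ?_, ?_⟩, ?_⟩
  · intro P hPT φ hφ α hα
    have h1 := residSys_inv' hinv α hα P φ hφ
    have hle2 : (P.subgroupOf T).map (T.subtype.comp α.toMonoidHom) ≤ imgOf α P :=
      (Cfsg.Agent.Lib.Fusion.PPowerNormal.imgOf_eq_map α P).ge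
    refine ⟨_, res_mem h1 hle2, fun x hφx hαx => ?_⟩
    exact isConjBy_conjMap α φ (map_mem_S hφ) ⟨x, hPT x.2⟩ ⟨φ x, hφx⟩ x.2 (hle2 hαx) rfl
  · intro P hPT φ hφ
    obtain ⟨a₀, ha₀, φ₂, hφ₂, hag⟩ := hinv.2.2.2 P hPT φ hφ
    obtain ⟨a₁, ha₁, φ₃, hφ₃, hag'⟩ := (residSys_main hTp hEs).2.1 P φ₂ hφ₂
    refine ⟨a₀ * a₁, (F.autGroup T).mul_mem ha₀ (autGroup_le_of_subsystem hinv.1 T ha₁), φ₃, hφ₃, fun x hx => ?_⟩
    rw [hag x (map_mem_S hφ₂ x)]
    have e : (⟨φ₂ x, map_mem_S hφ₂ x⟩ : T) = a₁ ⟨φ₃ x, hx⟩ := Subtype.ext (hag' x hx)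
    rw [e]
    rfl
  · intro α hα
    have hαE : α ∈ E.autGroup T := autGroup_mono (residSys_le E p) T hα
    have hTc : E.IsCentric T := by
      refine ⟨le_rfl, fun Q hQ => ?_⟩
      have hQT := Basic.IsConj.le_right hQ
      have hc := Basic.IsConj.card_eq hQ
      have hQe : Q = T := Subgroup.eq_of_le_of_card_ge hQT (le_of_eq hc)
      subst hQe
      exact inf_le_left
    have hg : α ∈ gamma0 E p := mem_gamma0_of_res hαE hTc (autGroup_mem_hom le_rfl hα |> fun h => h)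
    obtain ⟨β, hβ⟩ := gamma0_le_goodGroup hS hF hE hT hg
    exact ⟨β, hβ.mem, hβ.res, hβ.cen⟩

end Final

end Cfsg.Agent.Lib.Fusion.PResNormal
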