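/-
A constrained system with `p`-soluble automizer has a terminating chain of residual subsystems.
-/
import Mathlib
import Cfsg.Agent.Lib.Fusion.ResidSeries6
import Cfsg.Agent.Lib.Fusion.ModelLocal
import Cfsg.Agent.Lib.Fusion.PTheta5

set_option autoImplicit false

namespace Cfsg.Agent.Lib.Fusion.ResidSeries

open Cfsg Cfsg.FusionSystem Cfsg.Agent.Lib.Fusion.Basic
open Cfsg.Agent.Lib.Fusion.Joins (exists_hom_of_eq isNormal_core)
open Cfsg.Agent.Lib.Fusion.PPrime
open Cfsg.Agent.Lib.Fusion.Saturated (finite_autGroup fullyNormalized_props)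

variable {Ω : Type*} [Group Ω] {S : Subgroup Ω}

/-- Conjugation action on a strongly closed subgroup. -/
noncomputable def kappa {E : FusionSystem S} {R : Subgroup Ω} (hsc : E.StronglyClosed R) : S →* MulAut R where
  toFun s := normConj (s : Ω) (NormalCR.StronglyClosed.le_normalizer hsc s.2)
  map_one' := by
    ext r
    simp
  map_mul' a b := by
    ext r
    simp [mul_assoc]

@[simp] theorem kappa_apply {E : FusionSystem S} {R : Subgroup Ω} (hsc : E.StronglyClosed R) (s : S) (r : R) :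
    ((kappa hsc s r : R) : Ω) = s * r * (s : Ω)⁻¹ := rfl

theorem kappa_mem {E : FusionSystem S} {R : Subgroup Ω} (hsc : E.StronglyClosed R) (s : S) :
    kappa hsc s ∈ E.autGroup R :=
  autInducedBy_le_autGroup hsc.1 (normConj_mem_autInducedBy s.2 (NormalCR.StronglyClosed.le_normalizer hsc s.2))

section i

variable [Finite S] {p : ℕ} [hp : Fact p.Prime]

/-- For `u ∈ U` and a `p'`-automorphism `α` of `U`, the action of `u⁻¹ α(u)` on a normal subgroup `R` lies in `O^p(Aut_E(R))`. -/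
theorem kappa_diff_mem {E : FusionSystem S} {R : Subgroup Ω} (hR : E.IsNormal R) {U : Subgroup Ω} (hU : U ≤ S)
    {α : MulAut U} (hα : α ∈ E.autGroup U) (hc : Nat.Coprime (orderOf α) p) (u : U) (h : (u : Ω)⁻¹ * (α u : U) ∈ S) :
    kappa (NormalCR.IsNormal.stronglyClosed hR) ⟨_, h⟩ ∈
      (pResidual p (E.autGroup R)).map (E.autGroup R).subtype := by
  have hsc := NormalCR.IsNormal.stronglyClosed hR
  obtain ⟨γ, hγ, he, b, hb, hr, hbc⟩ := exists_aut_sup_coprime hU hR hα hc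
  have huS : (u : Ω) ∈ S := hU u.2
  have hαS : ((α u : U) : Ω) ∈ S := hU (α u).2
  have h1 : kappa hsc ⟨(α u : U), hαS⟩ = b * kappa hsc ⟨u, huS⟩ * b⁻¹ := by
    ext r
    set r₁ : R := b⁻¹ r with hr₁
    have e0 : ((b r₁ : R) : Ω) = r := by
      rw [hr₁]
      simp
    have e1 : (kappa hsc ⟨u, huS⟩ r₁ : R) = ⟨u * r₁ * (u : Ω)⁻¹, (kappa hsc ⟨u, huS⟩ r₁ : R).2⟩ := rfl
    show (α u : Ω) * r * ((α u : U) : Ω)⁻¹ = ((b (kappa hsc ⟨u, huS⟩ r₁) : R) : Ω)
    rw [← hr (kappa hsc ⟨u, huS⟩ r₁)]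
    have e2 : Subgroup.inclusion (le_sup_right : R ≤ U ⊔ R) (kappa hsc ⟨u, huS⟩ r₁) =
        Subgroup.inclusion le_sup_left u * Subgroup.inclusion le_sup_right r₁ *
          (Subgroup.inclusion le_sup_left u)⁻¹ := Subtype.ext rfl
    rw [e2, map_mul, map_mul, map_inv]
    have e3 := he u
    have e4 := hr r₁
    show (α u : Ω) * r * ((α u : U) : Ω)⁻¹ = ((γ (Subgroup.inclusion le_sup_left u) : ↥(U ⊔ R)) : Ω) *
      ((γ (Subgroup.inclusion le_sup_right r₁) : ↥(U ⊔ R)) : Ω) *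
      ((γ (Subgroup.inclusion le_sup_left u) : ↥(U ⊔ R)) : Ω)⁻¹
    rw [e3, e4, e0]
  have h2 : (⟨_, h⟩ : S) = ⟨u, huS⟩⁻¹ * ⟨(α u : U), hαS⟩ := rfl
  rw [h2, map_mul, map_inv, h1]
  have hbK : b ∈ (pResidual p (E.autGroup R)).map (E.autGroup R).subtype :=
    ⟨⟨b, hb⟩, Subgroup.subset_closure (by
      show Nat.Coprime (orderOf (⟨b, hb⟩ : E.autGroup R)) p
      rw [Subgroup.orderOf_mk]
      exact hbc), rfl⟩
  have hku := kappa_mem hsc (⟨u, huS⟩ : S)
  have hconj : (kappa hsc ⟨u, huS⟩)⁻¹ * b * kappa hsc ⟨u, huS⟩ ∈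
      (pResidual p (E.autGroup R)).map (E.autGroup R).subtype := by
    obtain ⟨b', hb', hbe⟩ := hbK
    refine ⟨(⟨kappa hsc ⟨u, huS⟩, hku⟩ : E.autGroup R)⁻¹ * b' * ⟨kappa hsc ⟨u, huS⟩, hku⟩, ?_, ?_⟩
    · have := (Transfer.Basic.pResidual_normal p (E.autGroup R)).conj_mem b' hb'
        (⟨kappa hsc ⟨u, huS⟩, hku⟩ : E.autGroup R)⁻¹
      simpa using this
    · rw [← hbe]
      rfl
  have e5 : (kappa hsc ⟨u, huS⟩)⁻¹ * (b * kappa hsc ⟨u, huS⟩ * b⁻¹) =
      ((kappa hsc ⟨u, huS⟩)⁻¹ * b * kappa hsc ⟨u, huS⟩) * b⁻¹ := by group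
  rw [e5]
  exact Subgroup.mul_mem _ hconj (Subgroup.inv_mem _ hbK)

/-- The hyperfocal subgroup acts on a normal subgroup through `O^p`. -/
theorem kappa_hyperfocal_mem {E : FusionSystem S} {R : Subgroup Ω} (hR : E.IsNormal R) {s : S}
    (hs : (s : Ω) ∈ E.hyperfocalSubgroup p) :
    kappa (NormalCR.IsNormal.stronglyClosed hR) s ∈ (pResidual p (E.autGroup R)).map (E.autGroup R).subtype := by
  have hsc := NormalCR.IsNormal.stronglyClosed hR
  set K := (pResidual p (E.autGroup R)).map (E.autGroup R).subtype with hK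
  let S₁ : Subgroup Ω := (K.comap (kappa hsc)).map S.subtype
  suffices h : E.hyperfocalSubgroup p ≤ S₁ by
    obtain ⟨t, ht, hte⟩ := h hs
    have : t = s := Subtype.ext hte
    rw [← this]
    exact ht
  refine (Subgroup.closure_le _).2 ?_
  rintro _ ⟨U, α, x, hU, hα, rfl⟩
  have key : ∀ (u : U), (u : Ω)⁻¹ * (((α : MulAut U) u : U) : Ω) ∈ S₁ := by
    have hmem : ∀ (β : E.autGroup U), β ∈ pResidual p (E.autGroup U) →
        ∀ (u : U), (u : Ω)⁻¹ * (((β : MulAut U) u : U) : Ω) ∈ S₁ := by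
      intro β hβ
      induction hβ using Subgroup.closure_induction with
      | mem y hy =>
        intro u
        have hy' : Nat.Coprime (orderOf (y : MulAut U)) p := by
          rw [Subgroup.orderOf_coe]
          exact hy
        have hmS : (u : Ω)⁻¹ * (((y : MulAut U) u : U) : Ω) ∈ S :=
          S.mul_mem (S.inv_mem (hU u.2)) (hU (Subtype.property _))
        exact ⟨⟨_, hmS⟩, kappa_diff_mem hR hU y.2 hy' u hmS, rfl⟩
      | one =>
        intro u
        have e : (u : Ω)⁻¹ * (((1 : E.autGroup U) : MulAut U) u : U) = 1 := by simp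
        rw [e]
        exact S₁.one_mem
      | mul a b _ _ ha hb =>
        intro u
        have e : (u : Ω)⁻¹ * (((a * b : E.autGroup U) : MulAut U) u : U) =
            ((u : Ω)⁻¹ * (((b : MulAut U) u : U) : Ω)) *
              ((((b : MulAut U) u : U) : Ω)⁻¹ * (((a : MulAut U) ((b : MulAut U) u) : U) : Ω)) := by
          show _ = _
          rw [show (((a * b : E.autGroup U) : MulAut U) u : U) = (a : MulAut U) ((b : MulAut U) u) from rfl]
          group
        rw [e]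
        exact S₁.mul_mem (hb u) (ha _)
      | inv a _ ha =>
        intro u
        have h1 := ha ((a : MulAut U)⁻¹ u)
        have e1 : (((a : MulAut U) ((a : MulAut U)⁻¹ u) : U) : Ω) = u := by simp
        rw [e1] at h1
        have e : (u : Ω)⁻¹ * (((a⁻¹ : E.autGroup U) : MulAut U) u : U) =
            ((((a : MulAut U)⁻¹ u : U) : Ω)⁻¹ * (u : Ω))⁻¹ := by
          rw [show (((a⁻¹ : E.autGroup U) : MulAut U) u : U) = (a : MulAut U)⁻¹ u from rfl]
          group
        rw [e]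
        exact S₁.inv_mem h1
    exact hmem α hα
  exact key x

/-- If the hyperfocal subgroup is `S` then `O^p(Aut_E(R)) = Aut_E(R)` for a normal subgroup `R`. -/
theorem pResidual_eq_top_of_hyp (hS : IsPGroup p S) {E : FusionSystem S} (hE : E.IsSaturated p) {R : Subgroup Ω}
    (hR : E.IsNormal R) (hh : S ≤ E.hyperfocalSubgroup p) : pResidual p (E.autGroup R) = ⊤ := by
  classical
  have hsc := NormalCR.IsNormal.stronglyClosed hR
  have hRS := hR.1
  haveI : Finite (E.autGroup R) := finite_autGroup hRS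
  have hFN : E.IsFullyNormalized R := ⟨hRS, fun Q hQ => by rw [ModelLocal.conj_eq_of_isNormal hR hQ]⟩
  obtain ⟨-, T, hT⟩ := (fullyNormalized_props hS hE hFN).2
  rw [eq_top_iff]
  intro a _
  obtain ⟨τ, hτ, r, hr, he⟩ := Focal.exists_sylow_mul_residual T a
  rw [he]
  refine Subgroup.mul_mem _ ?_ hr
  have hτS : (τ : MulAut R) ∈ autInducedBy S R := by
    rw [hT] at hτ
    exact hτ
  obtain ⟨g, hg, hgv⟩ := mem_autInducedBy_iff.1 hτS
  obtain ⟨b, hb, hbe⟩ := kappa_hyperfocal_mem hR (s := ⟨g, hg⟩) (hh hg)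
  have : b = τ := by
    apply Subtype.ext
    rw [show ((b : E.autGroup R) : MulAut R) = kappa hsc ⟨g, hg⟩ from hbe]
    ext x
    rw [hgv]
    rfl
  rw [← this]
  exact hb

/-- A system in which a centric normal subgroup has trivial automizer has trivial hyperfocal subgroup. -/
theorem hyperfocal_eq_bot {E : FusionSystem S} {R : Subgroup Ω} (hR : E.IsNormal R) (hC : E.IsCentric R)
    (hsub : Subsingleton (E.autGroup R)) : E.hyperfocalSubgroup p = ⊥ := by
  have hsc := NormalCR.IsNormal.stronglyClosed hR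
  have hSR : S ≤ R := by
    intro s hs
    refine hC.2 R (Basic.IsConj.refl hR.1) ⟨hs, Subgroup.mem_centralizer_iff.2 fun r hr => ?_⟩
    have h1 : (⟨kappa hsc ⟨s, hs⟩, kappa_mem hsc _⟩ : E.autGroup R) = 1 := Subsingleton.elim _ _
    have h2 := congrArg (fun c : E.autGroup R => (((c : MulAut R) ⟨r, hr⟩ : R) : Ω)) h1
    have h3 : s * r * s⁻¹ = r := h2
    have h4 : s * r = r * s := by
      calc s * r = s * r * s⁻¹ * s := by group
        _ = r * s := by rw [h3]
    exact h4.symm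
  rw [eq_bot_iff]
  refine (Subgroup.closure_le _).2 ?_
  rintro _ ⟨U, α, x, hU, -, rfl⟩
  obtain ⟨γ, hγ, he⟩ := exists_aut_sup hU hR α.2
  have hW : U ⊔ R ≤ S := sup_le hU hR.1
  have h1 : rho hsc hW le_sup_right ⟨γ, hγ⟩ = 1 := Subsingleton.elim _ _
  have hxR : (x : Ω) ∈ R := hSR (hU x.2)
  have h2 := congrArg (fun c : E.autGroup R => (((c : MulAut R) ⟨x, hxR⟩ : R) : Ω)) h1
  have h3 : ((γ (Subgroup.inclusion le_sup_left x) : ↥(U ⊔ R)) : Ω) = x := h2
  rw [he] at h3
  show _ ∈ (⊥ : Subgroup Ω)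
  rw [h3]
  simp

/-- Restriction to a strongly closed subgroup is surjective, when the larger one is normal. -/
theorem rho_surjective {E : FusionSystem S} {A R : Subgroup Ω} (hR : E.IsNormal R) (hsc : E.StronglyClosed A)
    (hAR : A ≤ R) : Function.Surjective (rho hsc hR.1 hAR) := by
  rintro ⟨a, ha⟩
  have hAS : A ≤ S := hAR.trans hR.1
  obtain ⟨γ, hγ, he⟩ := exists_aut_sup hAS hR ha
  have key : ∀ (W : Subgroup Ω) (e : W = R) (γ : MulAut W), γ ∈ E.autGroup W → (∀ x : A, ((γ ⟨x, e.ge (hAR x.2)⟩ : W) : Ω) = a x) →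
      ∃ γ' ∈ E.autGroup R, ∀ x : A, ((γ' ⟨x, hAR x.2⟩ : R) : Ω) = a x := by
    rintro W rfl γ hγ hx
    exact ⟨γ, hγ, hx⟩
  obtain ⟨γ', hγ', he'⟩ := key _ (sup_eq_right.2 hAR) γ hγ he
  refine ⟨⟨γ', hγ'⟩, ?_⟩
  ext x
  exact he' x

end i

end Cfsg.Agent.Lib.Fusion.ResidSeries
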