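/-
The chain of residual subsystems terminates exactly for constrained systems with `p`-soluble models.
-/
import Mathlib
import Cfsg.Agent.Lib.Fusion.ResidSeries7
import Cfsg.Agent.Lib.Fusion.ModelQuot

set_option autoImplicit false

namespace Cfsg.Agent.Lib.Fusion.ResidSeries

open Cfsg Cfsg.FusionSystem Cfsg.Agent.Lib.Fusion.Basic
open Cfsg.Agent.Lib.Fusion.Joins (exists_hom_of_eq isNormal_core)
open Cfsg.Agent.Lib.Fusion.PPrime
open Cfsg.Agent.Lib.Fusion.Saturated (finite_autGroup fullyNormalized_props)

universe u

section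

variable {Ω : Type*} [Group Ω]

variable {p : ℕ} [hp : Fact p.Prime]

/-- A nontrivial system with `p`-soluble automizer has an automizer or a hyperfocal subgroup which goes down. -/
theorem false_of_eq {S : Subgroup Ω} [Finite S] (hS : IsPGroup p S) {F : FusionSystem S} (hF : F.IsSaturated p)
    (hcon : F.IsConstrained p) (hbot : S ≠ ⊥) (hsol : IsPSolvable p (F.autGroup F.core))
    (hT : S ≤ (residSys F p).hyperfocalSubgroup p) (hA : F.autGroup F.core ≤ (residSys F p).autGroup F.core) : False := by
  classical
  have hR := isNormal_core F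
  have hRS := hR.1
  haveI : Finite F.core := finite_of_le hRS
  haveI : Finite (F.autGroup F.core) := finite_autGroup hRS
  have hEs := residSys_saturated hS hF
  have hRE : (residSys F p).IsNormal F.core := isNormal_of_le hS hEs (residSys_le F p) hR
  have he : (residSys F p).autGroup F.core = F.autGroup F.core :=
    le_antisymm (autGroup_mono (residSys_le F p) _) hA
  have hi := pResidual_eq_top_of_hyp hS hEs hRE hT
  rw [he] at hi
  have hii : pElts p (F.autGroup F.core) = ⊤ := by
    rw [eq_top_iff]
    rintro a -
    have h1 := autGroup_residSys_le hS hF hR (hA a.2)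
    obtain ⟨b, hb, hbe⟩ := h1
    have : b = a := Subtype.ext hbe
    rwa [← this]
  have hsub := subsingleton_of_residuals hsol hi hii
  have hsub' : Subsingleton ((residSys F p).autGroup F.core) := by
    rw [he]
    exact hsub
  have hC : F.IsCentric F.core := by
    obtain ⟨-, Q, hQn, hQc⟩ := hcon
    exact Centric.isCentric_of_le hQc (le_sSup hQn) hRS
  have hCE := ((residSys_main hS hF).2.2 _).2 hC
  have h0 := hyperfocal_eq_bot (p := p) hRE hCE hsub'
  rw [h0] at hT
  exact hbot (le_bot_iff.1 hT)

/-- **A constrained system with `p`-soluble automizer has a terminating chain.** -/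
theorem terminating_of_QQ (n : ℕ) : ∀ (S : Subgroup Ω) [Finite S] (F : FusionSystem S),
    Nat.card S + Nat.card (F.autGroup F.core) = n → IsPGroup p S → F.IsSaturated p → QQ F p →
      F.HasTerminatingResidualSeries p := by
  induction n using Nat.strong_induction_on with
  | _ n ih =>
  intro S _ F hn hS hF hQ
  classical
  by_cases hbot : S = ⊥
  · exact .trivial F p hbot
  have hEs := residSys_saturated hS hF
  have hEn := isNormalIn_residSys hS hF
  have hcore := core_residSys hS hF
  have hTS : (residSys F p).hyperfocalSubgroup p ≤ S := Hyperfocal.hyperfocal_le_S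
  obtain ⟨D, hDs, hDi⟩ := PTheta.exists_pPowerIndex (p := p) _ S rfl (residSys F p) hS hEs _ hTS le_rfl
  have hDn : D.IsNormalIn (residSys F p) p :=
    PPowerNormal.isNormalIn_of_pPowerIndex hS hEs hTS (Tate.normal_hyperfocal_subgroupOf) le_rfl hDs hDi
  have hEc : (residSys F p).IsConstrained p := ModelLocal.isConstrained_of_isNormalIn hS hQ.1 hEn
  have hDc : D.IsConstrained p := ModelLocal.isConstrained_of_isNormalIn hS hEc hDn
  haveI : Finite ↥((residSys F p).hyperfocalSubgroup p) := finite_of_le hTS
  have hR := isNormal_core (residSys F p)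
  have hRS := hR.1
  have hR₀ : (residSys F p).IsNormal D.core := isNormal_core_of_isNormalIn hS hEs hDn
  have hR₀R : D.core ≤ (residSys F p).core := le_sSup hR₀
  have hR₀T : D.core ≤ (residSys F p).hyperfocalSubgroup p := (isNormal_core D).1
  haveI : Finite (F.autGroup F.core) := finite_autGroup (isNormal_core F).1
  haveI : Finite ((residSys F p).autGroup F.core) := finite_autGroup (isNormal_core F).1
  haveI : Finite ((residSys F p).autGroup (residSys F p).core) := finite_autGroup hRS
  haveI : Finite ((residSys F p).autGroup D.core) := finite_autGroup (hR₀T.trans hTS)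
  haveI : Finite (D.autGroup D.core) := finite_autGroup hR₀T
  -- the restriction
  have hsc := NormalCR.IsNormal.stronglyClosed hR₀
  have hsurj := rho_surjective hR hsc hR₀R
  have hle₁ : (residSys F p).autGroup F.core ≤ F.autGroup F.core := autGroup_mono (residSys_le F p) _
  have hle₂ : D.autGroup D.core ≤ (residSys F p).autGroup D.core :=
    Subgroup.closure_mono fun _ h => hDi.1 _ h
  have hsol₁ : IsPSolvable p ((residSys F p).autGroup (residSys F p).core) := by
    rw [hcore]
    exact Solvable.PSeries.isPSolvable_of_injective (Subgroup.inclusion_injective hle₁) hQ.2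
  have hsol₂ : IsPSolvable p ((residSys F p).autGroup D.core) :=
    Solvable.PSeries.isPSolvable_of_surjective hsurj hsol₁
  have hsol₃ : IsPSolvable p (D.autGroup D.core) :=
    Solvable.PSeries.isPSolvable_of_injective (Subgroup.inclusion_injective hle₂) hsol₂
  have hc₁ : Nat.card ((residSys F p).autGroup D.core) ≤ Nat.card ((residSys F p).autGroup (residSys F p).core) :=
    Nat.card_le_card_of_surjective _ hsurj
  have hc₂ : Nat.card (D.autGroup D.core) ≤ Nat.card ((residSys F p).autGroup D.core) :=
    Subgroup.card_le_of_le hle₂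
  have hc₃ : Nat.card ((residSys F p).autGroup (residSys F p).core) ≤ Nat.card (F.autGroup F.core) := by
    rw [hcore]
    exact Subgroup.card_le_of_le hle₁
  have hc₄ : Nat.card ↥((residSys F p).hyperfocalSubgroup p) ≤ Nat.card S := Subgroup.card_le_of_le hTS
  have hlt : Nat.card ↥((residSys F p).hyperfocalSubgroup p) + Nat.card (D.autGroup D.core) < n := by
    by_contra hcon
    have hc₅ : Nat.card S ≤ Nat.card ↥((residSys F p).hyperfocalSubgroup p) := by omega
    have hc₆ : Nat.card (F.autGroup F.core) ≤ Nat.card ((residSys F p).autGroup F.core) := by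
      have e : Nat.card ((residSys F p).autGroup (residSys F p).core) = Nat.card ((residSys F p).autGroup F.core) := by
        rw [hcore]
      omega
    have hTe : (residSys F p).hyperfocalSubgroup p = S := Subgroup.eq_of_le_of_card_ge hTS hc₅
    have hAe : (residSys F p).autGroup F.core = F.autGroup F.core := Subgroup.eq_of_le_of_card_ge hle₁ hc₆
    exact false_of_eq hS hF hQ.1 hbot hQ.2 hTe.ge hAe.ge
  exact .step F (residSys F p) p D (isPPrimeResidual_residSys hS hF) ⟨hDs, hDi⟩
    (ih _ hlt _ D rfl (isPGroup_of_le hS hTS) hDs ⟨hDc, hsol₃⟩)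

end

/-- A model of a constrained system maps onto the automizer with kernel a `p`-group. -/
theorem exists_proj {Ω : Type u} [Group Ω] {S : Subgroup Ω} [Finite S] {p : ℕ} [Fact p.Prime] (hS : IsPGroup p S)
    {F : FusionSystem S} {G : Type u} [Group G] {ι : S →* G} (hcon : F.IsConstrained p) (hG : F.IsModel p G ι) :
    ∃ π : G →* F.autGroup F.core, Function.Surjective π ∧ IsPGroup p π.ker := by
  obtain ⟨-, Q, hQn, hQc⟩ := hcon
  have hQ := isNormal_core F
  have hQS := hQ.1
  have hQle : Q ≤ F.core := le_sSup hQn
  have hc : F.IsCentric F.core := Cfsg.Agent.Lib.Fusion.Centric.isCentric_of_le hQc hQle hQS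
  have hN : S ≤ Subgroup.normalizer (F.core : Set Ω) :=
    Cfsg.Agent.Lib.Fusion.NormalCR.StronglyClosed.le_normalizer
      (Cfsg.Agent.Lib.Fusion.NormalCR.IsNormal.stronglyClosed hQ)
  have hC : centralizerIn S F.core ≤ F.core := hc.2 _ (Basic.IsConj.refl hQS)
  haveI := hG.1
  obtain ⟨π, -, hker, hsurj, -⟩ := ModelUniq.exists_proj_of_model hQ hQS hN hC hG
  refine ⟨π, hsurj, ?_⟩
  have hrange : π.ker ≤ ι.range := fun g hg => by
    obtain ⟨z, rfl⟩ := hker g hg
    exact ⟨_, rfl⟩
  have hr : IsPGroup p ι.range :=
    IsPGroup.of_surjective hS ι.rangeRestrict ι.rangeRestrict_surjective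
  exact hr.to_le hrange

/-- **The chain of residual subsystems terminates exactly for constrained systems with `p`-soluble models.** -/
theorem terminating_iff {Ω : Type u} [Group Ω] {S : Subgroup Ω} [Finite S] (p : ℕ) [hp : Fact p.Prime]
    (hS : IsPGroup p S) (F : FusionSystem S) (hF : F.IsSaturated p) :
    F.HasTerminatingResidualSeries p ↔
      (F.IsConstrained p ∧ ∀ (G : Type u) [Group G] (ι : S →* G), F.IsModel p G ι → IsPSolvable p G) := by
  constructor
  · intro h
    have hQ := QQ_of_terminating h hp inferInstance hS hF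
    refine ⟨hQ.1, fun G _ ι hG => ?_⟩
    haveI := hG.1
    obtain ⟨π, hπ, hker⟩ := exists_proj hS hQ.1 hG
    have hsolq : IsPSolvable p (G ⧸ π.ker) :=
      Cfsg.Agent.Lib.Coprime.PSolvable.isPSolvable_of_mulEquiv Fact.out
        (QuotientGroup.quotientKerEquivOfSurjective π hπ).symm hQ.2
    refine Cfsg.Agent.Lib.Coprime.PSolvable.isPSolvable_of_normal_good π.ker ?_ hsolq
    obtain ⟨m, hm⟩ := IsPGroup.iff_card.1 hker
    exact Or.inl ⟨m, hm⟩
  · rintro ⟨hcon, hG⟩
    obtain ⟨L, _, ι, hL⟩ := ModelF.exists_model hS hcon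
    haveI := hL.1
    have hQ : QQ F p := (ModelQuot.exists_pSolvable_iff hS hF).1
      ⟨L, inferInstance, inferInstance, ι, hG L ι hL, hL.2.1, hL.2.2.1⟩
    exact terminating_of_QQ _ S F rfl hS hF hQ

end Cfsg.Agent.Lib.Fusion.ResidSeries
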