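import Mathlib

/-!
# Spectral tools for elements of prime order in a unitary representation

`HForm ρ` packages a `ρ`-invariant positive definite Hermitian form.  We decompose vectors under an
element `g` with `g ^ p = 1` by the explicit projections `proj`.
-/

set_option autoImplicit false

namespace Cfsg.Agent.Lib.Fusion.SpecA

open scoped ComplexConjugate

variable {G : Type*} [Group G] {V : Type*} [AddCommGroup V] [Module ℂ V]

/-- A `ρ`-invariant positive definite Hermitian form. -/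
structure HForm (ρ : G →* (V →ₗ[ℂ] V)) where
  B : V → V → ℂ
  add_right : ∀ u v w, B u (v + w) = B u v + B u w
  smul_right : ∀ (c : ℂ) u v, B u (c • v) = c * B u v
  conj_symm : ∀ u v, conj (B u v) = B v u
  pos : ∀ v, 0 ≤ (B v v).re
  definite : ∀ v, B v v = 0 → v = 0
  inv : ∀ g u v, B (ρ g u) (ρ g v) = B u v

namespace HForm

variable {ρ : G →* (V →ₗ[ℂ] V)} (F : HForm ρ)

theorem zero_right (u : V) : F.B u 0 = 0 := by
  have := F.smul_right 0 u 0
  simpa using this

theorem add_left (u v w : V) : F.B (u + v) w = F.B u w + F.B v w := by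
  have h := F.add_right w u v
  have h2 := congrArg conj h
  rw [map_add, F.conj_symm, F.conj_symm, F.conj_symm] at h2
  exact h2

theorem smul_left (c : ℂ) (u v : V) : F.B (c • u) v = conj c * F.B u v := by
  have h := F.smul_right c v u
  have h2 := congrArg conj h
  rw [map_mul, F.conj_symm, F.conj_symm] at h2
  exact h2

theorem zero_left (u : V) : F.B 0 u = 0 := by
  have := F.smul_left 0 0 u
  simpa using this

theorem neg_right (u v : V) : F.B u (-v) = - F.B u v := by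
  have := F.smul_right (-1) u v
  simpa using this

theorem sub_right (u v w : V) : F.B u (v - w) = F.B u v - F.B u w := by
  rw [sub_eq_add_neg, F.add_right, F.neg_right, sub_eq_add_neg]

theorem neg_left (u v : V) : F.B (-u) v = - F.B u v := by
  have := F.smul_left (-1) u v
  simpa using this

theorem sub_left (u v w : V) : F.B (u - v) w = F.B u w - F.B v w := by
  rw [sub_eq_add_neg, F.add_left, F.neg_left, sub_eq_add_neg]

theorem sum_right {ι : Type*} (s : Finset ι) (u : V) (f : ι → V) :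
    F.B u (∑ i ∈ s, f i) = ∑ i ∈ s, F.B u (f i) := by
  classical
  induction s using Finset.induction_on with
  | empty => simp [F.zero_right]
  | insert a s ha ih => rw [Finset.sum_insert ha, Finset.sum_insert ha, F.add_right, ih]

theorem sum_left {ι : Type*} (s : Finset ι) (u : V) (f : ι → V) :
    F.B (∑ i ∈ s, f i) u = ∑ i ∈ s, F.B (f i) u := by
  classical
  induction s using Finset.induction_on with
  | empty => simp [F.zero_left]
  | insert a s ha ih => rw [Finset.sum_insert ha, Finset.sum_insert ha, F.add_left, ih]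

theorem self_im (v : V) : (F.B v v).im = 0 := by
  have h := F.conj_symm v v
  have h2 := congrArg Complex.im h
  simp only [Complex.conj_im] at h2
  linarith

theorem self_eq (v : V) : F.B v v = ((F.B v v).re : ℂ) := by
  apply Complex.ext <;> simp [F.self_im]

theorem self_ne_zero {v : V} (hv : v ≠ 0) : F.B v v ≠ 0 := fun h => hv (F.definite v h)

theorem self_re_pos {v : V} (hv : v ≠ 0) : 0 < (F.B v v).re := by
  refine lt_of_le_of_ne (F.pos v) fun h => F.self_ne_zero hv ?_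
  rw [F.self_eq v, ← h]
  simp

/-- Eigenvectors of a `ρ g` for eigenvalues of modulus one with different eigenvalues are orthogonal. -/
theorem orth_of_eig {g : G} {u v : V} {a b : ℂ} (ha : ‖a‖ = 1)
    (hu : ρ g u = a • u) (hv : ρ g v = b • v) (hab : a ≠ b) : F.B u v = 0 := by
  have h := F.inv g u v
  rw [hu, hv, F.smul_left, F.smul_right] at h
  have hac : conj a * a = 1 := by
    rw [mul_comm, Complex.mul_conj, Complex.normSq_eq_norm_sq, ha]
    simp
  have h2 : (conj a * b - 1) * F.B u v = 0 := by linear_combination h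
  rcases mul_eq_zero.mp h2 with h3 | h3
  · exfalso
    apply hab
    have : b = a * (conj a * b) := by
      rw [← mul_assoc, mul_comm a, hac, one_mul]
    rw [this, sub_eq_zero.mp h3, mul_one]
  · exact h3

end HForm

/-- The projection of `z` to the `ζ ^ j`-eigenspace of `ρ g`. -/
noncomputable def proj (ρ : G →* (V →ₗ[ℂ] V)) (g : G) (ζ : ℂ) (p j : ℕ) (z : V) : V :=
  (p : ℂ)⁻¹ • ∑ i ∈ Finset.range p, ((ζ ^ j)⁻¹ ^ i) • ρ (g ^ i) z

section proj

variable {ρ : G →* (V →ₗ[ℂ] V)} {p : ℕ} {ζ : ℂ}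

theorem proj_eig (hζ : IsPrimitiveRoot ζ p) (hp0 : p ≠ 0) {g : G} (hg : g ^ p = 1) (j : ℕ) (z : V) :
    ρ g (proj ρ g ζ p j z) = (ζ ^ j) • proj ρ g ζ p j z := by
  have hζ0 : ζ ≠ 0 := hζ.ne_zero hp0
  have hζj : ζ ^ j ≠ 0 := pow_ne_zero _ hζ0
  unfold proj
  rw [map_smul, smul_comm]
  congr 1
  rw [map_sum]
  set f : ℕ → V := fun i => ((ζ ^ j)⁻¹ ^ i) • ρ (g ^ i) z with hf
  have hf0 : f p = f 0 := by
    simp only [hf, hg, pow_zero, one_smul, map_one]
    rw [inv_pow, ← pow_mul, mul_comm, pow_mul, hζ.pow_eq_one]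
    simp
  have hshift : ∑ i ∈ Finset.range p, f (i + 1) = ∑ i ∈ Finset.range p, f i := by
    have h1 := Finset.sum_range_succ f p
    have h2 := Finset.sum_range_succ' f p
    rw [h1, hf0] at h2
    exact (add_right_cancel h2).symm
  rw [← hshift, Finset.smul_sum]
  refine Finset.sum_congr rfl fun i _ => ?_
  simp only [hf, map_smul, pow_succ']
  rw [map_mul, Module.End.mul_apply, smul_smul, ← mul_assoc, mul_inv_cancel₀ hζj, one_mul]

theorem geom_zero (hζ : IsPrimitiveRoot ζ p) (hp0 : p ≠ 0) {i : ℕ} (hi : 0 < i) (hip : i < p) :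
    ∑ j ∈ Finset.range p, ((ζ ^ j)⁻¹ ^ i) = 0 := by
  have hζ0 : ζ ≠ 0 := hζ.ne_zero hp0
  set r : ℂ := (ζ ^ i)⁻¹ with hr
  have hr1 : r ≠ 1 := by
    intro h
    have : ζ ^ i = 1 := by
      rw [hr] at h
      exact inv_eq_one.mp h
    have := hζ.dvd_of_pow_eq_one _ this
    exact absurd (Nat.le_of_dvd hi this) (by omega)
  have hrp : r ^ p = 1 := by
    rw [hr, inv_pow, ← pow_mul, mul_comm, pow_mul, hζ.pow_eq_one]
    simp
  have h : ∑ j ∈ Finset.range p, r ^ j = 0 := by
    have h2 := geom_sum_mul r p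
    rw [hrp, sub_self] at h2
    exact (mul_eq_zero.mp h2).resolve_right (sub_ne_zero.mpr hr1)
  rw [← h]
  refine Finset.sum_congr rfl fun j _ => ?_
  rw [hr, inv_pow, inv_pow, ← pow_mul, ← pow_mul, mul_comm]

theorem proj_sum (hζ : IsPrimitiveRoot ζ p) (hp0 : p ≠ 0) (g : G) (z : V) :
    ∑ j ∈ Finset.range p, proj ρ g ζ p j z = z := by
  unfold proj
  rw [← Finset.smul_sum, Finset.sum_comm]
  have hp : 0 < p := Nat.pos_of_ne_zero hp0
  have h : ∀ i ∈ Finset.range p, ∑ j ∈ Finset.range p, ((ζ ^ j)⁻¹ ^ i) • ρ (g ^ i) z =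
      if i = 0 then (p : ℂ) • z else 0 := by
    intro i hi
    rw [← Finset.sum_smul]
    split_ifs with h0
    · subst h0
      simp
    · rw [geom_zero hζ hp0 (Nat.pos_of_ne_zero h0) (Finset.mem_range.mp hi), zero_smul]
  rw [Finset.sum_congr rfl h, Finset.sum_ite_eq' (Finset.range p) 0]
  rw [if_pos (Finset.mem_range.mpr hp), smul_smul, inv_mul_cancel₀ (by exact_mod_cast hp0), one_smul]

theorem proj_mem (W : Submodule ℂ V) {g : G} (hW : ∀ u ∈ W, ρ g u ∈ W) (j : ℕ) {z : V} (hz : z ∈ W) :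
    proj ρ g ζ p j z ∈ W := by
  have key : ∀ i : ℕ, ρ (g ^ i) z ∈ W := by
    intro i
    induction i with
    | zero => simpa using hz
    | succ n ih =>
      rw [pow_succ', map_mul, Module.End.mul_apply]
      exact hW _ ih
  unfold proj
  exact W.smul_mem _ (W.sum_mem fun i _ => W.smul_mem _ (key i))

/-- A nonzero vector has a nonzero component. -/
theorem exists_proj_ne (hζ : IsPrimitiveRoot ζ p) (hp0 : p ≠ 0) (g : G) {z : V} (hz : z ≠ 0) :
    ∃ j, j < p ∧ proj ρ g ζ p j z ≠ 0 := by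
  by_contra hno
  push Not at hno
  apply hz
  rw [← proj_sum (ρ := ρ) hζ hp0 g z]
  exact Finset.sum_eq_zero fun j hj => hno j (Finset.mem_range.mp hj)

/-- An element of order dividing `p` has an eigenvector in a nonzero invariant subspace. -/
theorem exists_eig_on (hζ : IsPrimitiveRoot ζ p) (hp0 : p ≠ 0) {g : G} (hg : g ^ p = 1)
    (W : Submodule ℂ V) (hW : ∀ u ∈ W, ρ g u ∈ W) {z : V} (hz : z ∈ W) (hz0 : z ≠ 0) :
    ∃ j, j < p ∧ ∃ v ∈ W, v ≠ 0 ∧ ρ g v = (ζ ^ j) • v := by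
  obtain ⟨j, hj, hne⟩ := exists_proj_ne (ρ := ρ) hζ hp0 g hz0
  exact ⟨j, hj, _, proj_mem W hW j hz, hne, proj_eig hζ hp0 hg j z⟩

/-- If an element with `g ^ p = 1` moves `z` then it has an eigenvalue `≠ 1` on any invariant subspace
containing `z`. -/
theorem exists_eig_ne_one (hζ : IsPrimitiveRoot ζ p) (hp0 : p ≠ 0) {g : G} (hg : g ^ p = 1)
    (W : Submodule ℂ V) (hW : ∀ u ∈ W, ρ g u ∈ W) {z : V} (hz : z ∈ W) (hmove : ρ g z ≠ z) :
    ∃ j, 0 < j ∧ j < p ∧ ∃ v ∈ W, v ≠ 0 ∧ ρ g v = (ζ ^ j) • v := by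
  by_contra hno
  push Not at hno
  apply hmove
  have hsum := proj_sum (ρ := ρ) hζ hp0 g z
  have hp : 0 < p := Nat.pos_of_ne_zero hp0
  have hothers : ∀ j ∈ Finset.range p, j ≠ 0 → proj ρ g ζ p j z = 0 := by
    intro j hj h0
    by_contra hne
    exact hno j (Nat.pos_of_ne_zero h0) (Finset.mem_range.mp hj) _ (proj_mem W hW j hz) hne
      (proj_eig hζ hp0 hg j z)
  rw [Finset.sum_eq_single_of_mem 0 (Finset.mem_range.mpr hp) hothers] at hsum
  have h0 := proj_eig (ρ := ρ) hζ hp0 hg 0 z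
  rw [hsum] at h0
  simpa using h0

end proj

/-- The narrowness inequality. -/
theorem narrow_of_spec {ρ : G →* (V →ₗ[ℂ] V)} (F : HForm ρ) {p : ℕ} {ζ : ℂ} (hζ : IsPrimitiveRoot ζ p)
    (hp0 : p ≠ 0) (hnorm : ‖ζ‖ = 1) {h : G} (hh : h ^ p = 1) (W : Submodule ℂ V)
    (hW : ∀ u ∈ W, ρ h u ∈ W) (m : ℕ) (ε : ℂ)
    (hspec : ∀ j, j < p → (∃ v ∈ W, v ≠ 0 ∧ ρ h v = (ζ ^ j) • v) → 1 / 2 ≤ (conj ε * ζ ^ (m * j)).re)
    {z : V} (hz : z ∈ W) :
    (F.B z z).re / 2 ≤ (conj ε * F.B z (ρ (h ^ m) z)).re := by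
  classical
  set c : ℕ → V := fun j => proj ρ h ζ p j z with hc
  have hsum : ∑ j ∈ Finset.range p, c j = z := proj_sum hζ hp0 h z
  have hceig : ∀ j, ρ h (c j) = (ζ ^ j) • c j := fun j => proj_eig hζ hp0 hh j z
  have hnj : ∀ j : ℕ, ‖ζ ^ j‖ = 1 := fun j => by rw [norm_pow, hnorm, one_pow]
  have hcm' : ∀ t j : ℕ, ρ (h ^ t) (c j) = (ζ ^ (t * j)) • c j := by
    intro t j
    induction t with
    | zero => simp
    | succ n ih =>
      rw [pow_succ', map_mul, Module.End.mul_apply, ih, map_smul, hceig, smul_smul]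
      congr 1
      ring
  have hcm : ∀ j, ρ (h ^ m) (c j) = (ζ ^ (m * j)) • c j := fun j => hcm' m j
  have horth : ∀ i ∈ Finset.range p, ∀ j ∈ Finset.range p, i ≠ j → F.B (c i) (c j) = 0 := by
    intro i hi j hj hij
    refine F.orth_of_eig (g := h) (hnj i) (hceig i) (hceig j) ?_
    intro he
    exact hij (hζ.pow_inj (Finset.mem_range.mp hi) (Finset.mem_range.mp hj) he)
  have hBzz : F.B z z = ∑ j ∈ Finset.range p, F.B (c j) (c j) := by
    conv_lhs => rw [← hsum]
    rw [F.sum_left]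
    refine Finset.sum_congr rfl fun i hi => ?_
    rw [F.sum_right, Finset.sum_eq_single_of_mem i hi]
    intro j hj hji
    exact horth i hi j hj hji.symm
  have hhz : ρ (h ^ m) z = ∑ j ∈ Finset.range p, (ζ ^ (m * j)) • c j := by
    conv_lhs => rw [← hsum]
    rw [map_sum]
    exact Finset.sum_congr rfl fun j _ => hcm j
  have hBzh : F.B z (ρ (h ^ m) z) = ∑ j ∈ Finset.range p, ζ ^ (m * j) * F.B (c j) (c j) := by
    rw [hhz]
    conv_lhs => rw [← hsum]
    rw [F.sum_left]
    refine Finset.sum_congr rfl fun i hi => ?_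
    rw [F.sum_right, Finset.sum_eq_single_of_mem i hi]
    · rw [F.smul_right]
    · intro j hj hji
      rw [F.smul_right, horth i hi j hj hji.symm, mul_zero]
  rw [hBzh, hBzz, Finset.mul_sum, Complex.re_sum, Complex.re_sum, Finset.sum_div]
  refine Finset.sum_le_sum fun j hj => ?_
  by_cases h0 : c j = 0
  · rw [h0, F.zero_right]
    simp
  · have hs := hspec j (Finset.mem_range.mp hj) ⟨c j, proj_mem W hW j hz, h0, hceig j⟩
    have he := F.self_eq (c j)
    have hp := F.pos (c j)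
    rw [he, ← mul_assoc, Complex.re_mul_ofReal, Complex.ofReal_re]
    nlinarith

/-- The cycle lemma: orthogonal translates give all eigenvalues. -/
theorem cyc_lemma {ρ : G →* (V →ₗ[ℂ] V)} (F : HForm ρ) {p : ℕ} {ζ : ℂ} (hζ : IsPrimitiveRoot ζ p)
    (hp0 : p ≠ 0) {h : G} (hh : h ^ p = 1) (W : Submodule ℂ V)
    (hW : ∀ u ∈ W, ρ h u ∈ W) {w : V} (hw : w ∈ W) (hw0 : w ≠ 0)
    (horth : ∀ m, 0 < m → m < p → F.B w (ρ (h ^ m) w) = 0) (j : ℕ) :
    ∃ v ∈ W, v ≠ 0 ∧ ρ h v = (ζ ^ j) • v := by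
  refine ⟨proj ρ h ζ p j w, proj_mem W hW j hw, ?_, proj_eig hζ hp0 hh j w⟩
  intro h0
  have h1 : F.B w (proj ρ h ζ p j w) = (p : ℂ)⁻¹ * F.B w w := by
    unfold proj
    rw [F.smul_right, F.sum_right]
    congr 1
    have hp : 0 < p := Nat.pos_of_ne_zero hp0
    rw [Finset.sum_eq_single_of_mem 0 (Finset.mem_range.mpr hp)]
    · simp
    · intro m hm hm0
      rw [F.smul_right, horth m (Nat.pos_of_ne_zero hm0) (Finset.mem_range.mp hm), mul_zero]
  rw [h0, F.zero_right] at h1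
  have h2 : (p : ℂ)⁻¹ ≠ 0 := inv_ne_zero (by exact_mod_cast hp0)
  exact F.self_ne_zero hw0 ((mul_eq_zero.mp h1.symm).resolve_left h2)

end Cfsg.Agent.Lib.Fusion.SpecA
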