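import Cfsg.Agent.Lib.Fusion.SpecA

/-!
# All `p`-th roots as eigenvalues

`AllEig ρ W a p`: every `p`-th root of unity is an eigenvalue of `ρ a` on `W`.  Criteria for it.
-/

set_option autoImplicit false

namespace Cfsg.Agent.Lib.Fusion.SpecB

open scoped ComplexConjugate
open Cfsg.Agent.Lib.Fusion.SpecA

variable {G : Type*} [Group G] {V : Type*} [AddCommGroup V] [Module ℂ V]

/-- Every `p`-th root of unity is an eigenvalue of `ρ a` on `W`. -/
def AllEig (ρ : G →* (V →ₗ[ℂ] V)) (W : Submodule ℂ V) (a : G) (p : ℕ) : Prop :=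
  ∀ l : ℂ, l ^ p = 1 → ∃ v ∈ W, v ≠ 0 ∧ ρ a v = l • v

variable {ρ : G →* (V →ₗ[ℂ] V)} {p : ℕ}

theorem rho_inv_apply (g : G) (u : V) : ρ g⁻¹ (ρ g u) = u := by
  rw [← Module.End.mul_apply, ← map_mul, inv_mul_cancel, map_one]
  rfl

theorem rho_apply_inv (g : G) (u : V) : ρ g (ρ g⁻¹ u) = u := by
  rw [← Module.End.mul_apply, ← map_mul, mul_inv_cancel, map_one]
  rfl

theorem rho_ne_zero (g : G) {u : V} (hu : u ≠ 0) : ρ g u ≠ 0 := by
  intro h
  apply hu
  rw [← rho_inv_apply (ρ := ρ) g u, h, map_zero]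

theorem rho_mul_apply (g g' : G) (u : V) : ρ (g * g') u = ρ g (ρ g' u) := by
  rw [map_mul, Module.End.mul_apply]

/-- Conjugates. -/
theorem allEig_conj (g a : G) (h : AllEig ρ ⊤ (g * a * g⁻¹) p) : AllEig ρ ⊤ a p := by
  intro l hl
  obtain ⟨v, -, hv0, hv⟩ := h l hl
  refine ⟨ρ g⁻¹ v, Submodule.mem_top, rho_ne_zero _ hv0, ?_⟩
  have : ρ a (ρ g⁻¹ v) = ρ g⁻¹ (ρ (g * a * g⁻¹) v) := by
    rw [← rho_mul_apply, ← rho_mul_apply]
    congr 2
    group
  rw [this, hv, map_smul]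

/-- Powers with coprime exponent. -/
theorem allEig_pow (hp : p.Prime) {a : G} (ha : a ^ p = 1) {W : Submodule ℂ V} {m : ℕ}
    (hm : m.Coprime p) (h : AllEig ρ W (a ^ m) p) : AllEig ρ W a p := by
  intro l hl
  obtain ⟨v, hvW, hv0, hv⟩ := h (l ^ m) (by rw [← pow_mul, mul_comm, pow_mul, hl, one_pow])
  obtain ⟨t, -, ht⟩ := Nat.exists_mul_mod_eq_one_of_coprime hm hp.one_lt
  refine ⟨v, hvW, hv0, ?_⟩
  have h1 : (a ^ m) ^ t = a := by
    rw [← pow_mul, pow_eq_pow_mod _ ha, ht, pow_one]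
  have h2 : (l ^ m) ^ t = l := by
    rw [← pow_mul, pow_eq_pow_mod _ hl, ht, pow_one]
  have h3 : ∀ s : ℕ, ρ ((a ^ m) ^ s) v = ((l ^ m) ^ s) • v := by
    intro s
    induction s with
    | zero => simp
    | succ n ih =>
      rw [pow_succ', rho_mul_apply, ih, map_smul, hv, smul_smul, pow_succ]
  have h4 := h3 t
  rwa [h1, h2] at h4

/-- Converting the list of powers of a primitive root to all roots. -/
theorem allEig_of_forall (hp : p.Prime) {ζ : ℂ} (hζ : IsPrimitiveRoot ζ p) {W : Submodule ℂ V} {a : G}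
    (h : ∀ j, ∃ v ∈ W, v ≠ 0 ∧ ρ a v = (ζ ^ j) • v) : AllEig ρ W a p := by
  intro l hl
  haveI : NeZero p := ⟨hp.ne_zero⟩
  obtain ⟨i, -, hi⟩ := hζ.eq_pow_of_pow_eq_one hl
  rw [← hi]
  exact h i

/-- The central commutator lemma. -/
theorem a1 (hp : p.Prime) {ζ : ℂ} (hζ : IsPrimitiveRoot ζ p) (hfaith : Function.Injective ρ)
    {a b c : G} (ha : a ^ p = 1) (hc : b * a * b⁻¹ = a * c) (hca : Commute c a) (hcb : Commute c b)
    (hcp : c ^ p = 1) (hc1 : c ≠ 1) : AllEig ρ ⊤ a p := by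
  classical
  have hp0 := hp.ne_zero
  haveI : NeZero p := ⟨hp0⟩
  -- an eigenvalue `≠ 1` of `c`
  have hmove : ∃ z, ρ c z ≠ z := by
    by_contra hno
    push Not at hno
    apply hc1
    apply hfaith
    rw [map_one]
    ext1 z
    simpa using hno z
  obtain ⟨z, hz⟩ := hmove
  obtain ⟨j, hj0, hjp, v, -, hv0, hv⟩ := exists_eig_ne_one (ρ := ρ) hζ hp0 hcp ⊤ (fun _ _ => Submodule.mem_top)
    Submodule.mem_top hz
  set γ : ℂ := ζ ^ j with hγ
  have hγprim : IsPrimitiveRoot γ p :=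
    hζ.pow_of_coprime j ((Nat.coprime_comm.mp ((Nat.Prime.coprime_iff_not_dvd hp).mpr
      (fun hd => absurd (Nat.le_of_dvd hj0 hd) (by omega)))))
  have hγ0 : γ ≠ 0 := hγprim.ne_zero hp0
  -- the eigenspace
  set E : Submodule ℂ V := Module.End.eigenspace (ρ c) γ with hE
  have hmemE : ∀ u, u ∈ E ↔ ρ c u = γ • u := fun u => Module.End.mem_eigenspace_iff
  have hEa : ∀ u ∈ E, ρ a u ∈ E := by
    intro u hu
    rw [hmemE] at hu ⊢
    rw [← rho_mul_apply, hca.eq, rho_mul_apply, hu, map_smul]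
  have hEb : ∀ u ∈ E, ρ b u ∈ E := by
    intro u hu
    rw [hmemE] at hu ⊢
    rw [← rho_mul_apply, hcb.eq, rho_mul_apply, hu, map_smul]
  obtain ⟨t, -, u₀, hu₀E, hu₀0, hu₀⟩ := exists_eig_on (ρ := ρ) hζ hp0 ha E hEa ((hmemE v).mpr hv) hv0
  have hstep : ∀ i : ℕ, ∃ u ∈ E, u ≠ 0 ∧ ρ a u = (ζ ^ t * γ⁻¹ ^ i) • u := by
    intro i
    induction i with
    | zero => exact ⟨u₀, hu₀E, hu₀0, by simpa using hu₀⟩
    | succ n ih =>
      obtain ⟨u, huE, hu0, hu⟩ := ih
      refine ⟨ρ b u, hEb u huE, rho_ne_zero _ hu0, ?_⟩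
      have hba : b * a = a * c * b := by rw [← hc]; group
      have h1 : ρ a (ρ c (ρ b u)) = ρ b (ρ a u) := by
        calc ρ a (ρ c (ρ b u)) = ρ (a * c * b) u := by simp only [rho_mul_apply]
          _ = ρ (b * a) u := by rw [hba]
          _ = ρ b (ρ a u) := rho_mul_apply _ _ _
      have h2 : ρ c (ρ b u) = γ • ρ b u := (hmemE _).mp (hEb u huE)
      rw [h2, map_smul, hu, map_smul] at h1
      have h3 : ρ a (ρ b u) = γ⁻¹ • (γ • ρ a (ρ b u)) := by
        rw [smul_smul, inv_mul_cancel₀ hγ0, one_smul]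
      rw [h3, h1, smul_smul, pow_succ]
      congr 1
      ring
  intro l hl
  have hζt : (ζ ^ t) ^ p = 1 := by rw [← pow_mul, mul_comm, pow_mul, hζ.pow_eq_one, one_pow]
  have hx : (l * (ζ ^ t)⁻¹) ^ p = 1 := by
    rw [mul_pow, inv_pow, hζt, hl, inv_one, mul_one]
  obtain ⟨i, -, hi⟩ := hγprim.inv.eq_pow_of_pow_eq_one hx
  obtain ⟨u, -, hu0, hu⟩ := hstep i
  refine ⟨u, Submodule.mem_top, hu0, ?_⟩
  rw [hu, hi]
  congr 1
  have hζt0 : ζ ^ t ≠ 0 := pow_ne_zero _ (hζ.ne_zero hp0)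
  field_simp

/-- A commuting family of elements of exponent `p` has a joint eigenvector in a nonzero invariant
subspace. -/
theorem exists_joint {ζ : ℂ} (hζ : IsPrimitiveRoot ζ p) (hp0 : p ≠ 0) (s : Finset G)
    (hs : ∀ g ∈ s, g ^ p = 1) (hcomm : ∀ g ∈ s, ∀ g' ∈ s, Commute g g') (E : Submodule ℂ V)
    (hE : ∀ g ∈ s, ∀ u ∈ E, ρ g u ∈ E) {z : V} (hz : z ∈ E) (hz0 : z ≠ 0) :
    ∃ w ∈ E, w ≠ 0 ∧ ∀ g ∈ s, ∃ c : ℂ, ρ g w = c • w := by
  classical
  induction s using Finset.induction_on generalizing E z with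
  | empty => exact ⟨z, hz, hz0, by simp⟩
  | insert g s hg ih =>
    obtain ⟨j, -, v, hvE, hv0, hv⟩ := exists_eig_on (ρ := ρ) hζ hp0 (hs g (Finset.mem_insert_self _ _)) E
      (hE g (Finset.mem_insert_self _ _)) hz hz0
    set E' : Submodule ℂ V := E ⊓ Module.End.eigenspace (ρ g) (ζ ^ j) with hE'
    have hmem : ∀ u, u ∈ E' ↔ u ∈ E ∧ ρ g u = (ζ ^ j) • u := by
      intro u
      rw [hE', Submodule.mem_inf, Module.End.mem_eigenspace_iff]
    obtain ⟨w, hwE, hw0, hw⟩ := ih (fun g' hg' => hs g' (Finset.mem_insert_of_mem hg'))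
      (fun a ha b hb => hcomm a (Finset.mem_insert_of_mem ha) b (Finset.mem_insert_of_mem hb)) E'
      (by
        intro g' hg' u hu
        rw [hmem] at hu ⊢
        refine ⟨hE g' (Finset.mem_insert_of_mem hg') u hu.1, ?_⟩
        have hc := hcomm g (Finset.mem_insert_self _ _) g' (Finset.mem_insert_of_mem hg')
        rw [← rho_mul_apply, hc.eq, rho_mul_apply, hu.2, map_smul])
      ((hmem v).mpr ⟨hvE, hv⟩) hv0
    rw [hmem] at hwE
    refine ⟨w, hwE.1, hw0, ?_⟩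
    intro g' hg'
    rcases Finset.mem_insert.mp hg' with rfl | hg''
    · exact ⟨_, hwE.2⟩
    · exact hw g' hg''

/-- The commuting case: translates of `y` by `h` commute and `h` does not commute with `y` on `W`. -/
theorem two_finish (F : HForm ρ) (hp : p.Prime) {ζ : ℂ} (hζ : IsPrimitiveRoot ζ p) {h y : G}
    (hh : h ^ p = 1) (hy : y ^ p = 1) (W : Submodule ℂ V)
    (hWh : ∀ u ∈ W, ρ h u ∈ W) (hWy : ∀ i : ℕ, ∀ u ∈ W, ρ (h ^ i * y * (h ^ i)⁻¹) u ∈ W)
    (hWd : ∀ u ∈ W, ρ (h * y * h⁻¹ * y⁻¹) u ∈ W)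
    (hcomm : ∀ i j : ℕ, Commute (h ^ i * y * (h ^ i)⁻¹) (h ^ j * y * (h ^ j)⁻¹))
    {z : V} (hz : z ∈ W) (hmove : ρ (h * y * h⁻¹ * y⁻¹) z ≠ z) : AllEig ρ W h p := by
  classical
  have hp0 := hp.ne_zero
  set Y : ℕ → G := fun i => h ^ i * y * (h ^ i)⁻¹ with hY
  have hYp : ∀ i, (Y i) ^ p = 1 := by
    intro i
    simp only [hY]
    rw [conj_pow, hy, mul_one, mul_inv_cancel]
  have hY1 : Y 1 = h * y * h⁻¹ := by simp [hY]
  have hY0 : Y 0 = y := by simp [hY]
  set d : G := h * y * h⁻¹ * y⁻¹ with hd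
  have hd' : d = Y 1 * (Y 0)⁻¹ := by rw [hY1, hY0]
  have hdp : d ^ p = 1 := by
    have hc : Commute (Y 1) (Y 0)⁻¹ := (hcomm 1 0).inv_right
    rw [hd', hc.mul_pow, hYp, inv_pow, hYp, inv_one, one_mul]
  obtain ⟨j, hj0, hjp, v, hvW, hv0, hv⟩ := exists_eig_ne_one (ρ := ρ) hζ hp0 hdp W hWd hz hmove
  set E : Submodule ℂ V := W ⊓ Module.End.eigenspace (ρ d) (ζ ^ j) with hE
  have hmem : ∀ u, u ∈ E ↔ u ∈ W ∧ ρ d u = (ζ ^ j) • u := by
    intro u
    rw [hE, Submodule.mem_inf, Module.End.mem_eigenspace_iff]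
  have hdY : ∀ i, Commute d (Y i) := by
    intro i
    rw [hd']
    exact (hcomm 1 i).mul_left (hcomm 0 i).inv_left
  obtain ⟨w, hwE, hw0, hw⟩ := exists_joint (ρ := ρ) hζ hp0 ((Finset.range p).image Y)
    (by
      intro g hg
      obtain ⟨i, -, rfl⟩ := Finset.mem_image.mp hg
      exact hYp i)
    (by
      intro g hg g' hg'
      obtain ⟨i, -, rfl⟩ := Finset.mem_image.mp hg
      obtain ⟨i', -, rfl⟩ := Finset.mem_image.mp hg'
      exact hcomm i i') E
    (by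
      intro g hg u hu
      obtain ⟨i, -, rfl⟩ := Finset.mem_image.mp hg
      rw [hmem] at hu ⊢
      refine ⟨hWy i u hu.1, ?_⟩
      rw [← rho_mul_apply, (hdY i).eq, rho_mul_apply, hu.2, map_smul])
    ((hmem v).mpr ⟨hvW, hv⟩) hv0
  rw [hmem] at hwE
  -- periodicity
  have hYper : ∀ i, Y i = Y (i % p) := by
    intro i
    simp only [hY]
    rw [pow_eq_pow_mod i hh]
  have hpp : 0 < p := hp.pos
  have hweig : ∀ i, ∃ c : ℂ, ρ (Y i) w = c • w := by
    intro i
    rw [hYper i]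
    exact hw _ (Finset.mem_image_of_mem Y (Finset.mem_range.mpr (Nat.mod_lt _ hpp)))
  choose lam hlam using hweig
  have hlam_unique : ∀ i i', Y i = Y i' → lam i = lam i' := by
    intro i i' he
    have h1 := hlam i
    rw [he, hlam i'] at h1
    have h2 : (lam i' - lam i) • w = 0 := by rw [sub_smul, h1, sub_self]
    have := (smul_eq_zero.mp h2).resolve_right hw0
    exact (sub_eq_zero.mp this).symm
  have hlamp : ∀ i, (lam i) ^ p = 1 := by
    intro i
    have h1 : ∀ s : ℕ, ρ ((Y i) ^ s) w = ((lam i) ^ s) • w := by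
      intro s
      induction s with
      | zero => simp
      | succ n ih => rw [pow_succ', rho_mul_apply, ih, map_smul, hlam, smul_smul, pow_succ]
    have h2 := h1 p
    rw [hYp, map_one, Module.End.one_apply] at h2
    have h3 : ((lam i) ^ p - 1) • w = 0 := by rw [sub_smul, ← h2, one_smul, sub_self]
    exact sub_eq_zero.mp ((smul_eq_zero.mp h3).resolve_right hw0)
  have hlamnorm : ∀ i, ‖lam i‖ = 1 := fun i => Complex.norm_eq_one_of_pow_eq_one (hlamp i) hp0
  have hlam0 : ∀ i, lam i ≠ 0 := by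
    intro i h0
    have := hlamnorm i
    rw [h0, norm_zero] at this
    exact zero_ne_one this
  -- the two first eigenvalues differ
  have hne10 : lam 1 ≠ lam 0 := by
    intro he
    have h1 : ρ (Y 1) w = ρ d (ρ (Y 0) w) := by
      rw [← rho_mul_apply, hd']
      congr 2
      group
    rw [hlam, hlam, map_smul, hwE.2, smul_smul] at h1
    have h2 : (lam 1 - lam 0 * ζ ^ j) • w = 0 := by rw [sub_smul, h1, sub_self]
    have h3 := sub_eq_zero.mp ((smul_eq_zero.mp h2).resolve_right hw0)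
    rw [he] at h3
    have h4 : ζ ^ j = 1 := by
      have := mul_left_cancel₀ (hlam0 0) (by rw [mul_one]; exact h3.symm : lam 0 * ζ ^ j = lam 0 * 1)
      exact this
    exact absurd (Nat.le_of_dvd hj0 (hζ.dvd_of_pow_eq_one _ h4)) (by omega)
  -- orthogonality
  have horth : ∀ m, 0 < m → m < p → F.B w (ρ (h ^ m) w) = 0 := by
    intro m hm0 hmp
    by_cases hex : ∃ i, lam (i + m) ≠ lam i
    · obtain ⟨i, hi⟩ := hex
      have h1 : ρ (Y (i + m)) (ρ (h ^ m) w) = lam i • ρ (h ^ m) w := by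
        rw [← rho_mul_apply]
        have : Y (i + m) * h ^ m = h ^ m * Y i := by
          simp only [hY]
          rw [add_comm i m, pow_add]
          group
        rw [this, rho_mul_apply, hlam, map_smul]
      exact F.orth_of_eig (g := Y (i + m)) (hlamnorm _) (hlam _) h1 hi
    · push Not at hex
      exfalso
      have hcop : m.Coprime p :=
        Nat.coprime_comm.mp ((Nat.Prime.coprime_iff_not_dvd hp).mpr
          (fun hd => absurd (Nat.le_of_dvd hm0 hd) (by omega)))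
      obtain ⟨t, -, ht⟩ := Nat.exists_mul_mod_eq_one_of_coprime hcop hp.one_lt
      have hall : ∀ s : ℕ, lam (s * m) = lam 0 := by
        intro s
        induction s with
        | zero => simp
        | succ n ih =>
          rw [Nat.succ_mul, hex, ih]
      apply hne10
      rw [← hall t]
      apply hlam_unique
      rw [hYper 1, hYper (t * m), mul_comm t m, ht, Nat.mod_eq_of_lt hp.one_lt]
  refine allEig_of_forall hp hζ ?_
  intro i
  exact cyc_lemma F hζ hp0 hh W hWh hwE.1 hw0 horth i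

end Cfsg.Agent.Lib.Fusion.SpecB
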