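import Cfsg.Agent.Lib.Fusion.SpecB

/-!
# The angle argument

A pair of non-commuting conjugates of an element with narrow spectrum, both lying in a subgroup `H` with
the property that non-commuting conjugates generate `H`, leads to a contradiction.
-/

set_option autoImplicit false

namespace Cfsg.Agent.Lib.Fusion.SpecC

open scoped ComplexConjugate
open Cfsg.Agent.Lib.Fusion.SpecA Cfsg.Agent.Lib.Fusion.SpecB

variable {G : Type*} [Group G] {V : Type*} [AddCommGroup V] [Module ℂ V] {ρ : G →* (V →ₗ[ℂ] V)}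

/-- The basic estimate. -/
theorem key_ineq (F : HForm ρ) {W : Submodule ℂ V} {ε : ℂ} (hε : ‖ε‖ = 1) {A : G} {u w : V}
    (hu1 : F.B u u = 1) (hw1 : F.B w w = 1) (hAu : ρ A u = ε • u)
    (hnarrow : ∀ z ∈ W, (F.B z z).re / 2 ≤ (conj ε * F.B z (ρ A z)).re)
    (hu : u ∈ W) (hw : w ∈ W) :
    ‖F.B u w‖ ≤ 1 ∧ (‖F.B u w‖ = 1 → w = F.B u w • u) ∧
      (‖F.B u w‖ < 1 → ‖F.B u w‖ < ‖F.B w (ρ A w)‖) := by
  set a : ℂ := F.B u w with ha
  set w' : V := w - a • u with hw'
  have hB1 : F.B u w' = 0 := by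
    rw [hw', F.sub_right, F.smul_right, hu1, ← ha]
    ring
  have hB2 : F.B w' u = 0 := by
    rw [← F.conj_symm, hB1, map_zero]
  have hwu : F.B w u = conj a := by rw [ha, F.conj_symm]
  have hself : F.B w' w' = 1 - conj a * a := by
    have h1 : F.B w' (a • u) = 0 := by rw [F.smul_right, hB2, mul_zero]
    have h2 : F.B w' w' = F.B w' w := by
      have : F.B w' w' = F.B w' w - F.B w' (a • u) := by
        rw [← F.sub_right]
      rw [this, h1, sub_zero]
    rw [h2, hw', F.sub_left, F.smul_left, hw1, ← ha]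
  have hconj : conj a * a = ((‖a‖ ^ 2 : ℝ) : ℂ) := by
    rw [mul_comm, Complex.mul_conj, Complex.normSq_eq_norm_sq]
  have hre : (F.B w' w').re = 1 - ‖a‖ ^ 2 := by
    rw [hself, hconj, Complex.sub_re, Complex.one_re, Complex.ofReal_re]
  have hpos := F.pos w'
  have ht0 : 0 ≤ ‖a‖ := norm_nonneg a
  have ht1 : ‖a‖ ≤ 1 := by nlinarith
  refine ⟨ht1, ?_, ?_⟩
  · intro h1
    have h0 : F.B w' w' = 0 := by
      rw [hself, hconj, h1]
      simp
    have := F.definite _ h0
    rw [hw'] at this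
    exact sub_eq_zero.mp this
  · intro hlt
    have hε0 : ε ≠ 0 := by
      intro h0
      rw [h0, norm_zero] at hε
      exact zero_ne_one hε
    have hεε : conj ε * ε = 1 := by
      rw [mul_comm, Complex.mul_conj, Complex.normSq_eq_norm_sq, hε]
      simp
    have hconjε0 : conj ε ≠ 0 := by
      intro h0
      rw [h0, zero_mul] at hεε
      exact zero_ne_one hεε
    have hw'W : w' ∈ W := W.sub_mem hw (W.smul_mem _ hu)
    have hB3 : F.B u (ρ A w') = 0 := by
      have h := F.inv A u w'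
      rw [hAu, F.smul_left, hB1] at h
      exact (mul_eq_zero.mp h).resolve_left hconjε0
    have hwdec : w = a • u + w' := by rw [hw']; abel
    have hAw : ρ A w = (a * ε) • u + ρ A w' := by
      conv_lhs => rw [hwdec]
      rw [map_add, map_smul, hAu, smul_smul]
    have hB4 : F.B w (ρ A w) = conj a * a * ε + F.B w' (ρ A w') := by
      rw [hAw, F.add_right, F.smul_right, hwu]
      have : F.B w (ρ A w') = F.B w' (ρ A w') := by
        conv_lhs => rw [hwdec]
        rw [F.add_left, F.smul_left, hB3, mul_zero, zero_add]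
      rw [this]
      ring
    have hB5 : conj ε * F.B w (ρ A w) = conj a * a + conj ε * F.B w' (ρ A w') := by
      rw [hB4, mul_add]
      linear_combination (conj a * a) * hεε
    have hn := hnarrow w' hw'W
    have hre2 : (conj ε * F.B w (ρ A w)).re = ‖a‖ ^ 2 + (conj ε * F.B w' (ρ A w')).re := by
      rw [hB5, Complex.add_re, hconj, Complex.ofReal_re]
    have hle : (conj ε * F.B w (ρ A w)).re ≤ ‖F.B w (ρ A w)‖ := by
      have h := Complex.re_le_norm (conj ε * F.B w (ρ A w))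
      rwa [norm_mul, Complex.norm_conj, hε, one_mul] at h
    rw [hre] at hn
    nlinarith [sq_nonneg (1 - ‖a‖)]

theorem conj_comm {a b : G} (g : G) (h : Commute a b) : Commute (g * a * g⁻¹) (g * b * g⁻¹) := by
  have := h.map (MulAut.conj g).toMonoidHom
  simpa [MulAut.conj_apply] using this

/-- An element commuting with two generators commutes with the closure. -/
theorem comm_closure {c a b : G} (h1 : Commute c a) (h2 : Commute c b) {g : G}
    (hg : g ∈ Subgroup.closure ({a, b} : Set G)) : Commute c g := by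
  induction hg using Subgroup.closure_induction with
  | mem x hx =>
    rcases hx with rfl | hx
    · exact h1
    · rw [Set.mem_singleton_iff.mp hx]
      exact h2
  | one => exact Commute.one_right _
  | mul x y _ _ hx hy => exact hx.mul_right hy
  | inv x _ hx => exact hx.inv_right

/-- Two generators with a common eigenvector. -/
theorem line_closure {a b : G} {u : V} (hu : u ≠ 0) {c₁ c₂ : ℂ} (h1 : ρ a u = c₁ • u) (h2 : ρ b u = c₂ • u) {g : G}
    (hg : g ∈ Subgroup.closure ({a, b} : Set G)) : ∃ c : ℂ, ρ g u = c • u := by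
  induction hg using Subgroup.closure_induction with
  | mem x hx =>
    rcases hx with rfl | hx
    · exact ⟨_, h1⟩
    · rw [Set.mem_singleton_iff.mp hx]
      exact ⟨_, h2⟩
  | one => exact ⟨1, by simp⟩
  | mul x y _ _ hx hy =>
    obtain ⟨c, hc⟩ := hx
    obtain ⟨d, hd⟩ := hy
    exact ⟨c * d, by rw [rho_mul_apply, hd, map_smul, hc, smul_smul, mul_comm]⟩
  | inv x _ hx =>
    obtain ⟨c, hc⟩ := hx
    have hc0 : c ≠ 0 := by
      intro h0
      rw [h0, zero_smul] at hc
      exact rho_ne_zero x hu hc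
    refine ⟨c⁻¹, ?_⟩
    have h3 := rho_inv_apply (ρ := ρ) x u
    rw [hc, map_smul] at h3
    have h4 : ρ x⁻¹ u = c⁻¹ • (c • ρ x⁻¹ u) := by rw [smul_smul, inv_mul_cancel₀ hc0, one_smul]
    rw [h4, h3]

/-- The main contradiction. -/
theorem P_main [Fintype G] (F : HForm ρ) {p : ℕ} (hp : p.Prime) {ζ : ℂ} (hζ : IsPrimitiveRoot ζ p)
    (H : Subgroup G) (h : G) (hhH : h ∈ H) (hh : h ^ p = 1)
    (W : Submodule ℂ V) (hW : ∀ g ∈ H, ∀ u ∈ W, ρ g u ∈ W)
    (v : V) (hvW : v ∈ W) (hv1 : F.B v v = 1) (ε₀ : ℂ) (hv0 : ρ h v = ε₀ • v)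
    (m : ℕ) (hm : m.Coprime p) (ε : ℂ) (hε : ‖ε‖ = 1) (hvm : ρ (h ^ m) v = ε • v)
    (hnarrow : ∀ z ∈ W, (F.B z z).re / 2 ≤ (conj ε * F.B z (ρ (h ^ m) z)).re)
    (t₀ : G) (ht₀ : t₀ ∈ H) (hhk : ¬ Commute h (t₀ * h * t₀⁻¹))
    (hgen : ∀ s₁ ∈ H, ∀ s₂ ∈ H, ¬ Commute (s₁ * h * s₁⁻¹) (s₂ * h * s₂⁻¹) →
      H ≤ Subgroup.closure ({s₁ * h * s₁⁻¹, s₂ * h * s₂⁻¹} : Set G))
    (hline : ∀ u ∈ W, u ≠ 0 → ¬ ∀ g ∈ H, ∃ c : ℂ, ρ g u = c • u)
    (hA1 : ∀ s₁ ∈ H, ∀ s₂ ∈ H,
      Commute (s₁ * h ^ m * s₁⁻¹) ((s₂ * h ^ m * s₂⁻¹) * (s₁ * h ^ m * s₁⁻¹) * (s₂ * h ^ m * s₂⁻¹)⁻¹) →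
      Commute (s₂ * h ^ m * s₂⁻¹) ((s₁ * h ^ m * s₁⁻¹) * (s₂ * h ^ m * s₂⁻¹) * (s₁ * h ^ m * s₁⁻¹)⁻¹) →
      Commute (s₁ * h ^ m * s₁⁻¹) (s₂ * h ^ m * s₂⁻¹))
    (hfew : ¬ AllEig ρ W (h ^ m) p) (hfew2 : ¬ AllEig ρ W h p)
    (z : V) (hz : z ∈ W)
    (hmove : ρ (h * (t₀ * h * t₀⁻¹) * h⁻¹ * (t₀ * h * t₀⁻¹)⁻¹) z ≠ z) : False := by
  classical
  have hp0 := hp.ne_zero
  have hv0' : v ≠ 0 := by
    intro h0
    rw [h0, F.zero_right] at hv1
    exact zero_ne_one hv1
  set el : G → G := fun g => g * h * g⁻¹ with hel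
  set vec : G → V := fun g => ρ g v with hvec
  have hvecW : ∀ g ∈ H, vec g ∈ W := fun g hg => hW g hg v hvW
  have hvec0 : ∀ g, vec g ≠ 0 := fun g => rho_ne_zero g hv0'
  have hvec1 : ∀ g, F.B (vec g) (vec g) = 1 := fun g => by
    simp only [hvec]
    rw [F.inv, hv1]
  have helH : ∀ g ∈ H, el g ∈ H := fun g hg => H.mul_mem (H.mul_mem hg hhH) (H.inv_mem hg)
  have help : ∀ g, (el g) ^ p = 1 := fun g => by
    simp only [hel]
    rw [conj_pow, hh, mul_one, mul_inv_cancel]
  have helv : ∀ g, ρ (el g) (vec g) = ε₀ • vec g := fun g => by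
    simp only [hel, hvec]
    rw [← rho_mul_apply]
    have : g * h * g⁻¹ * g = g * h := by group
    rw [this, rho_mul_apply, hv0, map_smul]
  set elm : G → G := fun g => g * h ^ m * g⁻¹ with helm
  have helmH : ∀ g ∈ H, elm g ∈ H :=
    fun g hg => H.mul_mem (H.mul_mem hg (H.pow_mem hhH m)) (H.inv_mem hg)
  have helm_pow : ∀ g, elm g = (el g) ^ m := fun g => by
    simp only [helm, hel]
    rw [conj_pow]
  have helmv : ∀ g, ρ (elm g) (vec g) = ε • vec g := fun g => by
    simp only [helm, hvec]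
    rw [← rho_mul_apply]
    have : g * h ^ m * g⁻¹ * g = g * h ^ m := by group
    rw [this, rho_mul_apply, hvm, map_smul]
  have hnarrowg : ∀ g ∈ H, ∀ z ∈ W, (F.B z z).re / 2 ≤ (conj ε * F.B z (ρ (elm g) z)).re := by
    intro g hg z hz
    have h1 := hnarrow (ρ g⁻¹ z) (hW _ (H.inv_mem hg) z hz)
    have h2 : F.B (ρ g⁻¹ z) (ρ g⁻¹ z) = F.B z z := F.inv _ _ _
    have h3 : F.B (ρ g⁻¹ z) (ρ (h ^ m) (ρ g⁻¹ z)) = F.B z (ρ (elm g) z) := by
      have h4 := F.inv g (ρ g⁻¹ z) (ρ (h ^ m) (ρ g⁻¹ z))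
      rw [rho_apply_inv] at h4
      rw [← h4]
      congr 1
      simp only [helm]
      simp only [rho_mul_apply]
    rwa [h2, h3] at h1
  -- inverse of `m`
  obtain ⟨m₁, -, hm₁⟩ := Nat.exists_mul_mod_eq_one_of_coprime hm hp.one_lt
  have hpow_back : ∀ g, (elm g) ^ m₁ = el g := fun g => by
    rw [helm_pow, ← pow_mul, pow_eq_pow_mod _ (help g), hm₁, pow_one]
  have hel1 : el 1 = h := by simp [hel]
  have hel_mul : ∀ (g g' : G), el (g * g') = g * el g' * g⁻¹ := fun g g' => by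
    simp only [hel]
    group
  have hvec_mul : ∀ (g g' : G), vec (g * g') = ρ g (vec g') := fun g g' => rho_mul_apply _ _ _
  -- the family of pairs
  set Fam : Finset (G × G) := Finset.univ.filter
    (fun q : G × G => q.1 ∈ H ∧ q.2 ∈ H ∧ ¬ Commute (el q.1) (el q.2)) with hFam
  have hFmem : ∀ q : G × G, q ∈ Fam ↔ q.1 ∈ H ∧ q.2 ∈ H ∧ ¬ Commute (el q.1) (el q.2) := by
    intro q
    simp [hFam]
  have hne : Fam.Nonempty := ⟨(1, t₀), (hFmem _).mpr ⟨H.one_mem, ht₀, by
    show ¬ Commute (el 1) (el t₀)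
    rw [hel1]
    exact hhk⟩⟩
  obtain ⟨⟨g₁, g₂⟩, hq, hmax⟩ := Finset.exists_max_image Fam
    (fun q : G × G => ‖F.B (vec q.1) (vec q.2)‖) hne
  obtain ⟨hg₁, hg₂, hnc⟩ := (hFmem _).mp hq
  simp only at hg₁ hg₂ hnc hmax
  by_cases hM : F.B (vec g₁) (vec g₂) = 0
  · -- all orthogonal
    have hall : ∀ g g', g ∈ H → g' ∈ H → ¬ Commute (el g) (el g') → F.B (vec g) (vec g') = 0 := by
      intro g g' hg hg' hc
      have := hmax (g, g') ((hFmem _).mpr ⟨hg, hg', hc⟩)
      simp only at this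
      rw [hM, norm_zero] at this
      exact norm_le_zero_iff.mp this
    set y : G := el t₀ with hy
    have hh' : (h ^ m) ^ p = 1 := by rw [← pow_mul, mul_comm, pow_mul, hh, one_pow]
    have hh'H : h ^ m ∈ H := H.pow_mem hhH m
    by_cases hI : ∀ n, 0 < n → n < p → ¬ Commute y ((h ^ m) ^ n * y * ((h ^ m) ^ n)⁻¹)
    · apply hfew
      refine allEig_of_forall hp hζ fun j => ?_
      refine cyc_lemma F hζ hp0 hh' W (hW _ hh'H) (hvecW t₀ ht₀) (hvec0 t₀) ?_ j
      intro n hn0 hnp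
      have hgH : (h ^ m) ^ n * t₀ ∈ H := H.mul_mem (H.pow_mem hh'H n) ht₀
      have := hall t₀ ((h ^ m) ^ n * t₀) ht₀ hgH (by
        rw [hel_mul]
        exact hI n hn0 hnp)
      simpa only [hvec, rho_mul_apply] using this
    · push Not at hI
      obtain ⟨n, hn0, hnp, hc⟩ := hI
      set z₁ : G := (h ^ m) ^ n with hz₁
      have hz₁H : z₁ ∈ H := H.pow_mem hh'H n
      have hz₁h : Commute z₁ h := by
        rw [hz₁, ← pow_mul]
        exact (Commute.refl h).pow_left _
      have hyi : ∀ i : ℕ, z₁ ^ i * y * (z₁ ^ i)⁻¹ = el (z₁ ^ i * t₀) := fun i => (hel_mul _ _).symm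
      have hchain : ∀ i : ℕ, Commute y (z₁ ^ i * y * (z₁ ^ i)⁻¹) := by
        intro i
        induction i with
        | zero => simp
        | succ i ih =>
          by_contra hnc'
          have hs₁ : z₁ ^ (i + 1) * t₀ ∈ H := H.mul_mem (H.pow_mem hz₁H _) ht₀
          have hs₀ : z₁ ^ i * t₀ ∈ H := H.mul_mem (H.pow_mem hz₁H _) ht₀
          have hgen' := hgen t₀ ht₀ _ hs₁ (by
            have := hnc'
            rw [hyi] at this
            exact this)
          set yi : G := z₁ ^ i * y * (z₁ ^ i)⁻¹ with hyidef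
          have hc1 : Commute yi y := ih.symm
          have hc2 : Commute yi (z₁ ^ (i + 1) * y * (z₁ ^ (i + 1))⁻¹) := by
            have h5 := conj_comm (z₁ ^ i) hc
            have h6 : z₁ ^ i * (z₁ * y * z₁⁻¹) * (z₁ ^ i)⁻¹ = z₁ ^ (i + 1) * y * (z₁ ^ (i + 1))⁻¹ := by
              rw [pow_succ]
              group
            rw [h6] at h5
            exact h5
          have hcent : ∀ g ∈ H, Commute yi g := by
            intro g hg
            refine comm_closure (a := el t₀) (b := el (z₁ ^ (i + 1) * t₀)) hc1 ?_ (hgen' hg)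
            rw [← hyi]
            exact hc2
          have hyih : yi = h := by
            have h7 := hcent _ hs₀
            have h8 : yi = (z₁ ^ i * t₀) * h * (z₁ ^ i * t₀)⁻¹ := hyi i
            have h9 : h = (z₁ ^ i * t₀)⁻¹ * yi * (z₁ ^ i * t₀) := by
              rw [h8]
              group
            have h10 : (z₁ ^ i * t₀)⁻¹ * yi * (z₁ ^ i * t₀) = yi := by
              rw [mul_assoc, h7.eq, ← mul_assoc, inv_mul_cancel, one_mul]
            exact (h9.trans h10).symm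
          have hyh : y = h := by
            have h10 : y = (z₁ ^ i)⁻¹ * yi * z₁ ^ i := by
              rw [hyidef]
              group
            rw [h10, hyih]
            have h11 : Commute (z₁ ^ i) h := hz₁h.pow_left i
            rw [mul_assoc, h11.symm.eq, ← mul_assoc, inv_mul_cancel, one_mul]
          apply hhk
          have : t₀ * h * t₀⁻¹ = h := hyh
          rw [this]
      have hmn : (m * n).Coprime p :=
        Nat.Coprime.mul_left hm (Nat.coprime_comm.mp ((Nat.Prime.coprime_iff_not_dvd hp).mpr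
          (fun hd => absurd (Nat.le_of_dvd hn0 hd) (by omega))))
      obtain ⟨t₂, -, ht₂⟩ := Nat.exists_mul_mod_eq_one_of_coprime hmn hp.one_lt
      have hz₁pow : z₁ ^ t₂ = h := by
        rw [hz₁, ← pow_mul, ← pow_mul, ← mul_assoc, pow_eq_pow_mod _ hh, ht₂, pow_one]
      have hchain2 : ∀ j : ℕ, Commute y (h ^ j * y * (h ^ j)⁻¹) := by
        intro j
        have := hchain (t₂ * j)
        rwa [pow_mul, hz₁pow] at this
      have hcomm : ∀ i j : ℕ, Commute (h ^ i * y * (h ^ i)⁻¹) (h ^ j * y * (h ^ j)⁻¹) := by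
        have key : ∀ i d : ℕ, Commute (h ^ i * y * (h ^ i)⁻¹) (h ^ (i + d) * y * (h ^ (i + d))⁻¹) := by
          intro i d
          have h5 := conj_comm (h ^ i) (hchain2 d)
          have h6 : h ^ i * (h ^ d * y * (h ^ d)⁻¹) * (h ^ i)⁻¹ = h ^ (i + d) * y * (h ^ (i + d))⁻¹ := by
            rw [pow_add]
            group
          rwa [h6] at h5
        intro i j
        rcases le_total i j with hij | hij
        · obtain ⟨d, rfl⟩ := Nat.exists_eq_add_of_le hij
          exact key i d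
        · obtain ⟨d, rfl⟩ := Nat.exists_eq_add_of_le hij
          exact (key j d).symm
      have hyH : y ∈ H := helH t₀ ht₀
      have hconjH : ∀ i : ℕ, h ^ i * y * (h ^ i)⁻¹ ∈ H := fun i =>
        H.mul_mem (H.mul_mem (H.pow_mem hhH i) hyH) (H.inv_mem (H.pow_mem hhH i))
      have hdH : h * y * h⁻¹ * y⁻¹ ∈ H :=
        H.mul_mem (H.mul_mem (H.mul_mem hhH hyH) (H.inv_mem hhH)) (H.inv_mem hyH)
      exact hfew2 (two_finish F hp hζ hh (help t₀) W (hW h hhH) (fun i u hu => hW _ (hconjH i) u hu)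
        (fun u hu => hW _ hdH u hu) hcomm hz hmove)
  · have hu1 := hvec1 g₁
    have hw1 := hvec1 g₂
    obtain ⟨h1, h2, h3⟩ := key_ineq F (W := W) hε (A := elm g₁) hu1 hw1 (helmv g₁) (hnarrowg g₁ hg₁)
      (hvecW g₁ hg₁) (hvecW g₂ hg₂)
    rcases lt_or_eq_of_le h1 with hlt | heq
    · have hbig := h3 hlt
      have hc₁ : Commute (el g₂) (elm g₁ * el g₂ * (elm g₁)⁻¹) := by
        by_contra hc
        have hmemF : (g₂, elm g₁ * g₂) ∈ Fam := (hFmem _).mpr ⟨hg₂, H.mul_mem (helmH g₁ hg₁) hg₂, by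
          show ¬ Commute (el g₂) (el (elm g₁ * g₂))
          rw [hel_mul]
          exact hc⟩
        have hle := hmax _ hmemF
        simp only at hle
        rw [hvec_mul] at hle
        exact absurd hbig (not_lt.mpr hle)
      obtain ⟨-, -, h3'⟩ := key_ineq F (W := W) hε (A := elm g₂) hw1 hu1 (helmv g₂) (hnarrowg g₂ hg₂)
        (hvecW g₂ hg₂) (hvecW g₁ hg₁)
      have hnsymm : ‖F.B (vec g₂) (vec g₁)‖ = ‖F.B (vec g₁) (vec g₂)‖ := by
        rw [← F.conj_symm, Complex.norm_conj]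
      rw [hnsymm] at h3'
      have hbig' := h3' hlt
      have hc₂ : Commute (el g₁) (elm g₂ * el g₁ * (elm g₂)⁻¹) := by
        by_contra hc
        have hmemF : (g₁, elm g₂ * g₁) ∈ Fam := (hFmem _).mpr ⟨hg₁, H.mul_mem (helmH g₂ hg₂) hg₁, by
          show ¬ Commute (el g₁) (el (elm g₂ * g₁))
          rw [hel_mul]
          exact hc⟩
        have hle := hmax _ hmemF
        simp only at hle
        rw [hvec_mul] at hle
        exact absurd hbig' (not_lt.mpr hle)
      have hA := hA1 g₁ hg₁ g₂ hg₂ (by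
        show Commute (elm g₁) (elm g₂ * elm g₁ * (elm g₂)⁻¹)
        have h5 := hc₂.pow_pow m m
        have h6 : (elm g₂ * el g₁ * (elm g₂)⁻¹) ^ m = elm g₂ * elm g₁ * (elm g₂)⁻¹ := by
          rw [conj_pow, ← helm_pow]
        rw [h6, ← helm_pow] at h5
        exact h5) (by
        show Commute (elm g₂) (elm g₁ * elm g₂ * (elm g₁)⁻¹)
        have h5 := hc₁.pow_pow m m
        have h6 : (elm g₁ * el g₂ * (elm g₁)⁻¹) ^ m = elm g₁ * elm g₂ * (elm g₁)⁻¹ := by
          rw [conj_pow, ← helm_pow]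
        rw [h6, ← helm_pow] at h5
        exact h5)
      apply hnc
      have h5 : Commute (elm g₁) (elm g₂) := hA
      have h6 := h5.pow_pow m₁ m₁
      rwa [hpow_back, hpow_back] at h6
    · have hw := h2 heq
      have hb : ρ (el g₂) (vec g₁) = ε₀ • vec g₁ := by
        have h5 := helv g₂
        rw [hw, map_smul, smul_comm] at h5
        have h6 : F.B (vec g₁) (vec g₂) • (ρ (el g₂) (vec g₁) - ε₀ • vec g₁) = 0 := by
          rw [smul_sub, sub_eq_zero]
          exact h5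
        exact sub_eq_zero.mp ((smul_eq_zero.mp h6).resolve_left hM)
      refine hline (vec g₁) (hvecW g₁ hg₁) (hvec0 g₁) ?_
      intro g hg
      exact line_closure (a := el g₁) (b := el g₂) (hvec0 g₁) (helv g₁) hb (hgen g₁ hg₁ g₂ hg₂ hnc hg)

end Cfsg.Agent.Lib.Fusion.SpecC
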