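import Cfsg.Agent.Lib.Fusion.SpecC

/-!
# A Blichfeldt-Brauer theorem

If `x` has prime order `p` and at most `k` eigenvalues in a faithful unitary representation, where
`6 ^ (k - 1) < p`, then all conjugates of `x` commute.
-/

set_option autoImplicit false

namespace Cfsg.Agent.Lib.Fusion.SpecD

open scoped ComplexConjugate
open Cfsg.Agent.Lib.Fusion.SpecA Cfsg.Agent.Lib.Fusion.SpecB Cfsg.Agent.Lib.Fusion.SpecC

/-- The standard primitive `p`-th root of unity. -/
noncomputable def zet (p : ℕ) : ℂ := Complex.exp (2 * Real.pi * Complex.I / p)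

theorem zet_prim {p : ℕ} (hp0 : p ≠ 0) : IsPrimitiveRoot (zet p) p := Complex.isPrimitiveRoot_exp p hp0

theorem zet_norm {p : ℕ} (hp0 : p ≠ 0) : ‖zet p‖ = 1 :=
  Complex.norm_eq_one_of_pow_eq_one (zet_prim hp0).pow_eq_one hp0

theorem val_re {p : ℕ} (hp0 : p ≠ 0) (m s e : ℕ) :
    (conj (zet p ^ (m * e)) * zet p ^ (m * s)).re = Real.cos (2 * Real.pi * ((m : ℝ) * ((s : ℝ) - e) / p)) := by
  have hpc : (p : ℂ) ≠ 0 := by exact_mod_cast hp0
  have h : ∀ n : ℕ, zet p ^ n = Complex.exp (((2 * Real.pi * ((n : ℝ) / p) : ℝ) : ℂ) * Complex.I) := by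
    intro n
    unfold zet
    rw [← Complex.exp_nat_mul]
    congr 1
    push_cast
    field_simp
  rw [h, h, ← Complex.exp_conj, ← Complex.exp_add]
  have h2 : (conj (((2 * Real.pi * (((m * e : ℕ) : ℝ) / p) : ℝ) : ℂ) * Complex.I) +
      ((2 * Real.pi * (((m * s : ℕ) : ℝ) / p) : ℝ) : ℂ) * Complex.I) =
      ((2 * Real.pi * ((m : ℝ) * ((s : ℝ) - e) / p) : ℝ) : ℂ) * Complex.I := by
    rw [map_mul, Complex.conj_I, Complex.conj_ofReal]
    push_cast
    ring
  rw [h2, Complex.exp_ofReal_mul_I_re]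

theorem cos_ge {δ : ℝ} (h : |δ| ≤ 1 / 6) : 1 / 2 ≤ Real.cos (2 * Real.pi * δ) := by
  have hpi := Real.pi_pos
  have h1 : Real.cos (2 * Real.pi * δ) = Real.cos |2 * Real.pi * δ| := (Real.cos_abs _).symm
  rw [h1, ← Real.cos_pi_div_three]
  apply Real.cos_le_cos_of_nonneg_of_le_pi (abs_nonneg _) (by linarith)
  rw [abs_mul, abs_of_pos (by positivity : (0 : ℝ) < 2 * Real.pi)]
  nlinarith

/-- Simultaneous approximation. -/
theorem dirichlet {p : ℕ} (hp : p.Prime) (J : Finset ℕ) (e : ℕ) (he : e ∈ J) {k : ℕ} (hcard : J.card ≤ k)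
    (hk : 6 ^ (k - 1) < p) :
    ∃ m, 0 < m ∧ m < p ∧ ∀ s ∈ J, 1 / 2 ≤ (conj (zet p ^ (m * e)) * zet p ^ (m * s)).re := by
  classical
  have hp0 := hp.ne_zero
  have hpR : (0 : ℝ) < p := by exact_mod_cast hp.pos
  set J' : Finset ℕ := J.erase e with hJ'
  have hcardJ' : J'.card ≤ k - 1 := by
    rw [hJ', Finset.card_erase_of_mem he]
    omega
  set θ : ℕ → ℕ → ℝ := fun r s => Int.fract ((r : ℝ) * ((s : ℝ) - e) / p) with hθ
  have hθ0 : ∀ r s, 0 ≤ θ r s := fun r s => Int.fract_nonneg _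
  have hθ1 : ∀ r s, θ r s < 1 := fun r s => Int.fract_lt_one _
  have hbox : ∀ r s, ⌊6 * θ r s⌋₊ < 6 := by
    intro r s
    have : ⌊6 * θ r s⌋₊ < 6 := by
      rw [Nat.floor_lt (by have := hθ0 r s; positivity)]
      have := hθ1 r s
      push_cast
      linarith
    exact this
  let f : Fin p → (J' → Fin 6) := fun r s => ⟨⌊6 * θ r s⌋₊, hbox r s⟩
  have hlt : Fintype.card (J' → Fin 6) < Fintype.card (Fin p) := by
    rw [Fintype.card_fun, Fintype.card_fin, Fintype.card_fin, Fintype.card_coe]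
    exact lt_of_le_of_lt (Nat.pow_le_pow_right (by norm_num) hcardJ') hk
  obtain ⟨r₁, r₂, hne, hf⟩ := Fintype.exists_ne_map_eq_of_card_lt f hlt
  -- the conclusion for a pair `a < b` with equal boxes
  have key : ∀ a b : Fin p, (a : ℕ) < b → f a = f b →
      ∃ m, 0 < m ∧ m < p ∧ ∀ s ∈ J, 1 / 2 ≤ (conj (zet p ^ (m * e)) * zet p ^ (m * s)).re := by
    intro a b hab hfab
    refine ⟨(b : ℕ) - a, by omega, by have := b.2; omega, ?_⟩
    intro s hs
    rw [val_re hp0]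
    set x : ℝ := ((s : ℝ) - e) / p with hx
    have hcast : (((b : ℕ) - (a : ℕ) : ℕ) : ℝ) = (b : ℝ) - a := by
      rw [Nat.cast_sub hab.le]
    have hrew : (((b : ℕ) - (a : ℕ) : ℕ) : ℝ) * ((s : ℝ) - e) / p = ((b : ℝ) - a) * x := by
      rw [hcast, hx]
      ring
    rw [hrew]
    by_cases hse : s = e
    · subst hse
      have : x = 0 := by simp [hx]
      rw [this]
      simp
      norm_num
    · have hsJ' : s ∈ J' := Finset.mem_erase.mpr ⟨hse, hs⟩
      have hb := congrFun hfab ⟨s, hsJ'⟩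
      have hb2 : ⌊6 * θ a s⌋₊ = ⌊6 * θ b s⌋₊ := congrArg Fin.val hb
      have h1 := Nat.floor_le (by have := hθ0 a s; positivity : 0 ≤ 6 * θ a s)
      have h2 := Nat.lt_floor_add_one (6 * θ a s)
      have h3 := Nat.floor_le (by have := hθ0 b s; positivity : 0 ≤ 6 * θ b s)
      have h4 := Nat.lt_floor_add_one (6 * θ b s)
      rw [← hb2] at h3 h4
      have hδ : |θ b s - θ a s| ≤ 1 / 6 := by
        rw [abs_le]
        constructor <;> linarith
      set N : ℤ := ⌊(b : ℝ) * ((s : ℝ) - e) / p⌋ - ⌊(a : ℝ) * ((s : ℝ) - e) / p⌋ with hN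
      have hdec : ((b : ℝ) - a) * x = (θ b s - θ a s) + N := by
        simp only [hθ, hN, Int.fract]
        push_cast
        rw [hx]
        ring
      have hcos : Real.cos (2 * Real.pi * (((b : ℝ) - a) * x)) = Real.cos (2 * Real.pi * (θ b s - θ a s)) := by
        rw [hdec]
        have : 2 * Real.pi * (θ b s - θ a s + N) = 2 * Real.pi * (θ b s - θ a s) + N * (2 * Real.pi) := by ring
        rw [this, Real.cos_add_int_mul_two_pi]
      rw [hcos]
      exact cos_ge hδ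
  rcases lt_or_gt_of_ne (fun h => hne (Fin.ext h) : (r₁ : ℕ) ≠ r₂) with h | h
  · exact key r₁ r₂ h hf
  · exact key r₂ r₁ h hf.symm

variable {G : Type*} [Group G] {V : Type*} [AddCommGroup V] [Module ℂ V] {ρ : G →* (V →ₗ[ℂ] V)}

/-- The orthogonal complement of a vector. -/
def orthSub (F : HForm ρ) (u : V) : Submodule ℂ V where
  carrier := {z | F.B u z = 0}
  add_mem' := by
    intro a b ha hb
    simp only [Set.mem_ofPred_eq] at ha hb ⊢
    rw [F.add_right, ha, hb, add_zero]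
  zero_mem' := F.zero_right u
  smul_mem' := by
    intro c a ha
    simp only [Set.mem_ofPred_eq] at ha ⊢
    rw [F.smul_right, ha, mul_zero]

theorem mem_orthSub (F : HForm ρ) (u z : V) : z ∈ orthSub F u ↔ F.B u z = 0 := Iff.rfl

/-- The central commutator lemma for conjugates of powers of `x`. -/
theorem a1' {p : ℕ} (hp : p.Prime) (hfaith : Function.Injective ρ) {x : G} (hx : x ^ p = 1)
    (hfew : ¬ AllEig ρ ⊤ x p) {a b t : G} {m : ℕ} (hm : m.Coprime p) (ha : a = t * x ^ m * t⁻¹)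
    (_hb : b ^ p = 1) (h1 : Commute a (b * a * b⁻¹)) (h2 : Commute b (a * b * a⁻¹)) : Commute a b := by
  have hp0 := hp.ne_zero
  by_contra hnc
  have hap : a ^ p = 1 := by
    rw [ha, conj_pow, ← pow_mul, mul_comm, pow_mul, hx, one_pow, mul_one, mul_inv_cancel]
  set c : G := a⁻¹ * (b * a * b⁻¹) with hc
  have hac : a * c = b * a * b⁻¹ := by rw [hc]; group
  have hc1 : c ≠ 1 := by
    intro h0
    apply hnc
    have h3 : b * a * b⁻¹ = a := by rw [← hac, h0, mul_one]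
    have : b * a = a * b := by
      calc b * a = b * a * b⁻¹ * b := by group
        _ = a * b := by rw [h3]
    exact this.symm
  have hca : Commute c a := (Commute.inv_left (Commute.refl a)).mul_left h1.symm
  have hcb : Commute c b := by
    have h3 : Commute (a⁻¹ * b * a) b := by
      have h4 := conj_comm a⁻¹ h2.symm
      have h5 : a⁻¹ * (a * b * a⁻¹) * a⁻¹⁻¹ = b := by group
      have h6 : a⁻¹ * b * a⁻¹⁻¹ = a⁻¹ * b * a := by group
      rw [h5, h6] at h4
      exact h4.symm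
    have h7 : c = (a⁻¹ * b * a) * b⁻¹ := by rw [hc]; group
    rw [h7]
    exact h3.mul_left (Commute.inv_left (Commute.refl b))
  have hcp : c ^ p = 1 := by
    have h3 : Commute a⁻¹ (b * a * b⁻¹) := h1.inv_left
    rw [hc, h3.mul_pow, inv_pow, hap, inv_one, one_mul, conj_pow, hap, mul_one, mul_inv_cancel]
  have hζ := zet_prim hp0
  have hall := a1 hp hζ hfaith hap hac.symm hca hcb hcp hc1
  apply hfew
  rw [ha] at hall
  exact allEig_pow hp hx hm (allEig_conj t _ hall)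

/-- Eigenvalues of powers. -/
theorem rho_pow_eig {g : G} {v : V} {l : ℂ} (h : ρ g v = l • v) (m : ℕ) : ρ (g ^ m) v = (l ^ m) • v := by
  induction m with
  | zero => simp
  | succ n ih => rw [pow_succ', rho_mul_apply, ih, map_smul, h, smul_smul, pow_succ]

/-- The case analysis after fixing a minimal pair. -/
theorem main_case [Fintype G] [FiniteDimensional ℂ V] (F : HForm ρ) (hfaith : Function.Injective ρ) {p : ℕ}
    (hp : p.Prime) {x : G} (hx : x ^ p = 1) (J : Finset ℕ)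
    (hJ : ∀ j, j < p → ∀ v, v ≠ 0 → ρ x v = (zet p ^ j) • v → j ∈ J) {k : ℕ} (hcard : J.card ≤ k)
    (hk : 6 ^ (k - 1) < p) (s₀ s₁ : G)
    (hmin : ∀ q r : G, ¬ Commute (q * x * q⁻¹) (r * x * r⁻¹) →
      Nat.card (Subgroup.closure ({s₀ * x * s₀⁻¹, s₁ * x * s₁⁻¹} : Set G)) ≤
      Nat.card (Subgroup.closure ({q * x * q⁻¹, r * x * r⁻¹} : Set G)))
    (hnc : ¬ Commute (s₀ * x * s₀⁻¹) ((s₁ * x * s₁⁻¹) * (s₀ * x * s₀⁻¹) * (s₁ * x * s₁⁻¹)⁻¹)) : False := by
  classical
  have hp0 := hp.ne_zero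
  have hζ := zet_prim hp0
  have hnorm := zet_norm hp0
  -- `x` does not have all eigenvalues
  have hbig : ∀ J' : Finset ℕ, J'.card ≤ k → ¬ (Finset.range p ⊆ J') := by
    intro J' hJ' hsub
    have h1 := Finset.card_le_card hsub
    rw [Finset.card_range] at h1
    have h2 : k - 1 < 6 ^ (k - 1) := Nat.lt_pow_self (by norm_num)
    omega
  have hfewV : ¬ AllEig ρ ⊤ x p := by
    intro hall
    refine hbig J hcard fun j hj => ?_
    obtain ⟨v, -, hv0, hv⟩ := hall (zet p ^ j) (by rw [← pow_mul, mul_comm, pow_mul, hζ.pow_eq_one, one_pow])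
    exact hJ j (Finset.mem_range.mp hj) v hv0 hv
  set h : G := s₀ * x * s₀⁻¹ with hh_def
  set t₀ : G := s₁ * x * s₁⁻¹ with ht₀_def
  set H : Subgroup G := Subgroup.closure ({h, t₀} : Set G) with hH
  have hhH : h ∈ H := Subgroup.subset_closure (by simp)
  have ht₀H : t₀ ∈ H := Subgroup.subset_closure (by simp)
  have hh : h ^ p = 1 := by
    rw [hh_def, conj_pow, hx, mul_one, mul_inv_cancel]
  have hconjx : ∀ t : G, t * h * t⁻¹ = (t * s₀) * x * (t * s₀)⁻¹ := fun t => by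
    rw [hh_def]
    group
  -- generation
  have hgen : ∀ s₁' ∈ H, ∀ s₂' ∈ H, ¬ Commute (s₁' * h * s₁'⁻¹) (s₂' * h * s₂'⁻¹) →
      H ≤ Subgroup.closure ({s₁' * h * s₁'⁻¹, s₂' * h * s₂'⁻¹} : Set G) := by
    intro a ha b hb hcomm
    have hle : Subgroup.closure ({a * h * a⁻¹, b * h * b⁻¹} : Set G) ≤ H := by
      rw [Subgroup.closure_le]
      intro y hy
      rcases hy with rfl | hy
      · exact H.mul_mem (H.mul_mem ha hhH) (H.inv_mem ha)
      · rw [Set.mem_singleton_iff.mp hy]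
        exact H.mul_mem (H.mul_mem hb hhH) (H.inv_mem hb)
    have hc := hmin (a * s₀) (b * s₀) (by
      rw [← hconjx, ← hconjx]
      exact hcomm)
    rw [← hconjx, ← hconjx] at hc
    have := Subgroup.eq_of_le_of_card_ge hle hc
    exact this.ge
  have hnc' : ¬ Commute h (t₀ * h * t₀⁻¹) := hnc
  set c : G := h * (t₀ * h * t₀⁻¹) * h⁻¹ * (t₀ * h * t₀⁻¹)⁻¹ with hc
  have hc1 : c ≠ 1 := by
    intro h0
    apply hnc'
    have h1 : h * (t₀ * h * t₀⁻¹) = (t₀ * h * t₀⁻¹) * h := by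
      calc h * (t₀ * h * t₀⁻¹) = c * ((t₀ * h * t₀⁻¹) * h) := by rw [hc]; group
        _ = (t₀ * h * t₀⁻¹) * h := by rw [h0, one_mul]
    exact h1
  have hcH : c ∈ H := by
    have hkH : t₀ * h * t₀⁻¹ ∈ H := H.mul_mem (H.mul_mem ht₀H hhH) (H.inv_mem ht₀H)
    exact H.mul_mem (H.mul_mem (H.mul_mem hhH hkH) (H.inv_mem hhH)) (H.inv_mem hkH)
  have hmoveTop : ∃ z, ρ c z ≠ z := by
    by_contra hno
    push Not at hno
    apply hc1
    apply hfaith
    rw [map_one]
    ext1 z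
    simpa using hno z
  -- a minimal invariant subspace
  set Sset : Set (Submodule ℂ V) := {W | (∀ g ∈ H, ∀ u ∈ W, ρ g u ∈ W) ∧ ∃ z ∈ W, ρ c z ≠ z} with hSset
  have hSne : Sset.Nonempty := by
    obtain ⟨z, hz⟩ := hmoveTop
    exact ⟨⊤, fun _ _ _ _ => Submodule.mem_top, z, Submodule.mem_top, hz⟩
  obtain ⟨W, ⟨hW, z, hz, hmove⟩, hWmin⟩ :=
    (InvImage.wf (fun W : Submodule ℂ V => Module.finrank ℂ W) Nat.lt_wfRel.wf).has_min Sset hSne
  have hline : ∀ u ∈ W, u ≠ 0 → ¬ ∀ g ∈ H, ∃ c' : ℂ, ρ g u = c' • u := by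
    intro u huW hu0 hall
    set W' : Submodule ℂ V := W ⊓ orthSub F u with hW'
    have hmem' : ∀ y, y ∈ W' ↔ y ∈ W ∧ F.B u y = 0 := fun y => by
      rw [hW', Submodule.mem_inf, mem_orthSub]
    have hinv' : ∀ g ∈ H, ∀ y ∈ W', ρ g y ∈ W' := by
      intro g hg y hy
      rw [hmem'] at hy ⊢
      refine ⟨hW g hg y hy.1, ?_⟩
      obtain ⟨c', hc'⟩ := hall g hg
      have hc'0 : c' ≠ 0 := by
        intro h0
        rw [h0, zero_smul] at hc'
        exact rho_ne_zero g hu0 hc'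
      have h1 := F.inv g u y
      rw [hc', F.smul_left, hy.2] at h1
      refine (mul_eq_zero.mp h1).resolve_left ?_
      intro h2
      exact hc'0 (by simpa using h2)
    have hlt : W' < W := by
      refine lt_of_le_of_ne inf_le_left ?_
      intro he
      have h1 : u ∈ W' := by rw [he]; exact huW
      exact F.self_ne_zero hu0 ((hmem' u).mp h1).2
    have hfin := Submodule.finrank_lt_finrank_of_lt hlt
    have hfix : ∀ y ∈ W', ρ c y = y := by
      intro y hy
      by_contra hne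
      exact hWmin W' ⟨hinv', y, hy, hne⟩ hfin
    have hkH : t₀ * h * t₀⁻¹ ∈ H := H.mul_mem (H.mul_mem ht₀H hhH) (H.inv_mem ht₀H)
    obtain ⟨a, ha⟩ := hall h hhH
    obtain ⟨b, hb⟩ := hall _ hkH
    obtain ⟨a', ha'⟩ := hall _ (H.inv_mem hhH)
    obtain ⟨b', hb'⟩ := hall _ (H.inv_mem hkH)
    have haa : a * a' = 1 := by
      have h1 := rho_apply_inv (ρ := ρ) h u
      rw [ha', map_smul, ha, smul_smul] at h1
      have h2 : (a' * a - 1) • u = 0 := by rw [sub_smul, h1, one_smul, sub_self]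
      have h3 := sub_eq_zero.mp ((smul_eq_zero.mp h2).resolve_right hu0)
      rw [mul_comm, h3]
    have hbb : b * b' = 1 := by
      have h1 := rho_apply_inv (ρ := ρ) (t₀ * h * t₀⁻¹) u
      rw [hb', map_smul, hb, smul_smul] at h1
      have h2 : (b' * b - 1) • u = 0 := by rw [sub_smul, h1, one_smul, sub_self]
      have h3 := sub_eq_zero.mp ((smul_eq_zero.mp h2).resolve_right hu0)
      rw [mul_comm, h3]
    have hcu : ρ c u = u := by
      have h1 : ρ c u = (a * (b * (a' * b'))) • u := by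
        rw [hc]
        simp only [rho_mul_apply, hb', ha', hb, ha, map_smul, smul_smul]
        congr 1
        ring
      rw [h1]
      have : a * (b * (a' * b')) = (a * a') * (b * b') := by ring
      rw [this, haa, hbb, one_mul, one_smul]
    apply hmove
    set r : ℂ := F.B u z / F.B u u with hr
    set z' : V := z - r • u with hz'
    have hz'W : z' ∈ W' := by
      rw [hmem']
      refine ⟨W.sub_mem hz (W.smul_mem _ huW), ?_⟩
      rw [hz', F.sub_right, F.smul_right, hr, div_mul_cancel₀ _ (F.self_ne_zero hu0), sub_self]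
    have hdec : z = r • u + z' := by rw [hz']; abel
    rw [hdec, map_add, map_smul, hcu, hfix z' hz'W]
  have hz0 : z ≠ 0 := by
    intro h0
    apply hmove
    rw [h0, map_zero]
  obtain ⟨j₀, hj₀, v₀, hv₀W, hv₀0, hv₀⟩ := exists_eig_on (ρ := ρ) hζ hp0 hh W (hW h hhH) hz hz0
  -- normalisation
  set N : ℝ := (F.B v₀ v₀).re with hN
  have hNpos : 0 < N := F.self_re_pos hv₀0
  set r : ℝ := (Real.sqrt N)⁻¹ with hr
  set v : V := (r : ℂ) • v₀ with hv
  have hvW : v ∈ W := W.smul_mem _ hv₀W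
  have hv1 : F.B v v = 1 := by
    rw [hv, F.smul_left, F.smul_right, F.self_eq v₀, ← hN, Complex.conj_ofReal, ← mul_assoc]
    have h1 : r * r * N = 1 := by
      rw [hr, ← mul_inv, Real.mul_self_sqrt hNpos.le, inv_mul_cancel₀ hNpos.ne']
    exact_mod_cast h1
  have hvEig : ρ h v = (zet p ^ j₀) • v := by
    rw [hv, map_smul, hv₀, smul_comm]
  -- the exponents
  set JW : Finset ℕ := (Finset.range p).filter
    (fun j => ∃ u ∈ W, u ≠ 0 ∧ ρ h u = (zet p ^ j) • u) with hJW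
  have hJWsub : JW ⊆ J := by
    intro j hj
    rw [hJW, Finset.mem_filter] at hj
    obtain ⟨hjp, u, -, hu0, hu⟩ := hj
    refine hJ j (Finset.mem_range.mp hjp) (ρ s₀⁻¹ u) (rho_ne_zero _ hu0) ?_
    have h1 : ρ x (ρ s₀⁻¹ u) = ρ s₀⁻¹ (ρ h u) := by
      rw [← rho_mul_apply, ← rho_mul_apply, hh_def]
      congr 2
      group
    rw [h1, hu, map_smul]
  have hJWcard : JW.card ≤ k := (Finset.card_le_card hJWsub).trans hcard
  have hj₀JW : j₀ ∈ JW := by
    rw [hJW, Finset.mem_filter]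
    exact ⟨Finset.mem_range.mpr hj₀, v₀, hv₀W, hv₀0, hv₀⟩
  obtain ⟨m, hm0, hmp, hm⟩ := dirichlet hp JW j₀ hj₀JW hJWcard hk
  have hmc : m.Coprime p := Nat.coprime_comm.mp ((Nat.Prime.coprime_iff_not_dvd hp).mpr
    (fun hd => absurd (Nat.le_of_dvd hm0 hd) (by omega)))
  set ε : ℂ := zet p ^ (m * j₀) with hε_def
  have hε : ‖ε‖ = 1 := by rw [hε_def, norm_pow, hnorm, one_pow]
  have hvm : ρ (h ^ m) v = ε • v := by
    rw [rho_pow_eig hvEig m, hε_def, ← pow_mul, mul_comm j₀ m]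
  have hnarrow : ∀ y ∈ W, (F.B y y).re / 2 ≤ (conj ε * F.B y (ρ (h ^ m) y)).re := by
    intro y hy
    refine narrow_of_spec F hζ hp0 hnorm hh W (hW h hhH) m ε ?_ hy
    intro j hj hex
    refine hm j ?_
    rw [hJW, Finset.mem_filter]
    exact ⟨Finset.mem_range.mpr hj, hex⟩
  have hfew2 : ¬ AllEig ρ W h p := by
    intro hall
    refine hbig JW hJWcard fun j hj => ?_
    rw [hJW, Finset.mem_filter]
    refine ⟨hj, hall _ ?_⟩
    rw [← pow_mul, mul_comm, pow_mul, hζ.pow_eq_one, one_pow]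
  have hfew : ¬ AllEig ρ W (h ^ m) p := fun hall => hfew2 (allEig_pow hp hh hmc hall)
  refine P_main F hp hζ H h hhH hh W hW v hvW hv1 (zet p ^ j₀) hvEig m hmc ε hε hvm hnarrow t₀ ht₀H hnc' hgen hline ?_
    hfew hfew2 z hz hmove
  intro a ha b hb h1 h2
  have hconjm : ∀ t : G, t * h ^ m * t⁻¹ = (t * s₀) * x ^ m * (t * s₀)⁻¹ := fun t => by
    rw [hh_def, conj_pow]
    group
  refine a1' hp hfaith hx hfewV hmc (hconjm a) ?_ h1 h2
  rw [conj_pow, ← pow_mul, mul_comm, pow_mul, hh, one_pow, mul_one, mul_inv_cancel]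

/-- **Theorem.** If an element `x` of prime order `p` has at most `k` eigenvalues in a faithful unitary
representation, with `6 ^ (k - 1) < p`, then any two conjugates of `x` commute. -/
theorem core [Fintype G] [FiniteDimensional ℂ V] (F : HForm ρ) (hfaith : Function.Injective ρ) {p : ℕ}
    (hp : p.Prime) {x : G} (hx : x ^ p = 1) (J : Finset ℕ)
    (hJ : ∀ j, j < p → ∀ v, v ≠ 0 → ρ x v = (zet p ^ j) • v → j ∈ J) {k : ℕ} (hcard : J.card ≤ k)
    (hk : 6 ^ (k - 1) < p) (g₁ g₂ : G) : Commute (g₁ * x * g₁⁻¹) (g₂ * x * g₂⁻¹) := by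
  classical
  by_contra hno
  have hp0 := hp.ne_zero
  have hζ := zet_prim hp0
  have hfewV : ¬ AllEig ρ ⊤ x p := by
    intro hall
    have hsub : Finset.range p ⊆ J := by
      intro j hj
      obtain ⟨v, -, hv0, hv⟩ := hall (zet p ^ j) (by rw [← pow_mul, mul_comm, pow_mul, hζ.pow_eq_one, one_pow])
      exact hJ j (Finset.mem_range.mp hj) v hv0 hv
    have h1 := Finset.card_le_card hsub
    rw [Finset.card_range] at h1
    have h2 : k - 1 < 6 ^ (k - 1) := Nat.lt_pow_self (by norm_num)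
    omega
  set S : Finset (G × G) := Finset.univ.filter
    (fun q : G × G => ¬ Commute (q.1 * x * q.1⁻¹) (q.2 * x * q.2⁻¹)) with hS
  have hSmem : ∀ q : G × G, q ∈ S ↔ ¬ Commute (q.1 * x * q.1⁻¹) (q.2 * x * q.2⁻¹) := by
    intro q
    simp [hS]
  obtain ⟨⟨s₀, s₁⟩, hq, hmin⟩ := Finset.exists_min_image S
    (fun q : G × G => Nat.card (Subgroup.closure ({q.1 * x * q.1⁻¹, q.2 * x * q.2⁻¹} : Set G)))
    ⟨(g₁, g₂), (hSmem _).mpr hno⟩
  have hmin' : ∀ q r : G, ¬ Commute (q * x * q⁻¹) (r * x * r⁻¹) →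
      Nat.card (Subgroup.closure ({s₀ * x * s₀⁻¹, s₁ * x * s₁⁻¹} : Set G)) ≤
      Nat.card (Subgroup.closure ({q * x * q⁻¹, r * x * r⁻¹} : Set G)) :=
    fun q r hc => hmin (q, r) ((hSmem _).mpr hc)
  have hq' := (hSmem _).mp hq
  simp only at hq'
  by_cases h1 : Commute (s₀ * x * s₀⁻¹) ((s₁ * x * s₁⁻¹) * (s₀ * x * s₀⁻¹) * (s₁ * x * s₁⁻¹)⁻¹)
  · by_cases h2 : Commute (s₁ * x * s₁⁻¹) ((s₀ * x * s₀⁻¹) * (s₁ * x * s₁⁻¹) * (s₀ * x * s₀⁻¹)⁻¹)
    · refine hq' (a1' hp hfaith hx hfewV (m := 1) (t := s₀) (Nat.coprime_one_left p) (by rw [pow_one]) ?_ h1 h2)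
      rw [conj_pow, hx, mul_one, mul_inv_cancel]
    · refine main_case F hfaith hp hx J hJ hcard hk s₁ s₀ ?_ h2
      intro q r hc
      rw [Set.pair_comm]
      exact hmin' q r hc
  · exact main_case F hfaith hp hx J hJ hcard hk s₀ s₁ hmin' h1

end Cfsg.Agent.Lib.Fusion.SpecD
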