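import Cfsg.Agent.Lib.Fusion.SpecD
import Cfsg.Prelude.Def_Characters

/-!
# The invariant Hermitian form and eigenvalue multiplicities for representations on coordinate spaces
-/

set_option autoImplicit false

namespace Cfsg.Agent.Lib.Fusion.SpecE

open scoped ComplexConjugate
open Cfsg.Agent.Lib.Fusion.SpecA Cfsg.Agent.Lib.Fusion.SpecB Cfsg.Agent.Lib.Fusion.SpecD

variable {G : Type*} [Group G] [Fintype G] {n : ℕ}

/-- The averaged form. -/
noncomputable def invForm (ρ : Representation ℂ G (Fin n → ℂ)) : HForm ρ where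
  B u v := ∑ g : G, ∑ i : Fin n, conj ((ρ g u) i) * (ρ g v) i
  add_right u v w := by
    simp only [map_add, Pi.add_apply, mul_add, Finset.sum_add_distrib]
  smul_right c u v := by
    simp only [map_smul, Pi.smul_apply, smul_eq_mul, Finset.mul_sum]
    refine Finset.sum_congr rfl fun g _ => Finset.sum_congr rfl fun i _ => ?_
    ring
  conj_symm u v := by
    simp only [map_sum, map_mul, Complex.conj_conj]
    refine Finset.sum_congr rfl fun g _ => Finset.sum_congr rfl fun i _ => ?_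
    ring
  pos v := by
    rw [Complex.re_sum]
    refine Finset.sum_nonneg fun g _ => ?_
    rw [Complex.re_sum]
    refine Finset.sum_nonneg fun i _ => ?_
    rw [mul_comm, Complex.mul_conj]
    simpa using Complex.normSq_nonneg _
  definite v hv := by
    have hterm : ∀ g : G, ∀ i : Fin n, 0 ≤ (conj ((ρ g v) i) * (ρ g v) i).re := by
      intro g i
      rw [mul_comm, Complex.mul_conj]
      simpa using Complex.normSq_nonneg _
    have h1 := congrArg Complex.re hv
    rw [Complex.re_sum, Complex.zero_re] at h1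
    have h2 := (Finset.sum_eq_zero_iff_of_nonneg (fun g _ => by
      rw [Complex.re_sum]
      exact Finset.sum_nonneg fun i _ => hterm g i)).mp h1 1 (Finset.mem_univ _)
    rw [Complex.re_sum] at h2
    have h3 := (Finset.sum_eq_zero_iff_of_nonneg (fun i _ => hterm 1 i)).mp h2
    funext i
    have h4 := h3 i (Finset.mem_univ _)
    rw [mul_comm, Complex.mul_conj] at h4
    simp only [map_one, Module.End.one_apply] at h4
    have h5 : Complex.normSq (v i) = 0 := by simpa using h4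
    exact Complex.normSq_eq_zero.mp h5
  inv g u v := by
    refine Fintype.sum_equiv (Equiv.mulRight g) _ _ fun h => ?_
    simp only [Equiv.coe_mulRight, map_mul, Module.End.mul_apply]

/-- The projection as a linear map. -/
noncomputable def projL (ρ : Representation ℂ G (Fin n → ℂ)) (x : G) (ζ : ℂ) (p j : ℕ) :
    (Fin n → ℂ) →ₗ[ℂ] (Fin n → ℂ) :=
  (p : ℂ)⁻¹ • ∑ i ∈ Finset.range p, ((ζ ^ j)⁻¹ ^ i) • ρ (x ^ i)

theorem projL_apply (ρ : Representation ℂ G (Fin n → ℂ)) (x : G) (ζ : ℂ) (p j : ℕ) (z : Fin n → ℂ) :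
    projL ρ x ζ p j z = proj ρ x ζ p j z := by
  simp [projL, proj, LinearMap.sum_apply]

theorem proj_fix {ρ : Representation ℂ G (Fin n → ℂ)} {x : G} {ζ : ℂ} {p j : ℕ} (hζ : IsPrimitiveRoot ζ p)
    (hp0 : p ≠ 0) {v : Fin n → ℂ} (hv : ρ x v = (ζ ^ j) • v) : proj ρ x ζ p j v = v := by
  unfold proj
  have hζj : ζ ^ j ≠ 0 := pow_ne_zero _ (hζ.ne_zero hp0)
  have h1 : ∀ i ∈ Finset.range p, ((ζ ^ j)⁻¹ ^ i) • ρ (x ^ i) v = v := by
    intro i _
    rw [rho_pow_eig (ρ := ρ) hv i, smul_smul, ← mul_pow, inv_mul_cancel₀ hζj, one_pow, one_smul]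
  rw [Finset.sum_congr rfl h1, Finset.sum_const, Finset.card_range, ← Nat.cast_smul_eq_nsmul ℂ, smul_smul,
    inv_mul_cancel₀ (by exact_mod_cast hp0), one_smul]

/-- The multiplicity of `ζ ^ j` as an eigenvalue of `ρ x`. -/
noncomputable def mult (ρ : Representation ℂ G (Fin n → ℂ)) (x : G) (ζ : ℂ) (p j : ℕ) : ℕ :=
  Module.finrank ℂ (LinearMap.range (projL ρ x ζ p j))

theorem isProj {ρ : Representation ℂ G (Fin n → ℂ)} {x : G} {ζ : ℂ} {p : ℕ} (hζ : IsPrimitiveRoot ζ p)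
    (hp0 : p ≠ 0) (hx : x ^ p = 1) (j : ℕ) :
    LinearMap.IsProj (LinearMap.range (projL ρ x ζ p j)) (projL ρ x ζ p j) := by
  refine ⟨fun z => LinearMap.mem_range_self _ z, ?_⟩
  rintro y ⟨z, rfl⟩
  rw [projL_apply, projL_apply]
  exact proj_fix hζ hp0 (proj_eig hζ hp0 hx j z)

theorem mult_cast {ρ : Representation ℂ G (Fin n → ℂ)} {x : G} {ζ : ℂ} {p : ℕ} (hζ : IsPrimitiveRoot ζ p)
    (hp0 : p ≠ 0) (hx : x ^ p = 1) (j : ℕ) :
    (mult ρ x ζ p j : ℂ) = (p : ℂ)⁻¹ * ∑ i ∈ Finset.range p, ((ζ ^ j)⁻¹ ^ i) * ρ.character (x ^ i) := by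
  unfold mult
  rw [← (isProj hζ hp0 hx j).trace, projL, map_smul, map_sum, smul_eq_mul]
  congr 1
  refine Finset.sum_congr rfl fun i _ => ?_
  rw [map_smul, smul_eq_mul]
  rfl

theorem mult_sum {ρ : Representation ℂ G (Fin n → ℂ)} {x : G} {ζ : ℂ} {p : ℕ} (hζ : IsPrimitiveRoot ζ p)
    (hp0 : p ≠ 0) (hx : x ^ p = 1) : ∑ j ∈ Finset.range p, mult ρ x ζ p j = n := by
  have h1 : ∑ j ∈ Finset.range p, projL ρ x ζ p j = LinearMap.id := by
    refine LinearMap.ext fun z => ?_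
    rw [LinearMap.sum_apply]
    simp only [projL_apply]
    exact proj_sum hζ hp0 x z
  have h2 : ((∑ j ∈ Finset.range p, mult ρ x ζ p j : ℕ) : ℂ) = (n : ℂ) := by
    push_cast
    have h3 : ∀ j ∈ Finset.range p, (mult ρ x ζ p j : ℂ) = LinearMap.trace ℂ (Fin n → ℂ) (projL ρ x ζ p j) :=
      fun j _ => ((isProj hζ hp0 hx j).trace).symm
    rw [Finset.sum_congr rfl h3, ← map_sum, h1, LinearMap.trace_id]
    simp
  exact_mod_cast h2

theorem mult_ne_zero {ρ : Representation ℂ G (Fin n → ℂ)} {x : G} {ζ : ℂ} {p j : ℕ} (hζ : IsPrimitiveRoot ζ p)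
    (hp0 : p ≠ 0) {v : Fin n → ℂ} (hv0 : v ≠ 0) (hv : ρ x v = (ζ ^ j) • v) : mult ρ x ζ p j ≠ 0 := by
  intro h0
  have h1 : LinearMap.range (projL ρ x ζ p j) = ⊥ := Submodule.finrank_eq_zero.mp h0
  have h2 : projL ρ x ζ p j v ∈ LinearMap.range (projL ρ x ζ p j) := LinearMap.mem_range_self _ v
  rw [h1, Submodule.mem_bot, projL_apply, proj_fix hζ hp0 hv] at h2
  exact hv0 h2

end Cfsg.Agent.Lib.Fusion.SpecE
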