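import Cfsg.Agent.Lib.Fusion.SpecE
import Cfsg.Agent.Lib.Char.NoMixed
import Cfsg.Agent.Lib.Blocks.PElements
import Cfsg.Agent.Lib.Blocks.Central
import Cfsg.Agent.Lib.Char.Values2
import Cfsg.Agent.Lib.Blocks.HeightZero

/-!
# Eigenvalue multiplicities of principal block characters
-/

set_option autoImplicit false

namespace Cfsg.Agent.Lib.Fusion.SpecF

open scoped ComplexConjugate
open Cfsg Cfsg.Agent.Lib.Blocks.Local
open Cfsg.Agent.Lib.Fusion.SpecA Cfsg.Agent.Lib.Fusion.SpecB Cfsg.Agent.Lib.Fusion.SpecD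
  Cfsg.Agent.Lib.Fusion.SpecE

variable {G : Type*} [Group G] [Fintype G] {n : ℕ}

/-- The multiplicities are divisible by `B`. -/
theorem B_dvd_mult {p : ℕ} (hp : p.Prime) {M : Ideal AlgInt} (hM : IsPModular p M)
    (χ : IrrCharacter G) (hχ : χ ∈ principalBlock M G) (ρ : Representation ℂ G (Fin n → ℂ))
    (hρ : ρ.character = (χ : G → ℂ)) (x : G) (hx : x ^ p = 1) {I d B u : ℕ}
    (hI : (Subgroup.centralizer ({x} : Set G)).index = I)
    (hC : ∀ i, 0 < i → i < p → (Subgroup.centralizer ({x ^ i} : Set G)).index = I)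
    (hIp : ¬ p ∣ I) (hn : n = d * B) (hn0 : n ≠ 0) (hId : I = d * u) (hcop : Nat.Coprime u B) (j : ℕ) :
    B ∣ mult ρ x (zet p) p j := by
  classical
  have hp0 := hp.ne_zero
  haveI := isPrime_of_isPModular hM
  have hζ := zet_prim hp0
  have hd0 : d ≠ 0 := by
    rintro rfl
    simp at hn
    exact hn0 hn
  have hB0 : B ≠ 0 := by
    rintro rfl
    simp at hn
    exact hn0 hn
  have hdC : (d : ℂ) ≠ 0 := by exact_mod_cast hd0
  have hBC : (B : ℂ) ≠ 0 := by exact_mod_cast hB0
  have hu : ¬ p ∣ u := fun h => hIp (by rw [hId]; exact Dvd.dvd.mul_left h d)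
  have hχ1 : (χ : G → ℂ) 1 = (n : ℂ) := by
    rw [← hρ, ρ.char_one]
    simp
  set α : ℕ → ℂ := fun i => (χ : G → ℂ) (x ^ i) / B with hα
  have hα0 : α 0 = d := by
    simp only [hα, pow_zero, hχ1, hn]
    push_cast
    field_simp
  -- the central character
  have hcc : ∀ i, 0 < i → i < p → centralChar (χ : G → ℂ) (x ^ i) = u * α i := by
    intro i h0 h1
    unfold centralChar
    rw [hC i h0 h1, hχ1, hId, hn]
    simp only [hα]
    push_cast
    field_simp
  have hic : ∀ z : ℤ, IsIntegral ℤ (z : ℂ) := fun z => by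
    simpa using isIntegral_algebraMap (R := ℤ) (A := ℂ) (x := z)
  have hint : ∀ i, i < p → IsIntegral ℤ (α i) := by
    intro i h1
    rcases Nat.eq_zero_or_pos i with rfl | h0
    · rw [hα0]
      exact isIntegral_natCast (R := ℤ) (B := ℂ) _
    have h2 : IsIntegral ℤ ((u : ℂ) * α i) := by
      rw [← hcc i h0 h1]
      exact Cfsg.Agent.Lib.Blocks.Central.isIntegral_centralChar χ.2 _
    have h3 : IsIntegral ℤ ((B : ℂ) * α i) := by
      have : (B : ℂ) * α i = (χ : G → ℂ) (x ^ i) := by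
        simp only [hα]
        field_simp
      rw [this]
      exact Cfsg.Agent.Lib.Blocks.Central.isIntegral_irr χ.2 _
    have hbez := Nat.gcd_eq_gcd_ab u B
    rw [hcop.gcd_eq_one] at hbez
    have h4 : α i = ((Nat.gcdA u B : ℤ) : ℂ) * ((u : ℂ) * α i) + ((Nat.gcdB u B : ℤ) : ℂ) * ((B : ℂ) * α i) := by
      have h5 : ((u : ℂ) * ((Nat.gcdA u B : ℤ) : ℂ) + (B : ℂ) * ((Nat.gcdB u B : ℤ) : ℂ)) = 1 := by
        have := congrArg (fun z : ℤ => (z : ℂ)) hbez
        simp only [Int.cast_add, Int.cast_mul, Int.cast_natCast, Nat.cast_one, Int.cast_one] at this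
        exact this.symm
      linear_combination (-(α i)) * h5
    rw [h4]
    exact IsIntegral.add (IsIntegral.mul (hic _) h2) (IsIntegral.mul (hic _) h3)
  -- the block congruence
  have hblock : ∀ i, i < p → MemLocalIdeal M (α i - d) := by
    intro i h1
    rcases Nat.eq_zero_or_pos i with rfl | h0
    · rw [hα0, sub_self]
      exact memLocalIdeal_zero
    have h2 : MemLocalIdeal M (centralChar (fun _ : G => (1 : ℂ)) (x ^ i) - centralChar (χ : G → ℂ) (x ^ i)) :=
      hχ (x ^ i)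
    have h3 : centralChar (fun _ : G => (1 : ℂ)) (x ^ i) = (I : ℂ) := by
      simp [centralChar, hC i h0 h1]
    rw [h3, hcc i h0 h1, hId] at h2
    have h4 := memLocalIdeal_mul_left (memLocalRing_inv_natCast hM hu) (memLocalIdeal_neg h2)
    have huC : (u : ℂ) ≠ 0 := by
      intro h5
      have : u = 0 := by exact_mod_cast h5
      exact hu (by rw [this]; exact dvd_zero p)
    have h5 : (u : ℂ)⁻¹ * -(((d * u : ℕ) : ℂ) - (u : ℂ) * α i) = α i - d := by
      push_cast
      field_simp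
      ring
    rwa [h5] at h4
  -- the weights
  set w : ℕ → ℂ := fun i => ((zet p ^ j)⁻¹) ^ i with hw
  have hwp : ∀ i, (w i) ^ p = 1 := by
    intro i
    simp only [hw]
    rw [← pow_mul, mul_comm, pow_mul, inv_pow, ← pow_mul, mul_comm j p, pow_mul, hζ.pow_eq_one]
    simp
  have hwint : ∀ i, IsIntegral ℤ (w i) := fun i =>
    IsIntegral.of_pow hp.pos (by rw [hwp]; exact isIntegral_one)
  have hwloc : ∀ i, MemLocalRing M (w i) := fun i =>
    Cfsg.Agent.Lib.Blocks.HeightZero.memLocalRing_of_pow_eq_one hp.pos (hwp i)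
  have hw1 : ∀ i, MemLocalIdeal M (w i - 1) := fun i =>
    Cfsg.Agent.Lib.Blocks.PElements.memLocalIdeal_sub_one_of_pow hM (k := 1) (by rw [pow_one]; exact hwp i)
  set τ : ℂ := ∑ i ∈ Finset.range p, w i * α i with hτ
  have hmult : (p : ℂ) * (mult ρ x (zet p) p j : ℂ) = B * τ := by
    rw [mult_cast hζ hp0 hx, ← mul_assoc, mul_inv_cancel₀ (by exact_mod_cast hp0), one_mul, hτ, Finset.mul_sum]
    refine Finset.sum_congr rfl fun i _ => ?_
    simp only [hα, hw, hρ]
    field_simp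
  have hτint : IsIntegral ℤ τ := by
    rw [hτ]
    exact IsIntegral.sum _ fun i hi => IsIntegral.mul (hwint i) (hint i (Finset.mem_range.mp hi))
  have hτeq : τ = ((p * mult ρ x (zet p) p j : ℕ) : ℂ) / (B : ℂ) := by
    push_cast
    rw [hmult]
    field_simp
  have hBdvd : B ∣ p * mult ρ x (zet p) p j := by
    apply Cfsg.Agent.Lib.Char.Values2.dvd_of_isIntegral_div hB0
    rw [← hτeq]
    exact hτint
  obtain ⟨t, ht⟩ := hBdvd
  have hτt : τ = (t : ℂ) := by
    rw [hτeq, ht]
    push_cast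
    field_simp
  have hτloc : MemLocalIdeal M τ := by
    have hdec : τ = ∑ i ∈ Finset.range p, w i * (α i - d) + (d : ℂ) * ∑ i ∈ Finset.range p, (w i - 1) + (d : ℂ) * p := by
      rw [hτ, mul_comm (d : ℂ) (∑ i ∈ Finset.range p, (w i - 1)), Finset.sum_mul]
      have : (d : ℂ) * p = ∑ i ∈ Finset.range p, (d : ℂ) := by
        rw [Finset.sum_const, Finset.card_range, nsmul_eq_mul, mul_comm]
      rw [this, ← Finset.sum_add_distrib, ← Finset.sum_add_distrib]
      refine Finset.sum_congr rfl fun i _ => ?_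
      ring
    have hdloc : MemLocalRing M (d : ℂ) := ⟨(d : AlgInt), 1, by
      intro h
      exact (Ideal.ne_top_iff_one M).mp (isPrime_of_isPModular hM).ne_top h, by simp⟩
    rw [hdec]
    refine memLocalIdeal_add (memLocalIdeal_add ?_ ?_) ?_
    · exact memLocalIdeal_sum _ _ fun i hi =>
        memLocalIdeal_mul_left (hwloc i) (hblock i (Finset.mem_range.mp hi))
    · exact memLocalIdeal_mul_left hdloc (memLocalIdeal_sum _ _ fun i _ => hw1 i)
    · exact memLocalIdeal_mul_left hdloc (memLocalIdeal_natCast_self hM)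
  rw [hτt] at hτloc
  obtain ⟨t', rfl⟩ := (memLocalIdeal_natCast_iff hM).mp hτloc
  have h6 : p * mult ρ x (zet p) p j = p * (B * t') := by
    rw [ht]
    ring
  rw [Nat.eq_of_mul_eq_mul_left hp.pos h6]
  exact Dvd.intro _ rfl

/-- The number of eigenvalues is at most `d`. -/
theorem card_le {p : ℕ} (hp : p.Prime) {M : Ideal AlgInt} (hM : IsPModular p M)
    (χ : IrrCharacter G) (hχ : χ ∈ principalBlock M G) (ρ : Representation ℂ G (Fin n → ℂ))
    (hρ : ρ.character = (χ : G → ℂ)) (x : G) (hx : x ^ p = 1) {I d B u : ℕ}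
    (hI : (Subgroup.centralizer ({x} : Set G)).index = I)
    (hC : ∀ i, 0 < i → i < p → (Subgroup.centralizer ({x ^ i} : Set G)).index = I)
    (hIp : ¬ p ∣ I) (hn : n = d * B) (hn0 : n ≠ 0) (hId : I = d * u) (hcop : Nat.Coprime u B) (J : Finset ℕ)
    (hJ : J ⊆ Finset.range p) (hJ2 : ∀ j ∈ J, ∃ v : Fin n → ℂ, v ≠ 0 ∧ ρ x v = (zet p ^ j) • v) :
    J.card ≤ d := by
  classical
  have hp0 := hp.ne_zero
  have hζ := zet_prim hp0
  have hB0 : 0 < B := by
    rcases Nat.eq_zero_or_pos B with rfl | h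
    · simp at hn
      exact absurd hn hn0
    · exact h
  have h1 : J.card * B ≤ n := by
    calc J.card * B = ∑ j ∈ J, B := by rw [Finset.sum_const, smul_eq_mul]
      _ ≤ ∑ j ∈ J, mult ρ x (zet p) p j := by
        refine Finset.sum_le_sum fun j hj => ?_
        obtain ⟨v, hv0, hv⟩ := hJ2 j hj
        exact Nat.le_of_dvd (Nat.pos_of_ne_zero (mult_ne_zero hζ hp0 hv0 hv))
          (B_dvd_mult hp hM χ hχ ρ hρ x hx hI hC hIp hn hn0 hId hcop j)
      _ ≤ ∑ j ∈ Finset.range p, mult ρ x (zet p) p j := Finset.sum_le_sum_of_subset hJ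
      _ = n := mult_sum hζ hp0 hx
  rw [hn] at h1
  exact Nat.le_of_mul_le_mul_right h1 hB0

end Cfsg.Agent.Lib.Fusion.SpecF
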