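import Cfsg.Agent.Lib.Fusion.SpecF
import Cfsg.Agent.Lib.Char.Ortho
import Cfsg.Agent.Lib.Char.Kazarin
import Cfsg.Agent.Lib.Blocks.RegInt

/-!
# Brauer's bound on the cofactor of the order of a simple group
-/

set_option autoImplicit false

namespace Cfsg.Agent.Lib.Fusion.SpecG

open scoped ComplexConjugate
open Cfsg
open Cfsg.Agent.Lib.Fusion.SpecA Cfsg.Agent.Lib.Fusion.SpecB Cfsg.Agent.Lib.Fusion.SpecD
  Cfsg.Agent.Lib.Fusion.SpecE Cfsg.Agent.Lib.Fusion.SpecF

theorem prime_ne_six_pow {p e : ℕ} (hp : p.Prime) : p ≠ 6 ^ e := by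
  rintro rfl
  rcases Nat.eq_zero_or_pos e with rfl | he
  · simpa using hp.one_lt.ne'
  · have h2 : 2 ∣ 6 ^ e := dvd_pow (by norm_num) he.ne'
    have h3 : 3 ∣ 6 ^ e := dvd_pow (by norm_num) he.ne'
    have e2 := (Nat.prime_dvd_prime_iff_eq Nat.prime_two hp).mp h2
    have e3 := (Nat.prime_dvd_prime_iff_eq Nat.prime_three hp).mp h3
    omega

/-- If all conjugates of a non-identity element of a simple group commute then the group is generated by
the element. -/
theorem card_of_comm {G : Type*} [Group G] [Finite G] [IsSimpleGroup G] {x : G} (hx1 : x ≠ 1)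
    (hall : ∀ g₁ g₂ : G, Commute (g₁ * x * g₁⁻¹) (g₂ * x * g₂⁻¹)) : Nat.card G = orderOf x := by
  classical
  set S : Set G := Group.conjugatesOfSet ({x} : Set G) with hS
  have hSc : ∀ s ∈ S, ∀ s' ∈ S, Commute s s' := by
    intro s hs s' hs'
    obtain ⟨b, hb, hbs⟩ := Group.mem_conjugatesOfSet_iff.mp hs
    obtain ⟨b', hb', hbs'⟩ := Group.mem_conjugatesOfSet_iff.mp hs'
    rw [Set.mem_singleton_iff.mp hb] at hbs
    rw [Set.mem_singleton_iff.mp hb'] at hbs'
    obtain ⟨c, hc⟩ := isConj_iff.mp hbs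
    obtain ⟨c', hc'⟩ := isConj_iff.mp hbs'
    rw [← hc, ← hc']
    exact hall c c'
  have hcomm1 : ∀ s ∈ S, ∀ g ∈ Subgroup.closure S, Commute s g := by
    intro s hs g hg
    induction hg using Subgroup.closure_induction with
    | mem y hy => exact hSc s hs y hy
    | one => exact Commute.one_right _
    | mul y z _ _ hy hz => exact hy.mul_right hz
    | inv y _ hy => exact hy.inv_right
  have hcomm2 : ∀ g ∈ Subgroup.closure S, ∀ g' ∈ Subgroup.closure S, Commute g' g := by
    intro g hg g' hg'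
    induction hg' using Subgroup.closure_induction with
    | mem y hy => exact hcomm1 y hy g hg
    | one => exact Commute.one_left _
    | mul y z _ _ hy hz => exact hy.mul_left hz
    | inv y _ hy => exact hy.inv_left
  have hN : Subgroup.normalClosure ({x} : Set G) = ⊤ := by
    refine (IsSimpleGroup.eq_bot_or_eq_top_of_normal _ (Subgroup.normalClosure_normal)).resolve_left ?_
    intro h0
    have : x ∈ Subgroup.normalClosure ({x} : Set G) :=
      Subgroup.conjugatesOfSet_subset_normalClosure (Group.subset_conjugatesOfSet (by simp))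
    rw [h0, Subgroup.mem_bot] at this
    exact hx1 this
  have hcl : Subgroup.closure S = ⊤ := hN
  have hc : ∀ g g' : G, Commute g' g := fun g g' =>
    hcomm2 g (by rw [hcl]; trivial) g' (by rw [hcl]; trivial)
  have hz : (Subgroup.zpowers x).Normal := by
    refine ⟨fun n hn g => ?_⟩
    have h1 : g * n * g⁻¹ = n := by
      rw [(hc n g).eq]
      group
    rwa [h1]
  rcases IsSimpleGroup.eq_bot_or_eq_top_of_normal _ hz with h | h
  · exact absurd (Subgroup.zpowers_eq_bot.mp h) hx1
  · rw [← Nat.card_zpowers, h, Subgroup.card_top]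

/-- Faithfulness of a nontrivial irreducible representation of a simple group. -/
theorem faithful {G : Type*} [Group G] [Fintype G] [IsSimpleGroup G] {n : ℕ}
    (χ : IrrCharacter G) (ρ : Representation ℂ G (Fin n → ℂ)) (hρ : ρ.character = (χ : G → ℂ))
    (hne : (χ : G → ℂ) ≠ fun _ => 1) : Function.Injective ρ := by
  classical
  rcases IsSimpleGroup.eq_bot_or_eq_top_of_normal (MonoidHom.ker ρ) (MonoidHom.normal_ker ρ) with h | h
  · exact (MonoidHom.ker_eq_bot_iff ρ).mp h
  · exfalso
    have hρ1 : ∀ g, ρ g = ρ 1 := by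
      intro g
      rw [map_one]
      have : g ∈ MonoidHom.ker ρ := by rw [h]; trivial
      exact this
    have hχc : ∀ g, (χ : G → ℂ) g = (n : ℂ) := by
      intro g
      rw [← hρ]
      show LinearMap.trace ℂ (Fin n → ℂ) (ρ g) = (n : ℂ)
      rw [hρ1 g]
      have h2 := ρ.char_one
      have h3 : ρ.character 1 = LinearMap.trace ℂ (Fin n → ℂ) (ρ 1) := rfl
      rw [← h3, h2]
      simp
    have h1 := Cfsg.Agent.Lib.Char.Ortho.classInner_irr_self χ.2
    unfold classInner at h1
    simp only [hχc, map_natCast, Finset.sum_const, Finset.card_univ, nsmul_eq_mul] at h1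
    have hc0 : (Fintype.card G : ℂ) ≠ 0 := by
      exact_mod_cast Fintype.card_ne_zero
    rw [Nat.card_eq_fintype_card, ← mul_assoc, inv_mul_cancel₀ hc0, one_mul] at h1
    have h4 : n * n = 1 := by exact_mod_cast h1
    have h5 : n = 1 := Nat.eq_one_of_mul_eq_one_right h4
    apply hne
    funext g
    rw [hχc, h5]
    simp

/-- **Brauer's theorem.** -/
theorem main {G : Type*} [Group G] [Finite G] [IsSimpleGroup G] (p q a b g₀ : ℕ) (hp : p.Prime) (hq : q.Prime)
    (hpq : p ≠ q) (ha : 0 < a) (hg : Nat.card G = p ^ a * q ^ b * g₀) (hcop : ¬ p ∣ g₀) (hcoq : ¬ q ∣ g₀)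
    (hne : Nat.card G ≠ p) : p < 6 ^ (g₀ - 1) := by
  classical
  by_contra hlt
  haveI : Fintype G := Fintype.ofFinite G
  haveI : Fact p.Prime := ⟨hp⟩
  have hp0 := hp.ne_zero
  have hk : 6 ^ (g₀ - 1) < p := lt_of_le_of_ne (not_lt.mp hlt) (prime_ne_six_pow hp).symm
  have hdvdG : p ∣ Nat.card G := by
    rw [hg]
    exact Dvd.dvd.mul_right (Dvd.dvd.mul_right (dvd_pow_self p ha.ne') _) _
  -- a central element of a Sylow subgroup
  let P : Sylow p G := default
  have hPne : (P : Subgroup G) ≠ ⊥ := P.ne_bot_of_dvd_card hdvdG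
  haveI : Nontrivial (P : Subgroup G) := (Subgroup.nontrivial_iff_ne_bot _).mpr hPne
  have hPp : IsPGroup p (P : Subgroup G) := P.isPGroup'
  haveI hZnt : Nontrivial (Subgroup.center (P : Subgroup G)) := hPp.center_nontrivial
  have hZp : IsPGroup p (Subgroup.center (P : Subgroup G)) := hPp.to_subgroup _
  obtain ⟨e, he⟩ := IsPGroup.iff_card.mp hZp
  have he0 : e ≠ 0 := by
    rintro rfl
    have := Finite.one_lt_card (α := Subgroup.center (P : Subgroup G))
    rw [he] at this
    simp at this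
  have hdZ : p ∣ Nat.card (Subgroup.center (P : Subgroup G)) := by
    rw [he]
    exact dvd_pow_self p he0
  obtain ⟨z, hz⟩ := exists_prime_orderOf_dvd_card' p hdZ
  set x : G := (((z : (P : Subgroup G)) : G)) with hxdef
  have hord : orderOf x = p := by
    rw [hxdef, Subgroup.orderOf_coe, Subgroup.orderOf_coe, hz]
  have hxp : x ^ p = 1 := by rw [← hord]; exact pow_orderOf_eq_one x
  have hx1 : x ≠ 1 := by
    intro h0
    rw [h0, orderOf_one] at hord
    exact hp.one_lt.ne hord
  have hcentral : (P : Subgroup G) ≤ Subgroup.centralizer ({x} : Set G) := by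
    intro y hy
    rw [Subgroup.mem_centralizer_iff]
    intro t ht
    rw [Set.mem_singleton_iff.mp ht]
    have h1 := Subgroup.mem_center_iff.mp z.2 ⟨y, hy⟩
    have h2 := congrArg Subtype.val h1
    exact h2.symm
  set I : ℕ := (Subgroup.centralizer ({x} : Set G)).index with hI
  have hIp : ¬ p ∣ I := fun h => P.not_dvd_index (h.trans (Subgroup.index_dvd_of_le hcentral))
  have hC : ∀ i, 0 < i → i < p → (Subgroup.centralizer ({x ^ i} : Set G)).index = I := by
    intro i h0 h1
    have hcop' : i.Coprime p := Nat.coprime_comm.mp ((Nat.Prime.coprime_iff_not_dvd hp).mpr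
      (fun hd => absurd (Nat.le_of_dvd h0 hd) (by omega)))
    obtain ⟨t, -, ht⟩ := Nat.exists_mul_mod_eq_one_of_coprime hcop' hp.one_lt
    have hxt : (x ^ i) ^ t = x := by
      rw [← pow_mul, pow_eq_pow_mod _ hxp, ht, pow_one]
    have : Subgroup.centralizer ({x ^ i} : Set G) = Subgroup.centralizer ({x} : Set G) := by
      apply le_antisymm
      · intro g hg
        rw [Subgroup.mem_centralizer_iff] at hg ⊢
        intro s hs
        rw [Set.mem_singleton_iff.mp hs]
        have h2 : Commute (x ^ i) g := hg (x ^ i) (by simp)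
        have h3 := h2.pow_left t
        rw [hxt] at h3
        exact h3
      · intro g hg
        rw [Subgroup.mem_centralizer_iff] at hg ⊢
        intro s hs
        rw [Set.mem_singleton_iff.mp hs]
        have h2 : Commute x g := hg x (by simp)
        exact h2.pow_left i
    rw [this]
  -- the character
  obtain ⟨M, hM⟩ := Cfsg.Agent.Lib.Char.Kazarin.exists_modular p hp
  have hPart : IsPPart p x x := by
    refine ⟨1, mul_one x, Commute.one_right x, ⟨1, by rw [hord, pow_one]⟩, ?_⟩
    rw [orderOf_one]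
    exact fun h => hp.one_lt.ne' (Nat.dvd_one.mp h)
  obtain ⟨χ, hχ, hχne, hχ0, hqd⟩ := Cfsg.Agent.Lib.Char.NoMixed.exists_block_char hM hPart hx1 hq
  obtain ⟨n, ρ, hirr, hρ⟩ := χ.2
  have hχ1 : (χ : G → ℂ) 1 = (n : ℂ) := by
    rw [← hρ, ρ.char_one]
    simp
  have hdeg : charDegree (χ : G → ℂ) = n := by
    have h2 := Cfsg.Agent.Lib.Blocks.RegInt.charDegree_cast χ
    rw [hχ1] at h2
    exact_mod_cast h2
  rw [hdeg] at hqd
  have hn0 : n ≠ 0 := by
    rintro rfl
    apply hχ0
    rw [← hρ]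
    show LinearMap.trace ℂ (Fin 0 → ℂ) (ρ x) = 0
    have : ρ x = 0 := by
      refine LinearMap.ext fun v => ?_
      exact Subsingleton.elim _ _
    rw [this, map_zero]
  have hI0 : 0 < I := Nat.pos_of_ne_zero (fun h0 => hIp (by rw [h0]; exact dvd_zero p))
  set d : ℕ := Nat.gcd n I with hd
  have hd0 : 0 < d := Nat.gcd_pos_of_pos_left _ (Nat.pos_of_ne_zero hn0)
  have hn : n = d * (n / d) := (Nat.mul_div_cancel' (Nat.gcd_dvd_left n I)).symm
  have hId : I = d * (I / d) := (Nat.mul_div_cancel' (Nat.gcd_dvd_right n I)).symm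
  have hcop2 : Nat.Coprime (I / d) (n / d) := (Nat.coprime_div_gcd_div_gcd hd0).symm
  -- `d` divides `g₀`
  have hdg : d ∣ g₀ := by
    have h1 : I ∣ Nat.card G := Subgroup.index_dvd_card _
    rw [hg, mul_assoc] at h1
    have h2 : Nat.Coprime I (p ^ a) :=
      Nat.Coprime.pow_right _ (Nat.coprime_comm.mp ((Nat.Prime.coprime_iff_not_dvd hp).mpr hIp))
    have h3 : I ∣ q ^ b * g₀ := h2.dvd_of_dvd_mul_left h1
    have h4 : d ∣ q ^ b * g₀ := (Nat.gcd_dvd_right n I).trans h3
    have h5 : Nat.Coprime d (q ^ b) := by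
      refine Nat.Coprime.pow_right _ (Nat.coprime_comm.mp ((Nat.Prime.coprime_iff_not_dvd hq).mpr ?_))
      exact fun h => hqd (h.trans (Nat.gcd_dvd_left n I))
    exact h5.dvd_of_dvd_mul_left h4
  have hg₀ : g₀ ≠ 0 := fun h0 => hcop (by rw [h0]; exact dvd_zero p)
  have hdle : d ≤ g₀ := Nat.le_of_dvd (Nat.pos_of_ne_zero hg₀) hdg
  set J : Finset ℕ := (Finset.range p).filter
    (fun j => ∃ v : Fin n → ℂ, v ≠ 0 ∧ ρ x v = (zet p ^ j) • v) with hJ
  have hJcard : J.card ≤ g₀ := by
    refine le_trans (card_le hp hM χ hχ ρ hρ x hxp (I := I) (d := d) (B := n / d) (u := I / d) rfl hC hIp hn hn0 hId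
      hcop2 J (Finset.filter_subset _ _) ?_) hdle
    intro j hj
    exact (Finset.mem_filter.mp hj).2
  have hJmem : ∀ j, j < p → ∀ v : Fin n → ℂ, v ≠ 0 → ρ x v = (zet p ^ j) • v → j ∈ J := by
    intro j hj v hv0 hv
    exact Finset.mem_filter.mpr ⟨Finset.mem_range.mpr hj, v, hv0, hv⟩
  have hfaith : Function.Injective ρ := by
    refine faithful χ ρ hρ ?_
    intro h0
    apply hχne
    exact Subtype.ext h0
  have hall : ∀ g₁ g₂ : G, Commute (g₁ * x * g₁⁻¹) (g₂ * x * g₂⁻¹) :=
    core (invForm ρ) hfaith hp hxp J hJmem hJcard hk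
  apply hne
  rw [card_of_comm hx1 hall, hord]

end Cfsg.Agent.Lib.Fusion.SpecG
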